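import Cfsg.Agent.Lib.Amalgam.Components

/-!
# Chains of commutator partners

`⁅A, B⁆, ⁅B, C⁆ ∈ S` with `A, C` commuting: the group `⟨A, B, C⟩` is nilpotent.
-/

set_option autoImplicit false

namespace Cfsg.Agent.Lib.Amalgam.Chain

open Cfsg Cfsg.Agent.Lib.Amalgam.RankOne Cfsg.Agent.Lib.Amalgam.RootSet Cfsg.Agent.Lib.Amalgam.CommCase
open Cfsg.Agent.Lib.Amalgam.Lines Cfsg.Agent.Lib.Amalgam.Components
open scoped commutatorElement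

variable {G : Type*} [Group G] {S : Set (Subgroup G)}

/-! ### Generalities on commutators -/

lemma comm_sup_left {U V W : Subgroup G} (h1 : ∀ u ∈ U, ∀ w ∈ W, u * w = w * u) (h2 : ∀ v ∈ V, ∀ w ∈ W, v * w = w * v) :
    ∀ x ∈ U ⊔ V, ∀ w ∈ W, x * w = w * x := by
  have hle : U ⊔ V ≤ Subgroup.centralizer (W : Set G) := by
    apply sup_le
    · intro u hu
      rw [Subgroup.mem_centralizer_iff]
      exact fun w hw => (h1 u hu w hw).symm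
    · intro u hu
      rw [Subgroup.mem_centralizer_iff]
      exact fun w hw => (h2 u hu w hw).symm
  intro x hx w hw
  have := hle hx
  rw [Subgroup.mem_centralizer_iff] at this
  exact (this w hw).symm

lemma comm_sup_right {U V W : Subgroup G} (h1 : ∀ w ∈ W, ∀ u ∈ U, w * u = u * w) (h2 : ∀ w ∈ W, ∀ v ∈ V, w * v = v * w) :
    ∀ w ∈ W, ∀ x ∈ U ⊔ V, w * x = x * w := fun w hw x hx =>
  (comm_sup_left (fun u hu w hw => (h1 w hw u hu).symm) (fun v hv w hw => (h2 w hw v hv).symm) x hx w hw).symm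

/-- Elementwise commutators of `x` with a varying element lying in a normalized subgroup. -/
lemma comm_mem_sup_right {R L : Subgroup G} (hN : ∀ r ∈ R, ∀ l ∈ L, r * l * r⁻¹ ∈ L) {x : G} {U V : Subgroup G}
    (hU : U ≤ R) (hV : V ≤ R) (h1 : ∀ y ∈ U, x * y * x⁻¹ * y⁻¹ ∈ L) (h2 : ∀ y ∈ V, x * y * x⁻¹ * y⁻¹ ∈ L) :
    ∀ y ∈ U ⊔ V, x * y * x⁻¹ * y⁻¹ ∈ L := by
  let K : Subgroup G :=
    { carrier := {y | y ∈ R ∧ x * y * x⁻¹ * y⁻¹ ∈ L}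
      mul_mem' := by
        rintro y y' ⟨hy, hy1⟩ ⟨hy', hy1'⟩
        refine ⟨R.mul_mem hy hy', ?_⟩
        have e : x * (y * y') * x⁻¹ * (y * y')⁻¹ =
            (x * y * x⁻¹ * y⁻¹) * (y * (x * y' * x⁻¹ * y'⁻¹) * y⁻¹) := by group
        rw [e]
        exact L.mul_mem hy1 (hN y hy _ hy1')
      one_mem' := ⟨R.one_mem, by simp⟩
      inv_mem' := by
        rintro y ⟨hy, hy1⟩
        refine ⟨R.inv_mem hy, ?_⟩
        have e : x * y⁻¹ * x⁻¹ * y⁻¹⁻¹ = y⁻¹ * (x * y * x⁻¹ * y⁻¹)⁻¹ * y⁻¹⁻¹ := by group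
        rw [e]
        exact hN _ (R.inv_mem hy) _ (L.inv_mem hy1) }
  have hle : U ⊔ V ≤ K := sup_le (fun y hy => ⟨hU hy, h1 y hy⟩) (fun y hy => ⟨hV hy, h2 y hy⟩)
  exact fun y hy => (hle hy).2

lemma comm_mem_sup_left {R L : Subgroup G} (hN : ∀ r ∈ R, ∀ l ∈ L, r * l * r⁻¹ ∈ L) {y : G} {U V : Subgroup G}
    (hU : U ≤ R) (hV : V ≤ R) (h1 : ∀ x ∈ U, x * y * x⁻¹ * y⁻¹ ∈ L) (h2 : ∀ x ∈ V, x * y * x⁻¹ * y⁻¹ ∈ L) :
    ∀ x ∈ U ⊔ V, x * y * x⁻¹ * y⁻¹ ∈ L := by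
  let K : Subgroup G :=
    { carrier := {x | x ∈ R ∧ x * y * x⁻¹ * y⁻¹ ∈ L}
      mul_mem' := by
        rintro x x' ⟨hx, hx1⟩ ⟨hx', hx1'⟩
        refine ⟨R.mul_mem hx hx', ?_⟩
        have e : (x * x') * y * (x * x')⁻¹ * y⁻¹ =
            (x * (x' * y * x'⁻¹ * y⁻¹) * x⁻¹) * (x * y * x⁻¹ * y⁻¹) := by group
        rw [e]
        exact L.mul_mem (hN x hx _ hx1') hx1
      one_mem' := ⟨R.one_mem, by simp⟩
      inv_mem' := by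
        rintro x ⟨hx, hx1⟩
        refine ⟨R.inv_mem hx, ?_⟩
        have e : x⁻¹ * y * x⁻¹⁻¹ * y⁻¹ = x⁻¹ * (x * y * x⁻¹ * y⁻¹)⁻¹ * x⁻¹⁻¹ := by group
        rw [e]
        exact hN _ (R.inv_mem hx) _ (L.inv_mem hx1) }
  have hle : U ⊔ V ≤ K := sup_le (fun x hx => ⟨hU hx, h1 x hx⟩) (fun x hx => ⟨hV hx, h2 x hx⟩)
  exact fun x hx => (hle hx).2

lemma comm_mem_commutator_left {R L : Subgroup G} (hN : ∀ r ∈ R, ∀ l ∈ L, r * l * r⁻¹ ∈ L) {y : G} {U V : Subgroup G}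
    (hU : U ≤ R) (hV : V ≤ R) (h1 : ∀ u ∈ U, ∀ v ∈ V, (u * v * u⁻¹ * v⁻¹) * y * (u * v * u⁻¹ * v⁻¹)⁻¹ * y⁻¹ ∈ L) :
    ∀ x ∈ ⁅U, V⁆, x * y * x⁻¹ * y⁻¹ ∈ L := by
  let K : Subgroup G :=
    { carrier := {x | x ∈ R ∧ x * y * x⁻¹ * y⁻¹ ∈ L}
      mul_mem' := by
        rintro x x' ⟨hx, hx1⟩ ⟨hx', hx1'⟩
        refine ⟨R.mul_mem hx hx', ?_⟩
        have e : (x * x') * y * (x * x')⁻¹ * y⁻¹ =
            (x * (x' * y * x'⁻¹ * y⁻¹) * x⁻¹) * (x * y * x⁻¹ * y⁻¹) := by group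
        rw [e]
        exact L.mul_mem (hN x hx _ hx1') hx1
      one_mem' := ⟨R.one_mem, by simp⟩
      inv_mem' := by
        rintro x ⟨hx, hx1⟩
        refine ⟨R.inv_mem hx, ?_⟩
        have e : x⁻¹ * y * x⁻¹⁻¹ * y⁻¹ = x⁻¹ * (x * y * x⁻¹ * y⁻¹)⁻¹ * x⁻¹⁻¹ := by group
        rw [e]
        exact hN _ (R.inv_mem hx) _ (L.inv_mem hx1) }
  have hle : ⁅U, V⁆ ≤ K := by
    rw [Subgroup.commutator_le]
    intro u hu v hv
    rw [commutatorElement_def]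
    exact ⟨R.mul_mem (R.mul_mem (R.mul_mem (hU hu) (hV hv)) (R.inv_mem (hU hu))) (R.inv_mem (hV hv)), h1 u hu v hv⟩
  exact fun x hx => (hle hx).2

/-- Nilpotency from a finite descending chain inside `R`. -/
lemma isNilpotent_of_chain {R L₁ L₂ L₃ : Subgroup G} (h₀ : ∀ x ∈ R, ∀ y ∈ R, x * y * x⁻¹ * y⁻¹ ∈ L₁)
    (h₁ : ∀ x ∈ L₁, ∀ y ∈ R, x * y * x⁻¹ * y⁻¹ ∈ L₂) (h₂ : ∀ x ∈ L₂, ∀ y ∈ R, x * y * x⁻¹ * y⁻¹ ∈ L₃)
    (h₃ : ∀ x ∈ L₃, ∀ y ∈ R, x * y = y * x) : Group.IsNilpotent ↥R := by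
  rw [nilpotent_iff_finite_descending_central_series]
  refine ⟨4, fun n => match n with
    | 0 => ⊤
    | 1 => L₁.subgroupOf R
    | 2 => L₂.subgroupOf R
    | 3 => L₃.subgroupOf R
    | _ + 4 => ⊥, ⟨rfl, ?_⟩, rfl⟩
  intro x n hx g
  match n, hx with
  | 0, _ =>
    show ⁅x, g⁆ ∈ L₁.subgroupOf R
    rw [Subgroup.mem_subgroupOf, commutatorElement_def]
    exact h₀ x x.2 g g.2
  | 1, hx =>
    show ⁅x, g⁆ ∈ L₂.subgroupOf R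
    rw [Subgroup.mem_subgroupOf, commutatorElement_def]
    exact h₁ x (Subgroup.mem_subgroupOf.1 hx) g g.2
  | 2, hx =>
    show ⁅x, g⁆ ∈ L₃.subgroupOf R
    rw [Subgroup.mem_subgroupOf, commutatorElement_def]
    exact h₂ x (Subgroup.mem_subgroupOf.1 hx) g g.2
  | 3, hx =>
    show ⁅x, g⁆ ∈ (⊥ : Subgroup R)
    have h4 : x * g = g * x := Subtype.ext (h₃ x (Subgroup.mem_subgroupOf.1 hx) g g.2)
    rw [Subgroup.mem_bot, commutatorElement_def, h4]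
    group
  | m + 4, hx =>
    have hx' : x = 1 := by
      have : x ∈ (⊥ : Subgroup R) := hx
      simpa using this
    show ⁅x, g⁆ ∈ (⊥ : Subgroup R)
    rw [hx', Subgroup.mem_bot, commutatorElement_def]
    group

/-- Commutators in `U ⊔ V` when `U, V` are abelian and commutators lie in a central `Z`. -/
lemma comm_mem_of_central {U V Z : Subgroup G} (hZ : ∀ z ∈ Z, ∀ x ∈ U ⊔ V, z * x = x * z)
    (hU : ∀ u ∈ U, ∀ u' ∈ U, u * u' = u' * u) (hV : ∀ v ∈ V, ∀ v' ∈ V, v * v' = v' * v)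
    (hUV : ∀ u ∈ U, ∀ v ∈ V, u * v * u⁻¹ * v⁻¹ ∈ Z) :
    ∀ x ∈ U ⊔ V, ∀ y ∈ U ⊔ V, x * y * x⁻¹ * y⁻¹ ∈ Z := by
  have hN : ∀ r ∈ U ⊔ V, ∀ l ∈ Z, r * l * r⁻¹ ∈ Z := by
    intro r hr l hl
    rw [← hZ l hl r hr]
    simpa using hl
  have hVU : ∀ v ∈ V, ∀ u ∈ U, v * u * v⁻¹ * u⁻¹ ∈ Z := by
    intro v hv u hu
    have e : v * u * v⁻¹ * u⁻¹ = (u * v * u⁻¹ * v⁻¹)⁻¹ := by group
    rw [e]
    exact Z.inv_mem (hUV u hu v hv)
  have h1 : ∀ x ∈ U ⊔ V, ∀ u ∈ U, x * u * x⁻¹ * u⁻¹ ∈ Z := by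
    intro x hx u hu
    refine comm_mem_sup_left hN le_sup_left le_sup_right (fun u' hu' => ?_) (fun v hv => hVU v hv u hu) x hx
    rw [hU u' hu' u hu]
    simp [Z.one_mem]
  have h2 : ∀ x ∈ U ⊔ V, ∀ v ∈ V, x * v * x⁻¹ * v⁻¹ ∈ Z := by
    intro x hx v hv
    refine comm_mem_sup_left hN le_sup_left le_sup_right (fun u hu => hUV u hu v hv) (fun v' hv' => ?_) x hx
    rw [hV v' hv' v hv]
    simp [Z.one_mem]
  intro x hx y hy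
  exact comm_mem_sup_right hN le_sup_left le_sup_right (fun u hu => h1 x hx u hu) (fun v hv => h2 x hx v hv) y hy


/-! ### The chain configuration -/

/-- The configuration `A — B — C`: `⁅A, B⁆, ⁅B, C⁆ ∈ S`, `A, C` commuting, with a fixed `b ∈ B#`. -/
structure Chain (S : Set (Subgroup G)) (A B C : Subgroup G) (b : G) : Prop where
  hS : IsRootSubgroupSet S
  hA : A ∈ S
  hB : B ∈ S
  hC : C ∈ S
  hAB : ⁅A, B⁆ ∈ S
  hBC : ⁅B, C⁆ ∈ S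
  hAC : ⁅A, C⁆ = ⊥
  hb : b ∈ B
  hb1 : b ≠ 1

namespace Chain

variable {A B C : Subgroup G} {b : G} (h : Chain S A B C b)
include h

lemma cAB : RootCommutatorCase S A B := commCase_of_mem h.hS h.hA h.hB h.hAB
lemma cBC : RootCommutatorCase S B C := commCase_of_mem h.hS h.hB h.hC h.hBC

lemma ac {a c : G} (ha : a ∈ A) (hc : c ∈ C) : a * c = c * a := comm_of_commutator_eq_bot h.hAC ha hc
lemma aa {a a' : G} (ha : a ∈ A) (ha' : a' ∈ A) : a * a' = a' * a :=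
  comm_of_isMulCommutative (h.hS.commutative A h.hA) ha ha'
lemma cc {c c' : G} (hc : c ∈ C) (hc' : c' ∈ C) : c * c' = c' * c :=
  comm_of_isMulCommutative (h.hS.commutative C h.hC) hc hc'
lemma bb {x x' : G} (hx : x ∈ B) (hx' : x' ∈ B) : x * x' = x' * x :=
  comm_of_isMulCommutative (h.hS.commutative B h.hB) hx hx'

lemma da {d a : G} (hd : d ∈ ⁅A, B⁆) (ha : a ∈ A) : d * a = a * d :=
  comm_central h.cAB hd ((le_sup_left : A ≤ A ⊔ B) ha)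
lemma db {d x : G} (hd : d ∈ ⁅A, B⁆) (hx : x ∈ B) : d * x = x * d :=
  comm_central h.cAB hd ((le_sup_right : B ≤ A ⊔ B) hx)
lemma eb {e x : G} (he : e ∈ ⁅B, C⁆) (hx : x ∈ B) : e * x = x * e :=
  comm_central h.cBC he ((le_sup_left : B ≤ B ⊔ C) hx)
lemma ec {e c : G} (he : e ∈ ⁅B, C⁆) (hc : c ∈ C) : e * c = c * e :=
  comm_central h.cBC he ((le_sup_right : C ≤ B ⊔ C) hc)

lemma mem_d {x a : G} (hx : x ∈ B) (ha : a ∈ A) : x * a * x⁻¹ * a⁻¹ ∈ ⁅A, B⁆ := by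
  rw [Subgroup.commutator_comm]
  exact Subgroup.commutator_mem_commutator hx ha

lemma mem_e {x c : G} (hx : x ∈ B) (hc : c ∈ C) : x * c * x⁻¹ * c⁻¹ ∈ ⁅B, C⁆ :=
  Subgroup.commutator_mem_commutator hx hc

lemma hbi : b⁻¹ ∈ B := B.inv_mem h.hb
lemma hbi1 : b⁻¹ ≠ 1 := by simpa using h.hb1

/-- Every `d` is a commutator with `b⁻¹`. -/
lemma exists_d {d : G} (hd : d ∈ ⁅A, B⁆) : ∃ a ∈ A, b⁻¹ * a * b * a⁻¹ = d := by
  obtain ⟨a, ha, he⟩ := exists_comm_left h.cAB h.hbi h.hbi1 ((⁅A, B⁆).inv_mem hd)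
  refine ⟨a, ha, ?_⟩
  have e : b⁻¹ * a * b * a⁻¹ = (a * b⁻¹ * a⁻¹ * b⁻¹⁻¹)⁻¹ := by group
  rw [e, he, inv_inv]

/-- Every `e` is a commutator with `b⁻¹`. -/
lemma exists_e {e : G} (he : e ∈ ⁅B, C⁆) : ∃ c ∈ C, b⁻¹ * c * b * c⁻¹ = e := by
  obtain ⟨c, hc, hce⟩ := exists_comm_right h.cBC h.hbi h.hbi1 he
  exact ⟨c, hc, by simpa using hce⟩

/-- `A₁ = b⁻¹ A b` commutes with `A`. -/
lemma a1_comm_a {x a : G} (hx : x ∈ conjBy A b⁻¹) (ha : a ∈ A) : x * a = a * x := by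
  rw [mem_conjBy, inv_inv] at hx
  obtain ⟨a₀, ha₀⟩ : ∃ a₀, a₀ = b * x * b⁻¹ := ⟨_, rfl⟩
  have hdm : b⁻¹ * a₀ * b * a₀⁻¹ ∈ ⁅A, B⁆ := by
    have := h.mem_d h.hbi (a := a₀) (by rw [ha₀]; simpa using hx)
    simpa using this
  have e : x = (b⁻¹ * a₀ * b * a₀⁻¹) * a₀ := by rw [ha₀]; group
  rw [e]
  have c1 : Commute (b⁻¹ * a₀ * b * a₀⁻¹) a := h.da hdm ha
  have c2 : Commute a₀ a := h.aa (by rw [ha₀]; simpa using hx) ha
  exact (c1.mul_left c2).eq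

/-- `C₁ = b⁻¹ C b` commutes with `C`. -/
lemma c1_comm_c {x c : G} (hx : x ∈ conjBy C b⁻¹) (hc : c ∈ C) : x * c = c * x := by
  rw [mem_conjBy, inv_inv] at hx
  obtain ⟨c₀, hc₀⟩ : ∃ c₀, c₀ = b * x * b⁻¹ := ⟨_, rfl⟩
  have hc₀m : c₀ ∈ C := by rw [hc₀]; simpa using hx
  have hem : b⁻¹ * c₀ * b * c₀⁻¹ ∈ ⁅B, C⁆ := by
    have := h.mem_e h.hbi hc₀m
    simpa using this
  have e : x = (b⁻¹ * c₀ * b * c₀⁻¹) * c₀ := by rw [hc₀]; group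
  rw [e]
  have c1 : Commute (b⁻¹ * c₀ * b * c₀⁻¹) c := h.ec hem hc
  have c2 : Commute c₀ c := h.cc hc₀m hc
  exact (c1.mul_left c2).eq

/-- `A₁` commutes with `C₁`. -/
lemma a1_comm_c1 {x y : G} (hx : x ∈ conjBy A b⁻¹) (hy : y ∈ conjBy C b⁻¹) : x * y = y * x := by
  have hcom : ⁅conjBy A b⁻¹, conjBy C b⁻¹⁆ = ⊥ := by
    rw [← conjBy_commutator, h.hAC, conjBy_bot]
  exact comm_of_commutator_eq_bot hcom hx hy

lemma a_comm_a1 {a x : G} (ha : a ∈ A) (hx : x ∈ conjBy A b⁻¹) : a * x = x * a := (h.a1_comm_a hx ha).symm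

/-- `X` and `Y` commute. -/
lemma xy_comm : ∀ x ∈ A ⊔ conjBy C b⁻¹, ∀ y ∈ conjBy A b⁻¹ ⊔ C, x * y = y * x := by
  apply comm_sup_left
  · exact comm_sup_right (fun a ha x hx => h.a_comm_a1 ha hx) (fun a ha c hc => h.ac ha hc)
  · exact comm_sup_right (fun y hy x hx => (h.a1_comm_c1 hx hy).symm) (fun y hy c hc => h.c1_comm_c hy hc)

lemma xy_eq_bot : ⁅A ⊔ conjBy C b⁻¹, conjBy A b⁻¹ ⊔ C⁆ = ⊥ := commutator_eq_bot_of_comm h.xy_comm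

/-- Elements of `C₁` written through `E`. -/
lemma c1_val {c : G} (hc : c ∈ C) : b⁻¹ * c * b = (b⁻¹ * c * b * c⁻¹) * c := by group

lemma a1_val {a : G} (ha : a ∈ A) : b⁻¹ * a * b = (b⁻¹ * a * b * a⁻¹) * a := by group

lemma a1_mem {a : G} (ha : a ∈ A) : b⁻¹ * a * b ∈ conjBy A b⁻¹ := by
  have := conj_mem_conjBy (g := b⁻¹) ha
  simpa using this

lemma c1_mem {c : G} (hc : c ∈ C) : b⁻¹ * c * b ∈ conjBy C b⁻¹ := by
  have := conj_mem_conjBy (g := b⁻¹) hc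
  simpa using this

/-- `A` commuting with `C₁` is equivalent to `A` commuting with `E`. -/
lemma a_e_of_a_c1 (hc : ∀ a ∈ A, ∀ y ∈ conjBy C b⁻¹, a * y = y * a) : ⁅A, ⁅B, C⁆⁆ = ⊥ := by
  apply commutator_eq_bot_of_comm
  intro a ha e he
  obtain ⟨c, hcC, rfl⟩ := h.exists_e he
  have c1 : Commute a (b⁻¹ * c * b) := hc a ha _ (h.c1_mem hcC)
  have c2 : Commute a c := h.ac ha hcC
  exact (c1.mul_right c2.inv_right).eq

lemma a_c1_of_a_e (hc : ⁅A, ⁅B, C⁆⁆ = ⊥) : ∀ a ∈ A, ∀ y ∈ conjBy C b⁻¹, a * y = y * a := by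
  intro a ha y hy
  rw [mem_conjBy, inv_inv] at hy
  obtain ⟨c₀, hc₀⟩ : ∃ c₀, c₀ = b * y * b⁻¹ := ⟨_, rfl⟩
  have hc₀m : c₀ ∈ C := by rw [hc₀]; simpa using hy
  have hem : b⁻¹ * c₀ * b * c₀⁻¹ ∈ ⁅B, C⁆ := by
    have := h.mem_e h.hbi hc₀m
    simpa using this
  have e : y = (b⁻¹ * c₀ * b * c₀⁻¹) * c₀ := by rw [hc₀]; group
  rw [e]
  have c1 : Commute a (b⁻¹ * c₀ * b * c₀⁻¹) := comm_of_commutator_eq_bot hc ha hem
  have c2 : Commute a c₀ := h.ac ha hc₀m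
  exact (c1.mul_right c2).eq

/-- `A₁` commuting with `C` is equivalent to `D` commuting with `C`. -/
lemma d_c_of_a1_c (hc : ∀ y ∈ conjBy A b⁻¹, ∀ c ∈ C, y * c = c * y) : ⁅⁅A, B⁆, C⁆ = ⊥ := by
  apply commutator_eq_bot_of_comm
  intro d hd c hcC
  obtain ⟨a, ha, rfl⟩ := h.exists_d hd
  have c1 : Commute (b⁻¹ * a * b) c := hc _ (h.a1_mem ha) c hcC
  have c2 : Commute a c := h.ac ha hcC
  exact (c1.mul_left c2.inv_left).eq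

lemma a1_c_of_d_c (hc : ⁅⁅A, B⁆, C⁆ = ⊥) : ∀ y ∈ conjBy A b⁻¹, ∀ c ∈ C, y * c = c * y := by
  intro y hy c hcC
  rw [mem_conjBy, inv_inv] at hy
  obtain ⟨a₀, ha₀⟩ : ∃ a₀, a₀ = b * y * b⁻¹ := ⟨_, rfl⟩
  have ha₀m : a₀ ∈ A := by rw [ha₀]; simpa using hy
  have hdm : b⁻¹ * a₀ * b * a₀⁻¹ ∈ ⁅A, B⁆ := by
    have := h.mem_d h.hbi ha₀m
    simpa using this
  have e : y = (b⁻¹ * a₀ * b * a₀⁻¹) * a₀ := by rw [ha₀]; group
  rw [e]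
  have c1 : Commute (b⁻¹ * a₀ * b * a₀⁻¹) c := comm_of_commutator_eq_bot hc hdm hcC
  have c2 : Commute a₀ c := h.ac ha₀m hcC
  exact (c1.mul_left c2).eq

/-- The two commutators vanish simultaneously. -/
lemma ae_iff_dc : ⁅A, ⁅B, C⁆⁆ = ⊥ ↔ ⁅⁅A, B⁆, C⁆ = ⊥ := by
  have hCA : ⁅⁅C, A⁆, B⁆ = ⊥ := by
    rw [Subgroup.commutator_comm C A, h.hAC]
    exact Subgroup.commutator_bot_left B
  constructor
  · intro h1
    have h2 : ⁅⁅B, C⁆, A⁆ = ⊥ := by rw [Subgroup.commutator_comm]; exact h1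
    exact Subgroup.commutator_commutator_eq_bot_of_rotate h2 hCA
  · intro h1
    have hAB : ⁅⁅A, B⁆, C⁆ = ⊥ := h1
    have hBC' : ⁅⁅B, C⁆, A⁆ = ⊥ := Subgroup.commutator_commutator_eq_bot_of_rotate hCA hAB
    rw [Subgroup.commutator_comm]; exact hBC'

/-- `(A, C₁)` is not a rank one pair. -/
lemma not_rank_one_x : ¬ IsRankOnePair A (conjBy C b⁻¹) := by
  intro hr
  obtain ⟨a, ha, ha1⟩ := exists_ne_one_left hr
  have hz : b⁻¹ * a * b ∈ conjBy A b⁻¹ := h.a1_mem ha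
  have hz1 : b⁻¹ * a * b ≠ 1 := by
    intro he
    apply ha1
    have e : a = b * (b⁻¹ * a * b) * b⁻¹ := by group
    rw [e, he]; group
  have hne := comm_ne_one h.hS h.cAB (h.hS.conj_mem C h.hC b⁻¹) hr h.hA ha ha1 h.hbi h.hbi1
  refine root_central_translate h.hS (h.hS.conj_mem C h.hC b⁻¹) hr (z := b⁻¹ * a * b) (a := a⁻¹) (F := ⁅A, B⁆)
    (fun x hx => h.a1_comm_a hz hx) (fun x hx => h.a1_comm_c1 hz hx) hz1 (A.inv_mem ha) (by simpa using ha1) h.hAB ?_ ?_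
  · have := h.mem_d h.hbi ha
    have e : b⁻¹ * a * b * a⁻¹ = b⁻¹ * a * b⁻¹⁻¹ * a⁻¹ := by simp
    rw [e]; exact this
  · intro he
    apply hne
    have e : a * b⁻¹ * a⁻¹ * b⁻¹⁻¹ = (b⁻¹ * a * b * a⁻¹)⁻¹ := by group
    rw [e, he]; simp

/-- `(A₁, C)` is not a rank one pair. -/
lemma not_rank_one_y : ¬ IsRankOnePair (conjBy A b⁻¹) C := by
  intro hr
  have hr' := RankOnePair_symm hr
  obtain ⟨c, hc, hc1⟩ := exists_ne_one_left hr'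
  have hz : b⁻¹ * c * b ∈ conjBy C b⁻¹ := h.c1_mem hc
  have hz1 : b⁻¹ * c * b ≠ 1 := by
    intro he
    apply hc1
    have e : c = b * (b⁻¹ * c * b) * b⁻¹ := by group
    rw [e, he]; group
  have hcCB : RootCommutatorCase S C B := commCase_of_mem h.hS h.hC h.hB (by
    rw [Subgroup.commutator_comm]; exact h.hBC)
  have hne := comm_ne_one h.hS hcCB (h.hS.conj_mem A h.hA b⁻¹) hr' h.hC hc hc1 h.hbi h.hbi1
  refine root_central_translate h.hS (h.hS.conj_mem A h.hA b⁻¹) hr' (z := b⁻¹ * c * b) (a := c⁻¹) (F := ⁅B, C⁆)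
    (fun x hx => h.c1_comm_c hz hx) (fun x hx => (h.a1_comm_c1 hx hz).symm) hz1 (C.inv_mem hc) (by simpa using hc1) h.hBC ?_ ?_
  · have := h.mem_e h.hbi hc
    have e : b⁻¹ * c * b * c⁻¹ = b⁻¹ * c * b⁻¹⁻¹ * c⁻¹ := by simp
    rw [e]; exact this
  · intro he
    apply hne
    have e : c * b⁻¹ * c⁻¹ * b⁻¹⁻¹ = (b⁻¹ * c * b * c⁻¹)⁻¹ := by group
    rw [e, he]; simp

/-- Central facts for `F = ⁅A, E⁆`. -/
lemma f_comm {f : G} (hf : f ∈ ⁅A, ⁅B, C⁆⁆) :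
    (∀ a ∈ A, f * a = a * f) ∧ (∀ c ∈ C, f * c = c * f) ∧ (∀ d ∈ ⁅A, B⁆, f * d = d * f) ∧ (∀ e ∈ ⁅B, C⁆, f * e = e * f) := by
  rcases h.hS.pair A h.hA _ (h.hS.conj_mem C h.hC b⁻¹) with h1 | h1 | h1
  · rw [h.a_e_of_a_c1 (fun a ha y hy => comm_of_commutator_eq_bot h1 ha hy)] at hf
    have hf1 : f = 1 := by simpa using hf
    subst hf1
    simp
  · exact absurd h1 h.not_rank_one_x
  · have hle : ⁅A, ⁅B, C⁆⁆ ≤ ⁅A, conjBy C b⁻¹⁆ := by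
      rw [Subgroup.commutator_le]
      intro a ha e he
      obtain ⟨c, hc, rfl⟩ := h.exists_e he
      rw [commutatorElement_def]
      have hm := comm_mem h1 ha (h.c1_mem hc)
      have hac : Commute a c := h.ac ha hc
      have e1 : a * (b⁻¹ * c * b * c⁻¹) * a⁻¹ * (b⁻¹ * c * b * c⁻¹)⁻¹ = a * (b⁻¹ * c * b) * a⁻¹ * (b⁻¹ * c * b)⁻¹ := by
        calc a * (b⁻¹ * c * b * c⁻¹) * a⁻¹ * (b⁻¹ * c * b * c⁻¹)⁻¹
            = a * (b⁻¹ * c * b) * (c⁻¹ * a⁻¹ * c) * (b⁻¹ * c * b)⁻¹ := by group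
          _ = a * (b⁻¹ * c * b) * a⁻¹ * (b⁻¹ * c * b)⁻¹ := by
            have : c⁻¹ * a⁻¹ * c = a⁻¹ := by
              have h5 : a⁻¹ * c = c * a⁻¹ := (hac.inv_left).eq
              rw [mul_assoc, h5]; group
            rw [this]
      rw [e1]
      exact hm
    have hfz := hle hf
    have hfA : ∀ a ∈ A, f * a = a * f := fun a ha => comm_central h1 hfz ((le_sup_left : A ≤ A ⊔ conjBy C b⁻¹) ha)
    have hfC1 : ∀ y ∈ conjBy C b⁻¹, f * y = y * f := fun y hy =>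
      comm_central h1 hfz ((le_sup_right : conjBy C b⁻¹ ≤ A ⊔ conjBy C b⁻¹) hy)
    have hfC : ∀ c ∈ C, f * c = c * f := by
      intro c hc
      have hle2 : ⁅A, ⁅B, C⁆⁆ ≤ Subgroup.centralizer ({c} : Set G) := by
        rw [Subgroup.commutator_le]
        intro a ha e he
        rw [Subgroup.mem_centralizer_singleton_iff, commutatorElement_def]
        have c1 : Commute c a := (h.ac ha hc).symm
        have c2 : Commute c e := (h.ec he hc).symm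
        exact (((c1.mul_right c2).mul_right c1.inv_right).mul_right c2.inv_right).eq.symm
      have := hle2 hf
      rw [Subgroup.mem_centralizer_singleton_iff] at this
      exact this
    have hfX : f ∈ A ⊔ conjBy C b⁻¹ := commutator_le_sup _ _ hfz
    refine ⟨hfA, hfC, ?_, ?_⟩
    · intro d hd
      obtain ⟨a, ha, rfl⟩ := h.exists_d hd
      have c1 : Commute f (b⁻¹ * a * b) := h.xy_comm f hfX _ ((le_sup_left : conjBy A b⁻¹ ≤ conjBy A b⁻¹ ⊔ C) (h.a1_mem ha))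
      have c2 : Commute f a := hfA a ha
      exact (c1.mul_right c2.inv_right).eq
    · intro e he
      obtain ⟨c, hc, rfl⟩ := h.exists_e he
      have c1 : Commute f (b⁻¹ * c * b) := hfC1 _ (h.c1_mem hc)
      have c2 : Commute f c := hfC c hc
      exact (c1.mul_right c2.inv_right).eq

/-- Central facts for `F₂ = ⁅D, C⁆`. -/
lemma f2_comm {f : G} (hf : f ∈ ⁅⁅A, B⁆, C⁆) :
    (∀ a ∈ A, f * a = a * f) ∧ (∀ c ∈ C, f * c = c * f) ∧ (∀ d ∈ ⁅A, B⁆, f * d = d * f) ∧ (∀ e ∈ ⁅B, C⁆, f * e = e * f) := by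
  rcases h.hS.pair _ (h.hS.conj_mem A h.hA b⁻¹) C h.hC with h1 | h1 | h1
  · rw [h.d_c_of_a1_c (fun y hy c hc => comm_of_commutator_eq_bot h1 hy hc)] at hf
    have hf1 : f = 1 := by simpa using hf
    subst hf1
    simp
  · exact absurd h1 h.not_rank_one_y
  · have hle : ⁅⁅A, B⁆, C⁆ ≤ ⁅conjBy A b⁻¹, C⁆ := by
      rw [Subgroup.commutator_le]
      intro d hd c hc
      obtain ⟨a, ha, rfl⟩ := h.exists_d hd
      rw [commutatorElement_def]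
      have hm := comm_mem h1 (h.a1_mem ha) hc
      have hac : Commute a c := h.ac ha hc
      have e1 : (b⁻¹ * a * b * a⁻¹) * c * (b⁻¹ * a * b * a⁻¹)⁻¹ * c⁻¹ = (b⁻¹ * a * b) * c * (b⁻¹ * a * b)⁻¹ * c⁻¹ := by
        calc (b⁻¹ * a * b * a⁻¹) * c * (b⁻¹ * a * b * a⁻¹)⁻¹ * c⁻¹
            = (b⁻¹ * a * b) * (a⁻¹ * c * a) * (b⁻¹ * a * b)⁻¹ * c⁻¹ := by group
          _ = (b⁻¹ * a * b) * c * (b⁻¹ * a * b)⁻¹ * c⁻¹ := by
            have : a⁻¹ * c * a = c := by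
              rw [mul_assoc, hac.symm.eq]; group
            rw [this]
      rw [e1]
      exact hm
    have hfz := hle hf
    have hfC : ∀ c ∈ C, f * c = c * f := fun c hc => comm_central h1 hfz ((le_sup_right : C ≤ conjBy A b⁻¹ ⊔ C) hc)
    have hfA1 : ∀ y ∈ conjBy A b⁻¹, f * y = y * f := fun y hy =>
      comm_central h1 hfz ((le_sup_left : conjBy A b⁻¹ ≤ conjBy A b⁻¹ ⊔ C) hy)
    have hfA : ∀ a ∈ A, f * a = a * f := by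
      intro a ha
      have hle2 : ⁅⁅A, B⁆, C⁆ ≤ Subgroup.centralizer ({a} : Set G) := by
        rw [Subgroup.commutator_le]
        intro d hd c hc
        rw [Subgroup.mem_centralizer_singleton_iff, commutatorElement_def]
        have c1 : Commute a d := (h.da hd ha).symm
        have c2 : Commute a c := h.ac ha hc
        exact (((c1.mul_right c2).mul_right c1.inv_right).mul_right c2.inv_right).eq.symm
      have := hle2 hf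
      rw [Subgroup.mem_centralizer_singleton_iff] at this
      exact this
    have hfY : f ∈ conjBy A b⁻¹ ⊔ C := commutator_le_sup _ _ hfz
    refine ⟨hfA, hfC, ?_, ?_⟩
    · intro d hd
      obtain ⟨a, ha, rfl⟩ := h.exists_d hd
      have c1 : Commute f (b⁻¹ * a * b) := hfA1 _ (h.a1_mem ha)
      have c2 : Commute f a := hfA a ha
      exact (c1.mul_right c2.inv_right).eq
    · intro e he
      obtain ⟨c, hc, rfl⟩ := h.exists_e he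
      have c1 : Commute f (b⁻¹ * c * b) :=
        (h.xy_comm _ ((le_sup_right : conjBy C b⁻¹ ≤ A ⊔ conjBy C b⁻¹) (h.c1_mem hc)) f hfY).symm
      have c2 : Commute f c := hfC c hc
      exact (c1.mul_right c2.inv_right).eq

/-- `⁅D, E⁆ ≤ F F₂`. -/
lemma g_mem {d e : G} (hd : d ∈ ⁅A, B⁆) (he : e ∈ ⁅B, C⁆) : d * e * d⁻¹ * e⁻¹ ∈ ⁅A, ⁅B, C⁆⁆ ⊔ ⁅⁅A, B⁆, C⁆ := by
  obtain ⟨a, ha, had⟩ := h.exists_d hd
  obtain ⟨c, hc, hce⟩ := h.exists_e he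
  have hcom : (b⁻¹ * a * b) * (b⁻¹ * c * b) = (b⁻¹ * c * b) * (b⁻¹ * a * b) := h.a1_comm_c1 (h.a1_mem ha) (h.c1_mem hc)
  have ea : b⁻¹ * a * b = d * a := by rw [← had]; group
  have ec : b⁻¹ * c * b = e * c := by rw [← hce]; group
  rw [ea, ec] at hcom
  obtain ⟨f, hfd⟩ : ∃ f, f = a * e * a⁻¹ * e⁻¹ := ⟨_, rfl⟩
  obtain ⟨k, hkd⟩ : ∃ k, k = c * d * c⁻¹ * d⁻¹ := ⟨_, rfl⟩
  obtain ⟨g, hgd⟩ : ∃ g, g = d * e * d⁻¹ * e⁻¹ := ⟨_, rfl⟩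
  have hf : f ∈ ⁅A, ⁅B, C⁆⁆ := by rw [hfd]; exact Subgroup.commutator_mem_commutator ha he
  have hk : k⁻¹ ∈ ⁅⁅A, B⁆, C⁆ := by
    have e1 : k⁻¹ = d * c * d⁻¹ * c⁻¹ := by rw [hkd]; group
    rw [e1]; exact Subgroup.commutator_mem_commutator hd hc
  have hk' : k ∈ ⁅⁅A, B⁆, C⁆ := by simpa using (⁅⁅A, B⁆, C⁆).inv_mem hk
  have e1 : a * e = f * e * a := by rw [hfd]; group
  have e2 : c * d = k * d * c := by rw [hkd]; group
  have e3 : d * e = g * e * d := by rw [hgd]; group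
  have hfd' : f * d = d * f := (h.f_comm hf).2.2.1 d hd
  have hfe' : f * e = e * f := (h.f_comm hf).2.2.2 e he
  have hke' : k * e = e * k := (h.f2_comm hk').2.2.2 e he
  have hac : a * c = c * a := h.ac ha hc
  -- expand both sides
  have L : d * a * (e * c) = f * g * e * d * a * c := by
    calc d * a * (e * c) = d * (a * e) * c := by group
      _ = d * (f * e * a) * c := by rw [e1]
      _ = (d * f) * e * a * c := by group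
      _ = (f * d) * e * a * c := by rw [hfd']
      _ = f * (d * e) * a * c := by group
      _ = f * (g * e * d) * a * c := by rw [e3]
      _ = f * g * e * d * a * c := by group
  have Rr : e * c * (d * a) = k * e * d * a * c := by
    calc e * c * (d * a) = e * (c * d) * a := by group
      _ = e * (k * d * c) * a := by rw [e2]
      _ = (e * k) * d * (c * a) := by group
      _ = (k * e) * d * (a * c) := by rw [hke', hac]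
      _ = k * e * d * a * c := by group
  rw [L, Rr] at hcom
  have hfg : f * g = k := by
    have h5 : (f * g) * (e * d * a * c) = k * (e * d * a * c) := by
      calc (f * g) * (e * d * a * c) = f * g * e * d * a * c := by group
        _ = k * e * d * a * c := hcom
        _ = k * (e * d * a * c) := by group
    exact mul_right_cancel h5
  rw [← hgd]
  have e4 : g = f⁻¹ * k := by rw [← hfg]; group
  rw [e4]
  exact Subgroup.mul_mem_sup (Subgroup.inv_mem _ hf) hk'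

/-- The subgroup `⟨A, B, C⟩` is nilpotent. -/
theorem nilpotent : Group.IsNilpotent ↥(A ⊔ B ⊔ C) := by
  have hAR : A ≤ A ⊔ B ⊔ C := le_sup_left.trans le_sup_left
  have hBR : B ≤ A ⊔ B ⊔ C := le_sup_right.trans le_sup_left
  have hCR : C ≤ A ⊔ B ⊔ C := le_sup_right
  have hDR : ⁅A, B⁆ ≤ A ⊔ B ⊔ C := (commutator_le_sup A B).trans le_sup_left
  have hER : ⁅B, C⁆ ≤ A ⊔ B ⊔ C := (commutator_le_sup B C).trans (sup_le hBR hCR)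
  have hFR : ⁅A, ⁅B, C⁆⁆ ≤ A ⊔ B ⊔ C := (commutator_le_sup _ _).trans (sup_le hAR hER)
  have hF2R : ⁅⁅A, B⁆, C⁆ ≤ A ⊔ B ⊔ C := (commutator_le_sup _ _).trans (sup_le hDR hCR)
  -- step 3: `⁅D, E⁆` is central
  have hg_central : ∀ d ∈ ⁅A, B⁆, ∀ e ∈ ⁅B, C⁆, ∀ y ∈ A ⊔ B ⊔ C, (d * e * d⁻¹ * e⁻¹) * y = y * (d * e * d⁻¹ * e⁻¹) := by
    intro d hd e he y hy
    have hle : A ⊔ B ⊔ C ≤ Subgroup.centralizer ({d * e * d⁻¹ * e⁻¹} : Set G) := by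
      refine sup_le (sup_le ?_ ?_) ?_
      · intro a ha
        rw [Subgroup.mem_centralizer_singleton_iff]
        -- `a g a⁻¹ = g`
        obtain ⟨f, hfd⟩ : ∃ f, f = a * e * a⁻¹ * e⁻¹ := ⟨_, rfl⟩
        have hf : f ∈ ⁅A, ⁅B, C⁆⁆ := by rw [hfd]; exact Subgroup.commutator_mem_commutator ha he
        have c1 : Commute a d := (h.da hd ha).symm
        have cfd : Commute f d := (h.f_comm hf).2.2.1 d hd
        have cfe : Commute f e := (h.f_comm hf).2.2.2 e he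
        have e1 : a * e * a⁻¹ = f * e := by rw [hfd]; group
        have cfg : Commute f (d * e * d⁻¹ * e⁻¹) :=
          ((cfd.mul_right cfe).mul_right cfd.inv_right).mul_right cfe.inv_right
        have e2 : a * (d * e * d⁻¹ * e⁻¹) * a⁻¹ = f * (d * e * d⁻¹ * e⁻¹) * f⁻¹ := by
          calc a * (d * e * d⁻¹ * e⁻¹) * a⁻¹ = (a * d * a⁻¹) * (a * e * a⁻¹) * (a * d * a⁻¹)⁻¹ * (a * e * a⁻¹)⁻¹ := by group
            _ = d * (f * e) * d⁻¹ * (f * e)⁻¹ := by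
              rw [e1]
              have : a * d * a⁻¹ = d := by rw [c1.eq]; group
              rw [this]
            _ = (d * f) * e * d⁻¹ * e⁻¹ * f⁻¹ := by group
            _ = (f * d) * e * d⁻¹ * e⁻¹ * f⁻¹ := by rw [cfd.eq]
            _ = f * (d * e * d⁻¹ * e⁻¹) * f⁻¹ := by group
        have e3 : a * (d * e * d⁻¹ * e⁻¹) = (d * e * d⁻¹ * e⁻¹) * a := by
          have h5 : a * (d * e * d⁻¹ * e⁻¹) * a⁻¹ = d * e * d⁻¹ * e⁻¹ := by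
            rw [e2, cfg.eq]; group
          calc a * (d * e * d⁻¹ * e⁻¹) = (a * (d * e * d⁻¹ * e⁻¹) * a⁻¹) * a := by group
            _ = _ := by rw [h5]
        exact e3
      · intro x hx
        rw [Subgroup.mem_centralizer_singleton_iff]
        have c1 : Commute x d := (h.db hd hx).symm
        have c2 : Commute x e := (h.eb he hx).symm
        exact (((c1.mul_right c2).mul_right c1.inv_right).mul_right c2.inv_right).eq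
      · intro c hc
        rw [Subgroup.mem_centralizer_singleton_iff]
        obtain ⟨k, hkd⟩ : ∃ k, k = c * d * c⁻¹ * d⁻¹ := ⟨_, rfl⟩
        have hk : k⁻¹ ∈ ⁅⁅A, B⁆, C⁆ := by
          have e1 : k⁻¹ = d * c * d⁻¹ * c⁻¹ := by rw [hkd]; group
          rw [e1]; exact Subgroup.commutator_mem_commutator hd hc
        have hk' : k ∈ ⁅⁅A, B⁆, C⁆ := by simpa using (⁅⁅A, B⁆, C⁆).inv_mem hk
        have c1 : Commute c e := (h.ec he hc).symm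
        have cfd : Commute k d := (h.f2_comm hk').2.2.1 d hd
        have cfe : Commute k e := (h.f2_comm hk').2.2.2 e he
        have e1 : c * d * c⁻¹ = k * d := by rw [hkd]; group
        have cfg : Commute k (d * e * d⁻¹ * e⁻¹) :=
          ((cfd.mul_right cfe).mul_right cfd.inv_right).mul_right cfe.inv_right
        have e2 : c * (d * e * d⁻¹ * e⁻¹) * c⁻¹ = k * (d * e * d⁻¹ * e⁻¹) * k⁻¹ := by
          calc c * (d * e * d⁻¹ * e⁻¹) * c⁻¹ = (c * d * c⁻¹) * (c * e * c⁻¹) * (c * d * c⁻¹)⁻¹ * (c * e * c⁻¹)⁻¹ := by group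
            _ = (k * d) * e * (k * d)⁻¹ * e⁻¹ := by
              rw [e1]
              have : c * e * c⁻¹ = e := by rw [c1.eq]; group
              rw [this]
            _ = k * (d * e * d⁻¹) * k⁻¹ * e⁻¹ := by group
            _ = k * (d * e * d⁻¹ * e⁻¹) * e * k⁻¹ * e⁻¹ := by group
            _ = k * (d * e * d⁻¹ * e⁻¹) * (e * k⁻¹ * e⁻¹) := by group
            _ = k * (d * e * d⁻¹ * e⁻¹) * k⁻¹ := by
              have h6 : e * k⁻¹ * e⁻¹ = k⁻¹ := by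
                have h7 : e * k⁻¹ = k⁻¹ * e := (cfe.symm.inv_right).eq
                rw [h7]; group
              rw [h6]
        have e3 : c * (d * e * d⁻¹ * e⁻¹) = (d * e * d⁻¹ * e⁻¹) * c := by
          have h5 : c * (d * e * d⁻¹ * e⁻¹) * c⁻¹ = d * e * d⁻¹ * e⁻¹ := by
            rw [e2, cfg.eq]; group
          calc c * (d * e * d⁻¹ * e⁻¹) = (c * (d * e * d⁻¹ * e⁻¹) * c⁻¹) * c := by group
            _ = _ := by rw [h5]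
        exact e3
    have := hle hy
    rw [Subgroup.mem_centralizer_singleton_iff] at this
    exact this.symm
  have h₃ : ∀ x ∈ ⁅⁅A, B⁆, ⁅B, C⁆⁆, ∀ y ∈ A ⊔ B ⊔ C, x * y = y * x := by
    have hle : ⁅⁅A, B⁆, ⁅B, C⁆⁆ ≤ Subgroup.centralizer ((A ⊔ B ⊔ C : Subgroup G) : Set G) := by
      rw [Subgroup.commutator_le]
      intro d hd e he
      rw [Subgroup.mem_centralizer_iff, commutatorElement_def]
      intro y hy
      exact (hg_central d hd e he y hy).symm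
    intro x hx y hy
    have := hle hx
    rw [Subgroup.mem_centralizer_iff] at this
    exact (this y hy).symm
  have hN₃ : ∀ r ∈ A ⊔ B ⊔ C, ∀ l ∈ ⁅⁅A, B⁆, ⁅B, C⁆⁆, r * l * r⁻¹ ∈ ⁅⁅A, B⁆, ⁅B, C⁆⁆ := by
    intro r hr l hl
    rw [← h₃ l hl r hr]
    simpa using hl
  -- step 2
  have hcomb : ∀ {x y : G}, x * y * x⁻¹ * y⁻¹ = (y * x * y⁻¹ * x⁻¹)⁻¹ := by intro x y; group
  have hfb : ∀ x ∈ ⁅A, ⁅B, C⁆⁆, ∀ y ∈ B, x * y * x⁻¹ * y⁻¹ ∈ ⁅⁅A, B⁆, ⁅B, C⁆⁆ := by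
    intro x hx y hy
    refine comm_mem_commutator_left hN₃ hAR hER (fun a ha e he => ?_) x hx
    obtain ⟨f, hfd⟩ : ∃ f, f = a * e * a⁻¹ * e⁻¹ := ⟨_, rfl⟩
    have hf : f ∈ ⁅A, ⁅B, C⁆⁆ := by rw [hfd]; exact Subgroup.commutator_mem_commutator ha he
    rw [← hfd]
    obtain ⟨d, hdd⟩ : ∃ d, d = y * a * y⁻¹ * a⁻¹ := ⟨_, rfl⟩
    have hd : d ∈ ⁅A, B⁆ := by rw [hdd]; exact h.mem_d hy ha
    have cye : Commute y e := (h.eb he hy).symm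
    have cfd : Commute f d := (h.f_comm hf).2.2.1 d hd
    have cfe : Commute f e := (h.f_comm hf).2.2.2 e he
    have e1 : y * f * y⁻¹ * f⁻¹ = d * e * d⁻¹ * e⁻¹ := by
      have e2 : y * a * y⁻¹ = d * a := by rw [hdd]; group
      have e3 : y * e * y⁻¹ = e := by rw [cye.eq]; group
      have e4 : a * e * a⁻¹ = f * e := by rw [hfd]; group
      calc y * f * y⁻¹ * f⁻¹ = (y * a * y⁻¹) * (y * e * y⁻¹) * (y * a * y⁻¹)⁻¹ * (y * e * y⁻¹)⁻¹ * f⁻¹ := by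
            rw [hfd]; group
        _ = (d * a) * e * (d * a)⁻¹ * e⁻¹ * f⁻¹ := by rw [e2, e3]
        _ = d * (a * e * a⁻¹) * d⁻¹ * e⁻¹ * f⁻¹ := by group
        _ = d * (f * e) * d⁻¹ * e⁻¹ * f⁻¹ := by rw [e4]
        _ = (d * f) * e * d⁻¹ * e⁻¹ * f⁻¹ := by group
        _ = (f * d) * e * d⁻¹ * e⁻¹ * f⁻¹ := by rw [cfd.eq]
        _ = f * (d * e * d⁻¹ * e⁻¹) * f⁻¹ := by group
        _ = (d * e * d⁻¹ * e⁻¹) * f * f⁻¹ := by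
            rw [(((cfd.mul_right cfe).mul_right cfd.inv_right).mul_right cfe.inv_right).eq]
        _ = d * e * d⁻¹ * e⁻¹ := by group
    rw [hcomb, e1]
    exact Subgroup.inv_mem _ (Subgroup.commutator_mem_commutator hd he)
  have hf2b : ∀ x ∈ ⁅⁅A, B⁆, C⁆, ∀ y ∈ B, x * y * x⁻¹ * y⁻¹ ∈ ⁅⁅A, B⁆, ⁅B, C⁆⁆ := by
    intro x hx y hy
    refine comm_mem_commutator_left hN₃ hDR hCR (fun d hd c hc => ?_) x hx
    obtain ⟨f, hfd⟩ : ∃ f, f = d * c * d⁻¹ * c⁻¹ := ⟨_, rfl⟩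
    have hf : f ∈ ⁅⁅A, B⁆, C⁆ := by rw [hfd]; exact Subgroup.commutator_mem_commutator hd hc
    rw [← hfd]
    obtain ⟨e, hed⟩ : ∃ e, e = y * c * y⁻¹ * c⁻¹ := ⟨_, rfl⟩
    have he : e ∈ ⁅B, C⁆ := by rw [hed]; exact h.mem_e hy hc
    have cyd : Commute y d := (h.db hd hy).symm
    have cfd : Commute f d := (h.f2_comm hf).2.2.1 d hd
    have cfe : Commute f e := (h.f2_comm hf).2.2.2 e he
    have e1 : y * f * y⁻¹ * f⁻¹ = d * e * d⁻¹ * e⁻¹ := by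
      have e2 : y * c * y⁻¹ = e * c := by rw [hed]; group
      have e3 : y * d * y⁻¹ = d := by rw [cyd.eq]; group
      calc y * f * y⁻¹ * f⁻¹ = (y * d * y⁻¹) * (y * c * y⁻¹) * (y * d * y⁻¹)⁻¹ * (y * c * y⁻¹)⁻¹ * f⁻¹ := by
            rw [hfd]; group
        _ = d * (e * c) * d⁻¹ * (e * c)⁻¹ * f⁻¹ := by rw [e2, e3]
        _ = (d * e * d⁻¹ * e⁻¹) * (e * (d * c * d⁻¹ * c⁻¹) * e⁻¹) * f⁻¹ := by group
        _ = (d * e * d⁻¹ * e⁻¹) * (e * f * e⁻¹) * f⁻¹ := by rw [hfd]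
        _ = d * e * d⁻¹ * e⁻¹ := by
            have : e * f * e⁻¹ = f := by rw [cfe.symm.eq]; group
            rw [this]; group
    rw [hcomb, e1]
    exact Subgroup.inv_mem _ (Subgroup.commutator_mem_commutator hd he)
  have hfall : ∀ x ∈ ⁅A, ⁅B, C⁆⁆, ∀ y ∈ A ⊔ B ⊔ C, x * y * x⁻¹ * y⁻¹ ∈ ⁅⁅A, B⁆, ⁅B, C⁆⁆ := by
    intro x hx
    have hxA := (h.f_comm hx).1
    have hxC := (h.f_comm hx).2.1
    refine comm_mem_sup_right hN₃ (sup_le hAR hBR) hCR ?_ ?_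
    · refine comm_mem_sup_right hN₃ hAR hBR ?_ (hfb x hx)
      intro y hy
      rw [hxA y hy]; simp
    · intro y hy
      rw [hxC y hy]; simp
  have hf2all : ∀ x ∈ ⁅⁅A, B⁆, C⁆, ∀ y ∈ A ⊔ B ⊔ C, x * y * x⁻¹ * y⁻¹ ∈ ⁅⁅A, B⁆, ⁅B, C⁆⁆ := by
    intro x hx
    have hxA := (h.f2_comm hx).1
    have hxC := (h.f2_comm hx).2.1
    refine comm_mem_sup_right hN₃ (sup_le hAR hBR) hCR ?_ ?_
    · refine comm_mem_sup_right hN₃ hAR hBR ?_ (hf2b x hx)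
      intro y hy
      rw [hxA y hy]; simp
    · intro y hy
      rw [hxC y hy]; simp
  have h₂ : ∀ x ∈ ⁅A, ⁅B, C⁆⁆ ⊔ ⁅⁅A, B⁆, C⁆, ∀ y ∈ A ⊔ B ⊔ C, x * y * x⁻¹ * y⁻¹ ∈ ⁅⁅A, B⁆, ⁅B, C⁆⁆ := by
    intro x hx y hy
    exact comm_mem_sup_left hN₃ hFR hF2R (fun x hx => hfall x hx y hy) (fun x hx => hf2all x hx y hy) x hx
  have hL32 : ⁅⁅A, B⁆, ⁅B, C⁆⁆ ≤ ⁅A, ⁅B, C⁆⁆ ⊔ ⁅⁅A, B⁆, C⁆ := by
    rw [Subgroup.commutator_le]
    intro d hd e he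
    rw [commutatorElement_def]
    exact h.g_mem hd he
  have hN₂ : ∀ r ∈ A ⊔ B ⊔ C, ∀ l ∈ ⁅A, ⁅B, C⁆⁆ ⊔ ⁅⁅A, B⁆, C⁆, r * l * r⁻¹ ∈ ⁅A, ⁅B, C⁆⁆ ⊔ ⁅⁅A, B⁆, C⁆ := by
    intro r hr l hl
    have e : r * l * r⁻¹ = (l * r * l⁻¹ * r⁻¹)⁻¹ * l := by group
    rw [e]
    exact Subgroup.mul_mem _ (Subgroup.inv_mem _ (hL32 (h₂ l hl r hr))) hl
  -- step 1
  have hda1 : ∀ d ∈ ⁅A, B⁆, ∀ y ∈ A ⊔ B ⊔ C, d * y * d⁻¹ * y⁻¹ ∈ ⁅A, ⁅B, C⁆⁆ ⊔ ⁅⁅A, B⁆, C⁆ := by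
    intro d hd
    refine comm_mem_sup_right hN₂ (sup_le hAR hBR) hCR ?_ ?_
    · refine comm_mem_sup_right hN₂ hAR hBR ?_ ?_
      · intro y hy
        rw [h.da hd hy]; simp
      · intro y hy
        rw [h.db hd hy]; simp
    · intro y hy
      exact (le_sup_right : ⁅⁅A, B⁆, C⁆ ≤ ⁅A, ⁅B, C⁆⁆ ⊔ ⁅⁅A, B⁆, C⁆) (Subgroup.commutator_mem_commutator hd hy)
  have hea1 : ∀ e ∈ ⁅B, C⁆, ∀ y ∈ A ⊔ B ⊔ C, e * y * e⁻¹ * y⁻¹ ∈ ⁅A, ⁅B, C⁆⁆ ⊔ ⁅⁅A, B⁆, C⁆ := by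
    intro e he
    refine comm_mem_sup_right hN₂ (sup_le hAR hBR) hCR ?_ ?_
    · refine comm_mem_sup_right hN₂ hAR hBR ?_ ?_
      · intro y hy
        rw [hcomb]
        exact Subgroup.inv_mem _ ((le_sup_left : ⁅A, ⁅B, C⁆⁆ ≤ ⁅A, ⁅B, C⁆⁆ ⊔ ⁅⁅A, B⁆, C⁆)
          (Subgroup.commutator_mem_commutator hy he))
      · intro y hy
        rw [h.eb he hy]; simp
    · intro y hy
      rw [h.ec he hy]; simp
  have h₁ : ∀ x ∈ (⁅A, B⁆ ⊔ ⁅B, C⁆) ⊔ (⁅A, ⁅B, C⁆⁆ ⊔ ⁅⁅A, B⁆, C⁆), ∀ y ∈ A ⊔ B ⊔ C,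
      x * y * x⁻¹ * y⁻¹ ∈ ⁅A, ⁅B, C⁆⁆ ⊔ ⁅⁅A, B⁆, C⁆ := by
    intro x hx y hy
    refine comm_mem_sup_left hN₂ (sup_le hDR hER) (sup_le hFR hF2R) ?_ ?_ x hx
    · intro x hx
      exact comm_mem_sup_left hN₂ hDR hER (fun x hx => hda1 x hx y hy) (fun x hx => hea1 x hx y hy) x hx
    · intro x hx
      exact hL32 (h₂ x hx y hy)
  have hL21 : ⁅A, ⁅B, C⁆⁆ ⊔ ⁅⁅A, B⁆, C⁆ ≤ (⁅A, B⁆ ⊔ ⁅B, C⁆) ⊔ (⁅A, ⁅B, C⁆⁆ ⊔ ⁅⁅A, B⁆, C⁆) := le_sup_right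
  have hN₁ : ∀ r ∈ A ⊔ B ⊔ C, ∀ l ∈ (⁅A, B⁆ ⊔ ⁅B, C⁆) ⊔ (⁅A, ⁅B, C⁆⁆ ⊔ ⁅⁅A, B⁆, C⁆),
      r * l * r⁻¹ ∈ (⁅A, B⁆ ⊔ ⁅B, C⁆) ⊔ (⁅A, ⁅B, C⁆⁆ ⊔ ⁅⁅A, B⁆, C⁆) := by
    intro r hr l hl
    have e : r * l * r⁻¹ = (l * r * l⁻¹ * r⁻¹)⁻¹ * l := by group
    rw [e]
    exact Subgroup.mul_mem _ (Subgroup.inv_mem _ (hL21 (h₁ l hl r hr))) hl
  -- step 0
  have hDL : ⁅A, B⁆ ≤ (⁅A, B⁆ ⊔ ⁅B, C⁆) ⊔ (⁅A, ⁅B, C⁆⁆ ⊔ ⁅⁅A, B⁆, C⁆) := le_sup_left.trans le_sup_left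
  have hEL : ⁅B, C⁆ ≤ (⁅A, B⁆ ⊔ ⁅B, C⁆) ⊔ (⁅A, ⁅B, C⁆⁆ ⊔ ⁅⁅A, B⁆, C⁆) := le_sup_right.trans le_sup_left
  have hgens : ∀ y ∈ A ⊔ B ⊔ C, (∀ x ∈ A, x * y * x⁻¹ * y⁻¹ ∈ (⁅A, B⁆ ⊔ ⁅B, C⁆) ⊔ (⁅A, ⁅B, C⁆⁆ ⊔ ⁅⁅A, B⁆, C⁆)) ∧
      (∀ x ∈ B, x * y * x⁻¹ * y⁻¹ ∈ (⁅A, B⁆ ⊔ ⁅B, C⁆) ⊔ (⁅A, ⁅B, C⁆⁆ ⊔ ⁅⁅A, B⁆, C⁆)) ∧
      (∀ x ∈ C, x * y * x⁻¹ * y⁻¹ ∈ (⁅A, B⁆ ⊔ ⁅B, C⁆) ⊔ (⁅A, ⁅B, C⁆⁆ ⊔ ⁅⁅A, B⁆, C⁆)) := by
    intro y hy
    refine ⟨?_, ?_, ?_⟩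
    · intro x hx
      refine comm_mem_sup_right hN₁ (sup_le hAR hBR) hCR ?_ ?_ y hy
      · refine comm_mem_sup_right hN₁ hAR hBR ?_ ?_
        · intro y hy
          rw [h.aa hx hy]; simp
        · intro y hy
          exact hDL (Subgroup.commutator_mem_commutator hx hy)
      · intro y hy
        rw [h.ac hx hy]; simp
    · intro x hx
      refine comm_mem_sup_right hN₁ (sup_le hAR hBR) hCR ?_ ?_ y hy
      · refine comm_mem_sup_right hN₁ hAR hBR ?_ ?_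
        · intro y hy
          exact hDL (h.mem_d hx hy)
        · intro y hy
          rw [h.bb hx hy]; simp
      · intro y hy
        exact hEL (h.mem_e hx hy)
    · intro x hx
      refine comm_mem_sup_right hN₁ (sup_le hAR hBR) hCR ?_ ?_ y hy
      · refine comm_mem_sup_right hN₁ hAR hBR ?_ ?_
        · intro y hy
          rw [← h.ac hy hx]; simp
        · intro y hy
          rw [hcomb]
          exact Subgroup.inv_mem _ (hEL (h.mem_e hy hx))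
      · intro y hy
        rw [h.cc hx hy]; simp
  have h₀ : ∀ x ∈ A ⊔ B ⊔ C, ∀ y ∈ A ⊔ B ⊔ C,
      x * y * x⁻¹ * y⁻¹ ∈ (⁅A, B⁆ ⊔ ⁅B, C⁆) ⊔ (⁅A, ⁅B, C⁆⁆ ⊔ ⁅⁅A, B⁆, C⁆) := by
    intro x hx y hy
    obtain ⟨h1, h2, h3⟩ := hgens y hy
    exact comm_mem_sup_left hN₁ (sup_le hAR hBR) hCR
      (comm_mem_sup_left hN₁ hAR hBR h1 h2) h3 x hx
  exact isNilpotent_of_chain h₀ h₁ h₂ h₃

omit h in
lemma isMulCommutative_sup {U V : Subgroup G} (hU : IsMulCommutative U) (hV : IsMulCommutative V)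
    (hUV : ∀ u ∈ U, ∀ v ∈ V, u * v = v * u) : IsMulCommutative ↥(U ⊔ V) := by
  have h1 : ∀ x ∈ U ⊔ V, ∀ y ∈ U ⊔ V, x * y = y * x := by
    apply comm_sup_left
    · exact comm_sup_right (fun u hu u' hu' => comm_of_isMulCommutative hU hu hu') hUV
    · exact comm_sup_right (fun v hv u hu => (hUV u hu v hv).symm) (fun v hv v' hv' => comm_of_isMulCommutative hV hv hv')
  exact ⟨⟨fun x y => Subtype.ext (h1 x x.2 y y.2)⟩⟩

lemma x_abelian (hz : ⁅A, ⁅B, C⁆⁆ = ⊥) : IsMulCommutative ↥(A ⊔ conjBy C b⁻¹) :=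
  isMulCommutative_sup (h.hS.commutative A h.hA) (h.hS.commutative _ (h.hS.conj_mem C h.hC b⁻¹)) (h.a_c1_of_a_e hz)

lemma y_abelian (hz : ⁅A, ⁅B, C⁆⁆ = ⊥) : IsMulCommutative ↥(conjBy A b⁻¹ ⊔ C) :=
  isMulCommutative_sup (h.hS.commutative _ (h.hS.conj_mem A h.hA b⁻¹)) (h.hS.commutative C h.hC)
    (h.a1_c_of_d_c (h.ae_iff_dc.1 hz))

lemma x_class_two (hz : ¬ ⁅A, ⁅B, C⁆⁆ = ⊥) :
    ¬ IsMulCommutative ↥(A ⊔ conjBy C b⁻¹) ∧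
      ⁅⁅A ⊔ conjBy C b⁻¹, A ⊔ conjBy C b⁻¹⁆, A ⊔ conjBy C b⁻¹⁆ = ⊥ := by
  constructor
  · intro hc
    apply hz
    apply h.a_e_of_a_c1
    intro a ha y hy
    exact comm_of_isMulCommutative hc ((le_sup_left : A ≤ A ⊔ conjBy C b⁻¹) ha)
      ((le_sup_right : conjBy C b⁻¹ ≤ A ⊔ conjBy C b⁻¹) hy)
  · rcases h.hS.pair A h.hA _ (h.hS.conj_mem C h.hC b⁻¹) with h1 | h1 | h1
    · exact absurd (h.a_e_of_a_c1 (fun a ha y hy => comm_of_commutator_eq_bot h1 ha hy)) hz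
    · exact absurd h1 h.not_rank_one_x
    · have hle : ⁅A ⊔ conjBy C b⁻¹, A ⊔ conjBy C b⁻¹⁆ ≤ ⁅A, conjBy C b⁻¹⁆ := by
        rw [Subgroup.commutator_le]
        intro x hx y hy
        rw [commutatorElement_def]
        exact comm_mem_of_central (fun z hz x hx => comm_central h1 hz hx) (fun u hu u' hu' => h.aa hu hu')
          (fun u hu u' hu' => comm_of_isMulCommutative (h.hS.commutative _ (h.hS.conj_mem C h.hC b⁻¹)) hu hu')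
          (fun u hu v hv => Subgroup.commutator_mem_commutator hu hv) x hx y hy
      apply commutator_eq_bot_of_comm
      intro z hz x hx
      exact comm_central h1 (hle hz) hx

lemma y_class_two (hz : ¬ ⁅A, ⁅B, C⁆⁆ = ⊥) :
    ¬ IsMulCommutative ↥(conjBy A b⁻¹ ⊔ C) ∧
      ⁅⁅conjBy A b⁻¹ ⊔ C, conjBy A b⁻¹ ⊔ C⁆, conjBy A b⁻¹ ⊔ C⁆ = ⊥ := by
  have hz' : ¬ ⁅⁅A, B⁆, C⁆ = ⊥ := fun hc => hz (h.ae_iff_dc.2 hc)
  constructor
  · intro hc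
    apply hz'
    apply h.d_c_of_a1_c
    intro y hy c hcC
    exact comm_of_isMulCommutative hc ((le_sup_left : conjBy A b⁻¹ ≤ conjBy A b⁻¹ ⊔ C) hy)
      ((le_sup_right : C ≤ conjBy A b⁻¹ ⊔ C) hcC)
  · rcases h.hS.pair _ (h.hS.conj_mem A h.hA b⁻¹) C h.hC with h1 | h1 | h1
    · exact absurd (h.d_c_of_a1_c (fun y hy c hc => comm_of_commutator_eq_bot h1 hy hc)) hz'
    · exact absurd h1 h.not_rank_one_y
    · have hle : ⁅conjBy A b⁻¹ ⊔ C, conjBy A b⁻¹ ⊔ C⁆ ≤ ⁅conjBy A b⁻¹, C⁆ := by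
        rw [Subgroup.commutator_le]
        intro x hx y hy
        rw [commutatorElement_def]
        exact comm_mem_of_central (fun z hz x hx => comm_central h1 hz hx)
          (fun u hu u' hu' => comm_of_isMulCommutative (h.hS.commutative _ (h.hS.conj_mem A h.hA b⁻¹)) hu hu')
          (fun u hu u' hu' => h.cc hu hu')
          (fun u hu v hv => Subgroup.commutator_mem_commutator hu hv) x hx y hy
      apply commutator_eq_bot_of_comm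
      intro z hz x hx
      exact comm_central h1 (hle hz) hx

/-- `XY = A D C E`. -/
lemma xy_eq : (A ⊔ conjBy C b⁻¹) ⊔ (conjBy A b⁻¹ ⊔ C) = (A ⊔ ⁅A, B⁆) ⊔ (C ⊔ ⁅B, C⁆) := by
  apply le_antisymm
  · refine sup_le (sup_le (le_sup_left.trans le_sup_left) ?_) (sup_le ?_ (le_sup_left.trans le_sup_right))
    · intro y hy
      rw [mem_conjBy, inv_inv] at hy
      have hy' : b * y * b⁻¹ ∈ C := by simpa using hy
      have e : y = (b⁻¹ * (b * y * b⁻¹) * b * (b * y * b⁻¹)⁻¹) * (b * y * b⁻¹) := by group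
      rw [e]
      have hm : b⁻¹ * (b * y * b⁻¹) * b * (b * y * b⁻¹)⁻¹ ∈ ⁅B, C⁆ := by
        have := h.mem_e h.hbi hy'
        simpa using this
      exact Subgroup.mul_mem _ ((le_sup_right.trans le_sup_right : ⁅B, C⁆ ≤ (A ⊔ ⁅A, B⁆) ⊔ (C ⊔ ⁅B, C⁆)) hm)
        ((le_sup_left.trans le_sup_right : C ≤ (A ⊔ ⁅A, B⁆) ⊔ (C ⊔ ⁅B, C⁆)) hy')
    · intro y hy
      rw [mem_conjBy, inv_inv] at hy
      have hy' : b * y * b⁻¹ ∈ A := by simpa using hy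
      have e : y = (b⁻¹ * (b * y * b⁻¹) * b * (b * y * b⁻¹)⁻¹) * (b * y * b⁻¹) := by group
      rw [e]
      have hm : b⁻¹ * (b * y * b⁻¹) * b * (b * y * b⁻¹)⁻¹ ∈ ⁅A, B⁆ := by
        have := h.mem_d h.hbi hy'
        simpa using this
      exact Subgroup.mul_mem _ ((le_sup_right.trans le_sup_left : ⁅A, B⁆ ≤ (A ⊔ ⁅A, B⁆) ⊔ (C ⊔ ⁅B, C⁆)) hm)
        ((le_sup_left.trans le_sup_left : A ≤ (A ⊔ ⁅A, B⁆) ⊔ (C ⊔ ⁅B, C⁆)) hy')
  · refine sup_le (sup_le (le_sup_left.trans le_sup_left) ?_) (sup_le (le_sup_right.trans le_sup_right) ?_)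
    · intro d hd
      obtain ⟨a, ha, rfl⟩ := h.exists_d hd
      exact Subgroup.mul_mem _ ((le_sup_left.trans le_sup_right :
        conjBy A b⁻¹ ≤ (A ⊔ conjBy C b⁻¹) ⊔ (conjBy A b⁻¹ ⊔ C)) (h.a1_mem ha))
        (Subgroup.inv_mem _ ((le_sup_left.trans le_sup_left : A ≤ (A ⊔ conjBy C b⁻¹) ⊔ (conjBy A b⁻¹ ⊔ C)) ha))
    · intro e he
      obtain ⟨c, hc, rfl⟩ := h.exists_e he
      exact Subgroup.mul_mem _ ((le_sup_right.trans le_sup_left :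
        conjBy C b⁻¹ ≤ (A ⊔ conjBy C b⁻¹) ⊔ (conjBy A b⁻¹ ⊔ C)) (h.c1_mem hc))
        (Subgroup.inv_mem _ ((le_sup_right.trans le_sup_right : C ≤ (A ⊔ conjBy C b⁻¹) ⊔ (conjBy A b⁻¹ ⊔ C)) hc))

/-- `XY ⊔ B = R`. -/
lemma xy_sup : ((A ⊔ conjBy C b⁻¹) ⊔ (conjBy A b⁻¹ ⊔ C)) ⊔ B = A ⊔ B ⊔ C := by
  rw [h.xy_eq]
  have hAR : A ≤ A ⊔ B ⊔ C := le_sup_left.trans le_sup_left
  have hBR : B ≤ A ⊔ B ⊔ C := le_sup_right.trans le_sup_left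
  have hCR : C ≤ A ⊔ B ⊔ C := le_sup_right
  have hDR : ⁅A, B⁆ ≤ A ⊔ B ⊔ C := (commutator_le_sup A B).trans le_sup_left
  have hER : ⁅B, C⁆ ≤ A ⊔ B ⊔ C := (commutator_le_sup B C).trans (sup_le hBR hCR)
  apply le_antisymm
  · exact sup_le (sup_le (sup_le hAR hDR) (sup_le hCR hER)) hBR
  · refine sup_le (sup_le ?_ le_sup_right) ?_
    · exact le_sup_left.trans (le_sup_left.trans le_sup_left)
    · exact le_sup_left.trans (le_sup_right.trans le_sup_left)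

/-- `B` normalizes `XY`. -/
lemma conjBy_b_le {x : G} (hx : x ∈ B) : conjBy ((A ⊔ ⁅A, B⁆) ⊔ (C ⊔ ⁅B, C⁆)) x ≤ (A ⊔ ⁅A, B⁆) ⊔ (C ⊔ ⁅B, C⁆) := by
  rw [conjBy_sup, conjBy_sup, conjBy_sup]
  have hDx : conjBy ⁅A, B⁆ x = ⁅A, B⁆ := conjBy_eq_self_of_comm (fun u hu => (h.db hu hx).symm)
  have hEx : conjBy ⁅B, C⁆ x = ⁅B, C⁆ := conjBy_eq_self_of_comm (fun u hu => (h.eb hu hx).symm)
  rw [hDx, hEx]
  refine sup_le (sup_le ?_ (le_sup_right.trans le_sup_left)) (sup_le ?_ (le_sup_right.trans le_sup_right))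
  · rintro _ ⟨a, ha, rfl⟩
    have e : (MulAut.conj x).toMonoidHom a = (x * a * x⁻¹ * a⁻¹) * a := by
      simp [MulAut.conj_apply]
    rw [e]
    exact Subgroup.mul_mem _ ((le_sup_right.trans le_sup_left : ⁅A, B⁆ ≤ (A ⊔ ⁅A, B⁆) ⊔ (C ⊔ ⁅B, C⁆)) (h.mem_d hx ha))
      ((le_sup_left.trans le_sup_left : A ≤ (A ⊔ ⁅A, B⁆) ⊔ (C ⊔ ⁅B, C⁆)) ha)
  · rintro _ ⟨c, hc, rfl⟩
    have e : (MulAut.conj x).toMonoidHom c = (x * c * x⁻¹ * c⁻¹) * c := by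
      simp [MulAut.conj_apply]
    rw [e]
    exact Subgroup.mul_mem _ ((le_sup_right.trans le_sup_right : ⁅B, C⁆ ≤ (A ⊔ ⁅A, B⁆) ⊔ (C ⊔ ⁅B, C⁆)) (h.mem_e hx hc))
      ((le_sup_left.trans le_sup_right : C ≤ (A ⊔ ⁅A, B⁆) ⊔ (C ⊔ ⁅B, C⁆)) hc)

lemma conjBy_b_eq {x : G} (hx : x ∈ B) : conjBy ((A ⊔ ⁅A, B⁆) ⊔ (C ⊔ ⁅B, C⁆)) x = (A ⊔ ⁅A, B⁆) ⊔ (C ⊔ ⁅B, C⁆) := by
  apply le_antisymm (h.conjBy_b_le hx)
  intro y hy
  rw [mem_conjBy]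
  have : x⁻¹ * y * x⁻¹⁻¹ ∈ conjBy ((A ⊔ ⁅A, B⁆) ⊔ (C ⊔ ⁅B, C⁆)) x⁻¹ := conj_mem_conjBy hy
  have h2 := h.conjBy_b_le (B.inv_mem hx) this
  simpa using h2

/-- `R` normalizes `XY`. -/
lemma conjBy_r_eq {r : G} (hr : r ∈ A ⊔ B ⊔ C) :
    conjBy ((A ⊔ conjBy C b⁻¹) ⊔ (conjBy A b⁻¹ ⊔ C)) r = (A ⊔ conjBy C b⁻¹) ⊔ (conjBy A b⁻¹ ⊔ C) := by
  rw [h.xy_eq]
  have hAN : A ≤ (A ⊔ ⁅A, B⁆) ⊔ (C ⊔ ⁅B, C⁆) := le_sup_left.trans le_sup_left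
  have hCN : C ≤ (A ⊔ ⁅A, B⁆) ⊔ (C ⊔ ⁅B, C⁆) := le_sup_left.trans le_sup_right
  have := stable_sup (A := A ⊔ B) (B := C) (T := {(A ⊔ ⁅A, B⁆) ⊔ (C ⊔ ⁅B, C⁆)})
    (stable_sup (A := A) (B := B) (T := {(A ⊔ ⁅A, B⁆) ⊔ (C ⊔ ⁅B, C⁆)})
      (fun a ha E hE => by
        rw [Set.mem_singleton_iff] at hE ⊢
        rw [hE]; exact conjBy_eq_self (hAN ha))
      (fun x hx E hE => by
        rw [Set.mem_singleton_iff] at hE ⊢
        rw [hE]; exact h.conjBy_b_eq hx))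
    (fun c hc E hE => by
      rw [Set.mem_singleton_iff] at hE ⊢
      rw [hE]; exact conjBy_eq_self (hCN hc)) r hr _ rfl
  simpa using this

end Chain

end Cfsg.Agent.Lib.Amalgam.Chain
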