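import Cfsg.Agent.Lib.Amalgam.RootSet

/-!
# The commutator case for abstract root subgroups

Bilinearity of the commutator map, injectivity using a rank one partner, covering of `A ⊔ C`
by the conjugates `A^B` and `C`, and the members of `S` inside `A ⊔ C`.
-/

set_option autoImplicit false

namespace Cfsg.Agent.Lib.Amalgam.CommCase

open Cfsg Cfsg.Agent.Lib.Amalgam.RankOne Cfsg.Agent.Lib.Amalgam.RootSet
open scoped commutatorElement

variable {G : Type*} [Group G] {S : Set (Subgroup G)}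

/-- Elements of the join of two commuting subgroups are products. -/
lemma mem_sup_of_comm {U V : Subgroup G} (hc : ∀ u ∈ U, ∀ v ∈ V, u * v = v * u) {x : G} (hx : x ∈ U ⊔ V) :
    ∃ u ∈ U, ∃ v ∈ V, x = u * v := by
  let K : Subgroup G :=
    { carrier := {x | ∃ u ∈ U, ∃ v ∈ V, x = u * v}
      mul_mem' := by
        rintro _ _ ⟨u, hu, v, hv, rfl⟩ ⟨u', hu', v', hv', rfl⟩
        refine ⟨u * u', U.mul_mem hu hu', v * v', V.mul_mem hv hv', ?_⟩
        calc u * v * (u' * v') = u * (v * u') * v' := by group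
          _ = u * (u' * v) * v' := by rw [hc u' hu' v hv]
          _ = _ := by group
      one_mem' := ⟨1, U.one_mem, 1, V.one_mem, by simp⟩
      inv_mem' := by
        rintro _ ⟨u, hu, v, hv, rfl⟩
        refine ⟨u⁻¹, U.inv_mem hu, v⁻¹, V.inv_mem hv, ?_⟩
        have h1 : Commute u v := hc u hu v hv
        rw [mul_inv_rev]
        exact (h1.inv_inv).eq.symm }
  have hle : U ⊔ V ≤ K := by
    apply sup_le
    · intro u hu
      exact ⟨u, hu, 1, V.one_mem, by simp⟩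
    · intro v hv
      exact ⟨1, U.one_mem, v, hv, by simp⟩
  exact hle hx

section Basic

variable {U V : Subgroup G} (hcc : RootCommutatorCase S U V)

include hcc

lemma comm_central {c x : G} (hc : c ∈ ⁅U, V⁆) (hx : x ∈ U ⊔ V) : c * x = x * c :=
  hcc.2.1 c hc x hx

lemma comm_mem {u v : G} (hu : u ∈ U) (hv : v ∈ V) : u * v * u⁻¹ * v⁻¹ ∈ ⁅U, V⁆ :=
  Subgroup.commutator_mem_commutator hu hv

/-- The commutator map is additive in the right variable. -/
lemma comm_mul_right {u v v' : G} (hu : u ∈ U) (hv : v ∈ V) (hv' : v' ∈ V) :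
    u * (v * v') * u⁻¹ * (v * v')⁻¹ = (u * v * u⁻¹ * v⁻¹) * (u * v' * u⁻¹ * v'⁻¹) := by
  have h1 := comm_central hcc (comm_mem hcc hu hv') ((le_sup_right : V ≤ U ⊔ V) hv)
  have e : u * (v * v') * u⁻¹ * (v * v')⁻¹ = (u * v * u⁻¹ * v⁻¹) * (v * (u * v' * u⁻¹ * v'⁻¹) * v⁻¹) := by
    group
  rw [e, ← h1]
  group

/-- The commutator map is additive in the left variable. -/
lemma comm_mul_left {u u' v : G} (hu : u ∈ U) (hu' : u' ∈ U) (hv : v ∈ V) :
    (u * u') * v * (u * u')⁻¹ * v⁻¹ = (u * v * u⁻¹ * v⁻¹) * (u' * v * u'⁻¹ * v⁻¹) := by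
  have h1 := comm_central hcc (comm_mem hcc hu' hv) ((le_sup_left : U ≤ U ⊔ V) hu)
  have e : (u * u') * v * (u * u')⁻¹ * v⁻¹ = (u * (u' * v * u'⁻¹ * v⁻¹) * u⁻¹) * (u * v * u⁻¹ * v⁻¹) := by
    group
  rw [e, ← h1]
  have e2 : u' * v * u'⁻¹ * v⁻¹ * u * u⁻¹ * (u * v * u⁻¹ * v⁻¹) =
      (u' * v * u'⁻¹ * v⁻¹) * (u * v * u⁻¹ * v⁻¹) := by group
  rw [e2]
  have h2 := comm_central hcc (comm_mem hcc hu hv) ((U ⊔ V).mul_mem ((le_sup_left : U ≤ U ⊔ V) hu') ((le_sup_right : V ≤ U ⊔ V) hv))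
  -- the two commutators commute since one is central
  have h3 := (commutator_le_sup U V) (comm_mem hcc hu' hv)
  exact (comm_central hcc (comm_mem hcc hu hv) h3).symm

/-- The commutator with a fixed non-trivial `u` is onto `⁅U, V⁆`. -/
lemma exists_comm_right {u : G} (hu : u ∈ U) (hu1 : u ≠ 1) {c : G} (hc : c ∈ ⁅U, V⁆) :
    ∃ v ∈ V, u * v * u⁻¹ * v⁻¹ = c := by
  let K : Subgroup G :=
    { carrier := {c | ∃ v ∈ V, u * v * u⁻¹ * v⁻¹ = c}
      mul_mem' := by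
        rintro _ _ ⟨v, hv, rfl⟩ ⟨v', hv', rfl⟩
        exact ⟨v * v', V.mul_mem hv hv', comm_mul_right hcc hu hv hv'⟩
      one_mem' := ⟨1, V.one_mem, by group⟩
      inv_mem' := by
        rintro _ ⟨v, hv, rfl⟩
        refine ⟨v⁻¹, V.inv_mem hv, ?_⟩
        have h1 := comm_mul_right hcc hu hv (V.inv_mem hv)
        have h2 : u * (v * v⁻¹) * u⁻¹ * (v * v⁻¹)⁻¹ = 1 := by group
        rw [h2] at h1
        exact eq_inv_of_mul_eq_one_right h1.symm }
  have hle : ⁅U, V⁆ ≤ K := by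
    rw [← hcc.2.2.1 u hu hu1, Subgroup.closure_le]
    rintro _ ⟨v, hv, rfl⟩
    exact ⟨v, hv, rfl⟩
  exact hle hc

/-- The commutator with a fixed non-trivial `v` is onto `⁅U, V⁆`. -/
lemma exists_comm_left {v : G} (hv : v ∈ V) (hv1 : v ≠ 1) {c : G} (hc : c ∈ ⁅U, V⁆) :
    ∃ u ∈ U, u * v * u⁻¹ * v⁻¹ = c := by
  let K : Subgroup G :=
    { carrier := {c | ∃ u ∈ U, u * v * u⁻¹ * v⁻¹ = c}
      mul_mem' := by
        rintro _ _ ⟨u, hu, rfl⟩ ⟨u', hu', rfl⟩
        exact ⟨u * u', U.mul_mem hu hu', comm_mul_left hcc hu hu' hv⟩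
      one_mem' := ⟨1, U.one_mem, by group⟩
      inv_mem' := by
        rintro _ ⟨u, hu, rfl⟩
        refine ⟨u⁻¹, U.inv_mem hu, ?_⟩
        have h1 := comm_mul_left hcc hu (U.inv_mem hu) hv
        have h2 : (u * u⁻¹) * v * (u * u⁻¹)⁻¹ * v⁻¹ = 1 := by group
        rw [h2] at h1
        exact eq_inv_of_mul_eq_one_right h1.symm }
  have hle : ⁅U, V⁆ ≤ K := by
    rw [← hcc.2.2.2 v hv hv1, Subgroup.closure_le]
    rintro _ ⟨u, hu, rfl⟩
    exact ⟨u, hu, rfl⟩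
  exact hle hc

/-- Closure of the commutators with a fixed `u`: the range of the commutator map. -/
lemma comm_ne_one_right {u : G} (hS : IsRootSubgroupSet S) (hu : u ∈ U) (hu1 : u ≠ 1) :
    ∃ v ∈ V, u * v * u⁻¹ * v⁻¹ ≠ 1 := by
  by_contra hcon
  push Not at hcon
  apply hS.ne_bot _ hcc.1
  rw [eq_bot_iff]
  intro c hc
  obtain ⟨v, hv, rfl⟩ := exists_comm_right hcc hu hu1 hc
  rw [hcon v hv]
  exact Subgroup.one_mem _

lemma comm_ne_one_left {v : G} (hS : IsRootSubgroupSet S) (hv : v ∈ V) (hv1 : v ≠ 1) :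
    ∃ u ∈ U, u * v * u⁻¹ * v⁻¹ ≠ 1 := by
  by_contra hcon
  push Not at hcon
  apply hS.ne_bot _ hcc.1
  rw [eq_bot_iff]
  intro c hc
  obtain ⟨u, hu, rfl⟩ := exists_comm_left hcc hv hv1 hc
  rw [hcon u hu]
  exact Subgroup.one_mem _

end Basic

section Partner

variable {U V P : Subgroup G} (hS : IsRootSubgroupSet S)
  (hcc : RootCommutatorCase S U V) (hP : P ∈ S) (hUP : IsRankOnePair U P)

include hS hcc hP hUP

/-- `U ⊓ ⁅U, V⁆ = ⊥` when `U` has a partner. -/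
lemma inf_commutator : U ⊓ ⁅U, V⁆ = ⊥ := by
  rcases ti hS hcc.1 hP hUP with h | h
  · exact h
  · exfalso
    obtain ⟨u, hu, hu1⟩ := exists_ne_one_left hUP
    have huc : u ∈ ⁅U, V⁆ := h ▸ hu
    -- `u` is central in `U ⊔ V`, so the commutators with `u` are trivial
    obtain ⟨v, hv, hne⟩ := comm_ne_one_right hcc hS hu hu1
    apply hne
    have h1 := comm_central hcc huc ((le_sup_right : V ≤ U ⊔ V) hv)
    rw [h1]; group

/-- An element `v ≠ 1` of `V` does not normalize `U`. -/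
lemma conjBy_ne {v : G} (hv : v ∈ V) (hv1 : v ≠ 1) : conjBy U v ≠ U := by
  intro hc
  obtain ⟨u, hu, hne⟩ := comm_ne_one_left hcc hS hv hv1
  apply hne
  have h1 : v * u⁻¹ * v⁻¹ ∈ U := by
    have : v * u⁻¹ * v⁻¹ ∈ conjBy U v := conj_mem_conjBy (U.inv_mem hu)
    rwa [hc] at this
  have h2 : u * v * u⁻¹ * v⁻¹ = u * (v * u⁻¹ * v⁻¹) := by group
  have h3 : u * v * u⁻¹ * v⁻¹ ∈ U ⊓ ⁅U, V⁆ := ⟨by rw [h2]; exact U.mul_mem hu h1, comm_mem hcc hu hv⟩
  rw [inf_commutator hS hcc hP hUP] at h3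
  simpa using h3

/-- Injectivity in the commutator case: `[u, v] = 1` with `u ≠ 1` and `v ≠ 1` is impossible. -/
lemma comm_ne_one (hU : U ∈ S) {u v : G} (hu : u ∈ U) (hu1 : u ≠ 1) (hv : v ∈ V) (hv1 : v ≠ 1) :
    u * v * u⁻¹ * v⁻¹ ≠ 1 := by
  intro he
  have h1 : u * v = v * u := comm_of_commutator_eq_one he
  rcases ti hS (hS.conj_mem U hU v) hP hUP with h | h
  · have h2 : u ∈ U ⊓ conjBy U v := by
      refine ⟨hu, ?_⟩
      show u ∈ conjBy U v
      rw [mem_conjBy]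
      have : v⁻¹ * u * v = u := by rw [mul_assoc, h1]; group
      rwa [this]
    rw [h] at h2
    exact hu1 (by simpa using h2)
  · exact conjBy_ne hS hcc hP hUP hv hv1 h.symm

/-- `U ⊔ ⁅U, V⁆` is the union of `U^V` and `⁅U, V⁆`. -/
lemma mem_sup_commutator {x : G} (hx : x ∈ U ⊔ ⁅U, V⁆) :
    x ∈ ⁅U, V⁆ ∨ ∃ v ∈ V, x ∈ conjBy U v := by
  have hcomm : ∀ u ∈ U, ∀ c ∈ ⁅U, V⁆, u * c = c * u := fun u hu c hc =>
    (comm_central hcc hc ((le_sup_left : U ≤ U ⊔ V) hu)).symm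
  obtain ⟨u, hu, c, hc, rfl⟩ := mem_sup_of_comm hcomm hx
  by_cases hu1 : u = 1
  · left
    rw [hu1, one_mul]
    exact hc
  · right
    obtain ⟨v, hv, hvc⟩ := exists_comm_right hcc hu hu1 ((⁅U, V⁆).inv_mem hc)
    refine ⟨v, hv, ?_⟩
    have h1 : c = v * u * v⁻¹ * u⁻¹ := by
      have : c = (u * v * u⁻¹ * v⁻¹)⁻¹ := by rw [hvc, inv_inv]
      rw [this]; group
    have h2 : u * c = v * u * v⁻¹ := by
      rw [hcomm u hu c hc, h1]; group
    rw [h2]
    exact conj_mem_conjBy hu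

omit hS hP hUP in
lemma conjBy_le_sup {v : G} (hv : v ∈ V) : conjBy U v ≤ U ⊔ ⁅U, V⁆ := by
  intro x hx
  rw [mem_conjBy] at hx
  set u := v⁻¹ * x * v with hu
  have e : x = (u * v * u⁻¹ * v⁻¹)⁻¹ * u := by rw [hu]; group
  rw [e]
  exact (U ⊔ ⁅U, V⁆).mul_mem ((le_sup_right : ⁅U, V⁆ ≤ U ⊔ ⁅U, V⁆) ((⁅U, V⁆).inv_mem (comm_mem hcc hx hv)))
    ((le_sup_left : U ≤ U ⊔ ⁅U, V⁆) hx)

/-- `⁅U, V⁆` never commutes with a rank one partner of `U`. -/
lemma commutator_not_comm_partner (hU : U ∈ S) (hCP : ⁅⁅U, V⁆, P⁆ = ⊥) : False := by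
  set C := ⁅U, V⁆ with hCdef
  obtain ⟨v, hv, hv1⟩ : ∃ v ∈ V, v ≠ 1 := by
    by_contra hc
    push Not at hc
    apply hS.ne_bot _ hcc.1
    rw [eq_bot_iff, Subgroup.commutator_le]
    intro u _ w hw
    rw [hc w hw]
    simp
  have hvX := (le_sup_right : V ≤ U ⊔ V) hv
  set P' := conjBy P v with hP'
  set U' := conjBy U v with hU'
  have hP'S : P' ∈ S := hS.conj_mem P hP v
  have hU'P' : IsRankOnePair U' P' := rankOnePair_conjBy hUP v
  have hUc := hS.commutative U hU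
  have hPc := hS.commutative P hP
  -- C commutes with P'
  have hCconj : conjBy C v = C := conjBy_eq_self_of_comm (fun c hc => (comm_central hcc hc hvX).symm)
  have hCP' : ∀ c ∈ C, ∀ p ∈ P', c * p = p * c := by
    intro c hc p hp
    have h1 : ⁅C, P'⁆ = ⊥ := by
      have := conjBy_commutator C P v
      rw [hCP, conjBy_bot, hCconj] at this
      exact this.symm
    exact comm_of_commutator_eq_bot h1 hc hp
  have hUC : ∀ u ∈ U, ∀ c ∈ C, c * u = u * c := fun u hu c hc =>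
    comm_central hcc hc ((le_sup_left : U ≤ U ⊔ V) hu)
  -- elements of U' decompose
  have hdec : ∀ x ∈ U', ∃ c ∈ C, ∃ u ∈ U, x = c * u := by
    intro x hx
    rw [hU', mem_conjBy] at hx
    set u := v⁻¹ * x * v with hu
    refine ⟨(u * v * u⁻¹ * v⁻¹)⁻¹, C.inv_mem (comm_mem hcc hx hv), u, hx, ?_⟩
    rw [hu]; group
  obtain ⟨u₀, hu₀, hu₀1⟩ := exists_ne_one_left hUP
  obtain ⟨p₀, hp₀, hp₀1⟩ := exists_ne_one_right hU'P'
  rcases hS.pair U hU P' hP'S with h1 | h1 | h1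
  · -- commuting
    have h2 : v * u₀ * v⁻¹ ∈ U' := conj_mem_conjBy hu₀
    have h3 : v * u₀ * v⁻¹ ≠ 1 := by
      intro he; apply hu₀1
      have e : u₀ = v⁻¹ * (v * u₀ * v⁻¹) * v := by group
      rw [e, he]; group
    apply h3
    refine eq_one_of_comm hU'P' h2 hp₀ hp₀1 ?_
    obtain ⟨c, hc, u, hu, hx⟩ := hdec _ h2
    rw [hx]
    have h4 := comm_of_commutator_eq_bot h1 hu hp₀
    have h5 := hCP' c hc p₀ hp₀
    calc c * u * p₀ = c * (u * p₀) := mul_assoc _ _ _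
      _ = c * (p₀ * u) := by rw [h4]
      _ = (c * p₀) * u := (mul_assoc _ _ _).symm
      _ = (p₀ * c) * u := by rw [h5]
      _ = p₀ * (c * u) := mul_assoc _ _ _
  · -- rank one
    have hu₁ : v * u₀ * v⁻¹ ∈ U' := conj_mem_conjBy hu₀
    have hu₂ : v * u₀ * v⁻¹ ≠ 1 := by
      intro he; apply hu₀1
      have e : u₀ = v⁻¹ * (v * u₀ * v⁻¹) * v := by group
      rw [e, he]; group
    obtain ⟨p₁, hp₁, -, hp₁e⟩ := cond h1 hu₀ hu₀1
    obtain ⟨p₂, hp₂, -, hp₂e⟩ := cond hU'P' hu₁ hu₂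
    -- u' = c * u₀
    have hc₀ : v * u₀ * v⁻¹ * u₀⁻¹ ∈ C := by
      have := comm_mem hcc hu₀ hv
      have e : v * u₀ * v⁻¹ * u₀⁻¹ = (u₀ * v * u₀⁻¹ * v⁻¹)⁻¹ := by group
      rw [e]
      exact C.inv_mem this
    set c₀ := v * u₀ * v⁻¹ * u₀⁻¹ with hc₀def
    have huval : v * u₀ * v⁻¹ = u₀ * c₀ := by
      rw [← hUC u₀ hu₀ c₀ hc₀, hc₀def]; group
    have h3 : conjBy P' (v * u₀ * v⁻¹) = conjBy P' u₀ := by
      rw [huval, ← conjBy_conjBy, conjBy_eq_self_of_comm (fun p hp => hCP' c₀ hc₀ p hp)]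
    have h4 : U' = conjBy U (p₂⁻¹ * p₁) := by
      have h5 : conjBy U' p₂ = conjBy U p₁ := by rw [hp₂e, h3, hp₁e]
      rw [← conjBy_conjBy, ← h5, conjBy_inv_conjBy]
    have hm : U' ∈ unipotentSubgroups U P' := by
      rw [h4]
      exact ⟨_, (le_sup_right : P' ≤ U ⊔ P') (P'.mul_mem (P'.inv_mem hp₂) hp₁), rfl⟩
    have hne : U' ≠ U := conjBy_ne hS hcc hP hUP hv hv1
    refine hu₂ (eq_one_of_comm_of_mem_ne h1 hm left_mem_unipotent hne hu₁ hu₀ hu₀1 ?_)
    rw [huval]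
    calc u₀ * c₀ * u₀ = u₀ * (c₀ * u₀) := mul_assoc _ _ _
      _ = u₀ * (u₀ * c₀) := by rw [hUC u₀ hu₀ c₀ hc₀]
  · -- commutator case
    obtain ⟨-, h2, -, -⟩ := h1
    apply not_class_two hU'P'
    apply comm_central_of_gen (isMulCommutative_conjBy hUc v) (isMulCommutative_conjBy hPc v)
    intro u' hu' p hp z hz
    obtain ⟨c, hc, u, hu, rfl⟩ := hdec u' hu'
    have hcu : c * u = u * c := hUC u hu c hc
    have hcp := hCP' c hc p hp
    have hf : u * p * u⁻¹ * p⁻¹ ∈ ⁅U, P'⁆ := Subgroup.commutator_mem_commutator hu hp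
    have hcC : Commute c (u * p * u⁻¹ * p⁻¹) := by
      have h3 : Commute c u := hcu
      have h4 : Commute c p := hcp
      exact ((h3.mul_right h4).mul_right h3.inv_right).mul_right h4.inv_right
    have e : (c * u) * p * (c * u)⁻¹ * p⁻¹ = u * p * u⁻¹ * p⁻¹ := by
      have h5 : Commute c (u * p * u⁻¹) := by
        have h3 : Commute c u := hcu
        have h4 : Commute c p := hcp
        exact (h3.mul_right h4).mul_right h3.inv_right
      calc (c * u) * p * (c * u)⁻¹ * p⁻¹ = c * (u * p * u⁻¹) * c⁻¹ * p⁻¹ := by group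
        _ = (u * p * u⁻¹) * c * c⁻¹ * p⁻¹ := by rw [h5.eq]
        _ = u * p * u⁻¹ * p⁻¹ := by group
    rw [e]
    -- f commutes with U' ⊔ P'
    have hle : U' ⊔ P' ≤ Subgroup.centralizer {u * p * u⁻¹ * p⁻¹} := by
      apply sup_le
      · intro y hy
        obtain ⟨c', hc', u', hu'', rfl⟩ := hdec y hy
        rw [Subgroup.mem_centralizer_singleton_iff]
        have h6 : Commute c' (u * p * u⁻¹ * p⁻¹) := by
          have h3 : Commute c' u := hUC u hu c' hc'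
          have h4 : Commute c' p := hCP' c' hc' p hp
          exact ((h3.mul_right h4).mul_right h3.inv_right).mul_right h4.inv_right
        have h7 : Commute u' (u * p * u⁻¹ * p⁻¹) :=
          (h2 _ hf u' ((le_sup_left : U ≤ U ⊔ P') hu'')).symm
        exact (h6.mul_left h7).eq
      · intro y hy
        rw [Subgroup.mem_centralizer_singleton_iff]
        exact (h2 _ hf y ((le_sup_right : P' ≤ U ⊔ P') hy)).symm
    have h9 := hle hz
    rw [Subgroup.mem_centralizer_singleton_iff] at h9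
    exact h9.symm

/-- A member of `S` contained in `⁅U, V⁆` equals `⁅U, V⁆`. -/
lemma member_le_commutator_eq (hU : U ∈ S) {E : Subgroup G} (hE : E ∈ S) (hEC : E ≤ ⁅U, V⁆) : E = ⁅U, V⁆ := by
  set C := ⁅U, V⁆ with hCdef
  have hCS : C ∈ S := hcc.1
  have hEne : E ≠ ⊥ := hS.ne_bot E hE
  have hEinf : ∀ W : Subgroup G, E ≤ W → W ⊓ E = E := fun W h => inf_eq_right.2 h
  rcases hS.pair C hCS P hP with h | h | h
  · exact (commutator_not_comm_partner hS hcc hP hUP hU h).elim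
  · rcases ti hS hE hP h with h1 | h1
    · rw [inf_eq_right.2 hEC] at h1
      exact absurd h1 hEne
    · exact h1.symm
  · -- commutator case
    have hPC : ⁅P, C⁆ ∈ S := by
      rw [Subgroup.commutator_comm]; exact h.1
    have hcc' : RootCommutatorCase S P C := commCase_of_mem hS hP hCS hPC
    have hinj : ∀ c ∈ C, c ≠ 1 → ∀ p ∈ P, p ≠ 1 → c * p ≠ p * c := by
      intro c hc hc1 p hp hp1 he
      exact comm_ne_one hS hcc' hU (RankOnePair_symm hUP) hP hp hp1 hc hc1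
        (by
          have : p * c = c * p := he.symm
          rw [this]; group)
    obtain ⟨e, he, he1⟩ : ∃ e ∈ E, e ≠ 1 := by
      by_contra hc
      push Not at hc
      exact hEne (eq_bot_iff.2 fun y hy => by simpa using hc y hy)
    have hPne : ∃ p ∈ P, p ≠ 1 := exists_ne_one_right hUP
    obtain ⟨p₀, hp₀, hp₀1⟩ := hPne
    rcases hS.pair E hE P hP with h1 | h1 | h1
    · exact absurd (comm_of_commutator_eq_bot h1 he hp₀) (hinj e (hEC he) he1 p₀ hp₀ hp₀1)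
    · rcases ti hS hCS hP h1 with h2 | h2
      · rw [inf_eq_left.2 hEC] at h2
        exact absurd h2 hEne
      · exact h2
    · have hsame : ⁅E, P⁆ = ⁅C, P⁆ := by
        rw [← h1.2.2.1 e he he1, ← h.2.2.1 e (hEC he) he1]
      apply le_antisymm hEC
      intro c hc
      have h2 : c * p₀ * c⁻¹ * p₀⁻¹ ∈ ⁅E, P⁆ := by
        rw [hsame]; exact comm_mem h hc hp₀
      obtain ⟨e', he', he'v⟩ := exists_comm_left h1 hp₀ hp₀1 h2
      by_contra hcE
      have hne : e'⁻¹ * c ≠ 1 := by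
        intro hh
        apply hcE
        have : c = e' := by
          have h3 := mul_eq_one_iff_eq_inv.1 hh
          exact (by simpa using h3 : e' = c).symm
        rw [this]; exact he'
      apply hinj (e'⁻¹ * c) (C.mul_mem (C.inv_mem (hEC he')) hc) hne p₀ hp₀ hp₀1
      apply comm_of_commutator_eq_one
      have h4 := comm_mul_left h (C.inv_mem (hEC he')) hc hp₀
      rw [h4, ← he'v]
      have h5 := comm_mul_left h (hEC he') (C.inv_mem (hEC he')) hp₀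
      have h6 : (e' * e'⁻¹) * p₀ * (e' * e'⁻¹)⁻¹ * p₀⁻¹ = 1 := by group
      rw [h6] at h5
      exact (eq_inv_of_mul_eq_one_right h5.symm ▸ inv_mul_cancel _ : _)

/-- The members of `S` inside `U ⊔ ⁅U, V⁆`. -/
lemma members_eq (hU : U ∈ S) :
    membersIn S (U ⊔ ⁅U, V⁆) = (fun v : G => conjBy U v) '' (V : Set G) ∪ {⁅U, V⁆} := by
  ext E
  constructor
  · rintro ⟨hE, hEle⟩
    by_cases hEC : E ≤ ⁅U, V⁆
    · right
      exact member_le_commutator_eq hS hcc hP hUP hU hE hEC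
    · left
      obtain ⟨x, hx, hxC⟩ := SetLike.not_le_iff_exists.1 hEC
      rcases mem_sup_commutator hS hcc hP hUP (hEle hx) with h | ⟨v, hv, hxv⟩
      · exact absurd h hxC
      · refine ⟨v, hv, ?_⟩
        have hx1 : x ≠ 1 := fun he => hxC (he ▸ Subgroup.one_mem _)
        rcases ti hS hE (hS.conj_mem P hP v) (rankOnePair_conjBy hUP v) with h | h
        · have : x ∈ conjBy U v ⊓ E := ⟨hxv, hx⟩
          rw [h] at this
          exact absurd (by simpa using this) hx1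
        · exact h
  · rintro (⟨v, hv, rfl⟩ | h)
    · exact ⟨hS.conj_mem U hU v, conjBy_le_sup hcc hv⟩
    · rw [Set.mem_singleton_iff] at h
      rw [h]
      exact ⟨hcc.1, le_sup_right⟩

/-- The members of `S` inside `U ⊔ ⁅U, V⁆` form a partition of it. -/
lemma partition (hU : U ∈ S) : IsSubgroupPartition (U ⊔ ⁅U, V⁆) (membersIn S (U ⊔ ⁅U, V⁆)) := by
  have hm := members_eq hS hcc hP hUP hU
  refine ⟨fun C hC => hC.2, ?_, ?_⟩
  · intro x hx _
    rcases mem_sup_commutator hS hcc hP hUP hx with h | ⟨v, hv, h⟩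
    · exact ⟨⁅U, V⁆, ⟨hcc.1, le_sup_right⟩, h⟩
    · refine ⟨conjBy U v, ?_, h⟩
      rw [hm]
      exact Or.inl ⟨v, hv, rfl⟩
  · intro E₁ h₁ E₂ h₂ hne
    have h₁' := h₁
    have h₂' := h₂
    rw [hm] at h₁' h₂'
    have hU' : ∀ v ∈ V, ∀ E ∈ S, conjBy U v ≠ E → conjBy U v ⊓ E = ⊥ := by
      intro v _ E hE hn
      rcases ti hS hE (hS.conj_mem P hP v) (rankOnePair_conjBy hUP v) with h | h
      · exact h
      · exact absurd h hn
    rcases h₁' with ⟨v, hv, rfl⟩ | h₃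
    · exact hU' v hv E₂ h₂.1 hne
    · rw [Set.mem_singleton_iff] at h₃
      rcases h₂' with ⟨v, hv, rfl⟩ | h₄
      · rw [inf_comm]
        exact hU' v hv E₁ h₁.1 hne.symm
      · rw [Set.mem_singleton_iff] at h₄
        exact absurd (h₃.trans h₄.symm) hne

/-- `U` is a line partner of `⁅U, V⁆`. -/
lemma mem_linePartners (hU : U ∈ S) : U ∈ linePartners S ⁅U, V⁆ := by
  refine ⟨⟨hU, ?_, ?_⟩, ?_⟩
  · intro he
    apply hS.ne_bot U hU
    have h1 := inf_commutator hS hcc hP hUP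
    rw [← he, inf_idem] at h1
    exact h1
  · apply commutator_eq_bot_of_comm
    intro c hc u hu
    exact comm_central hcc hc ((le_sup_left : U ≤ U ⊔ V) hu)
  · rw [sup_comm]
    exact partition hS hcc hP hUP hU

/-- For `u ≠ 1` in `U` the commutator map is an isomorphism `V ≃* ⁅U, V⁆`. -/
lemma exists_mulEquiv (hU : U ∈ S) {u : G} (hu : u ∈ U) (hu1 : u ≠ 1) :
    ∃ φ : ↥V ≃* ↥⁅U, V⁆, ∀ v : ↥V, (φ v : G) = u⁻¹ * (v : G)⁻¹ * u * v := by
  have hu' : u⁻¹ ∈ U := U.inv_mem hu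
  have hu'1 : u⁻¹ ≠ 1 := by simpa using hu1
  have hmem : ∀ v ∈ V, u⁻¹ * v⁻¹ * u * v ∈ ⁅U, V⁆ := by
    intro v hv
    have := comm_mem hcc hu' (V.inv_mem hv)
    simpa using this
  have hval : ∀ v : G, u⁻¹ * v⁻¹ * u * v = u⁻¹ * v⁻¹ * u⁻¹⁻¹ * v⁻¹⁻¹ := fun v => by simp
  let f : ↥V →* ↥⁅U, V⁆ :=
    { toFun := fun v => ⟨u⁻¹ * (v : G)⁻¹ * u * v, hmem v v.2⟩
      map_one' := by
        apply Subtype.ext
        simp
      map_mul' := by
        rintro ⟨v, hv⟩ ⟨v', hv'⟩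
        apply Subtype.ext
        show u⁻¹ * (v * v')⁻¹ * u * (v * v') = (u⁻¹ * v⁻¹ * u * v) * (u⁻¹ * v'⁻¹ * u * v')
        have h1 := comm_mul_right hcc hu' (V.inv_mem hv') (V.inv_mem hv)
        have h2 : u⁻¹ * (v * v')⁻¹ * u * (v * v') =
            u⁻¹ * (v'⁻¹ * v⁻¹) * u⁻¹⁻¹ * (v'⁻¹ * v⁻¹)⁻¹ := by group
        rw [h2, h1]
        have h3 : u⁻¹ * v'⁻¹ * u⁻¹⁻¹ * v'⁻¹⁻¹ = u⁻¹ * v'⁻¹ * u * v' := by simp
        have h4 : u⁻¹ * v⁻¹ * u⁻¹⁻¹ * v⁻¹⁻¹ = u⁻¹ * v⁻¹ * u * v := by simp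
        rw [h3, h4]
        exact comm_central hcc (hmem v' hv') (commutator_le_sup U V (hmem v hv)) }
  have hinj : Function.Injective f := by
    rw [injective_iff_map_eq_one]
    rintro ⟨v, hv⟩ he
    have he' : u⁻¹ * v⁻¹ * u * v = 1 := congrArg Subtype.val he
    apply Subtype.ext
    by_contra hv1
    have hv1' : v⁻¹ ≠ 1 := by simpa using hv1
    apply comm_ne_one hS hcc hP hUP hU hu' hu'1 (V.inv_mem hv) hv1'
    simpa using he'
  have hsurj : Function.Surjective f := by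
    rintro ⟨c, hc⟩
    obtain ⟨w, hw, hwc⟩ := exists_comm_right hcc hu' hu'1 hc
    refine ⟨⟨w⁻¹, V.inv_mem hw⟩, ?_⟩
    apply Subtype.ext
    show u⁻¹ * w⁻¹⁻¹ * u * w⁻¹ = c
    rw [← hwc]
    simp
  exact ⟨MulEquiv.ofBijective f ⟨hinj, hsurj⟩, fun v => rfl⟩

end Partner

end Cfsg.Agent.Lib.Amalgam.CommCase
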