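import Cfsg.Agent.Lib.Amalgam.Lines

/-!
# Members of a line versus a rank one partner; components of the graph 𝓕(S)
-/

set_option autoImplicit false

namespace Cfsg.Agent.Lib.Amalgam.Components

open Cfsg Cfsg.Agent.Lib.Amalgam.RankOne Cfsg.Agent.Lib.Amalgam.RootSet Cfsg.Agent.Lib.Amalgam.CommCase
open Cfsg.Agent.Lib.Amalgam.Lines
open scoped commutatorElement

variable {G : Type*} [Group G] {S : Set (Subgroup G)}

/-- If `D` is a partner of `A`, `B` commutes with `A`, and `a b` lies in a member `E`, then `B` or `E`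
is a rank one partner of `D`. -/
lemma line_rank_one (hS : IsRootSubgroupSet S) {A B E D : Subgroup G} (hA : A ∈ S) (hB : B ∈ S) (hE : E ∈ S) (hD : D ∈ S)
    (hAD : IsRankOnePair A D) (hAB : ⁅A, B⁆ = ⊥) {a b : G} (ha : a ∈ A) (ha1 : a ≠ 1) (hb : b ∈ B) (hb1 : b ≠ 1)
    (hx : a * b ∈ E) (hx1 : a * b ≠ 1) : IsRankOnePair B D ∨ IsRankOnePair E D := by
  have hAc := hS.commutative A hA
  have hDc := hS.commutative D hD
  have hab : a * b = b * a := comm_of_commutator_eq_bot hAB ha hb
  have hDA : IsRankOnePair D A := RankOnePair_symm hAD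
  rcases hS.pair B hB D hD with h1 | h1 | h1
  · -- B commutes with D: contradiction
    exfalso
    refine root_central_translate hS hD hAD (z := b)
      (fun x hx' => (comm_of_commutator_eq_bot hAB hx' hb).symm)
      (fun x hx' => comm_of_commutator_eq_bot h1 hb hx') hb1 ha ha1 hE ?_ ?_
    · rw [← hab]; exact hx
    · rw [← hab]; exact hx1
  · exact Or.inl h1
  · -- commutator case for (B, D)
    rcases hS.pair E hE D hD with h2 | h2 | h2
    · -- E commutes with D
      exfalso
      obtain ⟨x, hxdef⟩ : ∃ x, x = a * b := ⟨_, rfl⟩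
      rw [← hxdef] at hx hx1
      have hxa : x * a = a * x := by
        rw [hxdef, mul_assoc, ← hab]
      have hxD : ∀ d ∈ D, x * d = d * x := fun d hd => comm_of_commutator_eq_bot h2 hx hd
      have hxDa : ∀ d ∈ conjBy D a, x * d = d * x := by
        intro d hd
        rw [mem_conjBy] at hd
        have h3 := hxD _ hd
        have e1 : d = a * (a⁻¹ * d * a) * a⁻¹ := by group
        rw [e1]
        have hc1 : Commute x a := hxa
        have hc2 : Commute x (a⁻¹ * d * a) := h3
        exact ((hc1.mul_right hc2).mul_right hc1.inv_right).eq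
      have hne : D ≠ conjBy D a := (conjBy_right_ne hAD ha ha1).symm
      have hDm : D ∈ unipotentSubgroups A D := right_mem_unipotent hAD
      have hDam : conjBy D a ∈ unipotentSubgroups A D := (mem_unipotent_iff hAD).2 (Or.inr ⟨a, ha, rfl⟩)
      have hsup : D ⊔ conjBy D a = A ⊔ D := sup_eq_of_mem_ne hAD hDm hDam hne
      have hle : A ⊔ D ≤ Subgroup.centralizer {x} := by
        rw [← hsup]
        apply sup_le
        · intro d hd
          rw [Subgroup.mem_centralizer_singleton_iff]
          exact (hxD d hd).symm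
        · intro d hd
          rw [Subgroup.mem_centralizer_singleton_iff]
          exact (hxDa d hd).symm
      have hcx : ∀ y ∈ A ⊔ D, x * y = y * x := by
        intro y hy
        have := hle hy
        rw [Subgroup.mem_centralizer_singleton_iff] at this
        exact this.symm
      -- x a⁻¹ = b ∈ B is a root element
      refine root_central_translate hS hD hAD (z := x) (a := a⁻¹)
        (fun y hy => hcx y ((le_sup_left : A ≤ A ⊔ D) hy))
        (fun y hy => hcx y ((le_sup_right : D ≤ A ⊔ D) hy)) hx1 (A.inv_mem ha) (by simpa using ha1) hB ?_ ?_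
      · have : x * a⁻¹ = b := by rw [hxdef, hab]; group
        rw [this]; exact hb
      · have : x * a⁻¹ = b := by rw [hxdef, hab]; group
        rw [this]; exact hb1
    · exact Or.inr h2
    · -- both in the commutator case
      exfalso
      obtain ⟨d, hd, hd1⟩ := exists_ne_one_right hAD
      obtain ⟨x, hxdef⟩ : ∃ x, x = a * b := ⟨_, rfl⟩
      rw [← hxdef] at hx hx1
      -- U = D^b, V = D^x
      set U := conjBy D b with hU
      set V := conjBy U a with hV
      have hUS : U ∈ S := hS.conj_mem D hD b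
      have hVS : V ∈ S := hS.conj_mem U hUS a
      have hAbA : conjBy A b = A :=
        conjBy_eq_self_of_comm (fun u hu => (comm_of_commutator_eq_bot hAB hu hb).symm)
      have hAU : IsRankOnePair A U := by
        have := rankOnePair_conjBy hAD b
        rwa [hAbA] at this
      have hne : U ≠ V := (conjBy_right_ne hAU ha ha1).symm
      have hUm : U ∈ unipotentSubgroups A U := right_mem_unipotent hAU
      have hVm : V ∈ unipotentSubgroups A U := (mem_unipotent_iff hAU).2 (Or.inr ⟨a, ha, rfl⟩)
      have hUV : IsRankOnePair U V := rankOne_of_mem_ne hAU hUm hVm hne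
      have hVval : V = conjBy D x := by
        rw [hV, hU, conjBy_conjBy, hxdef]
      -- C = [B, D], F = [E, D]
      have hC : ∀ d' ∈ D, ∀ y ∈ D, (b * d' * b⁻¹ * d'⁻¹) * y = y * (b * d' * b⁻¹ * d'⁻¹) := fun d' hd' y hy =>
        comm_central h1 (comm_mem h1 hb hd') ((le_sup_right : D ≤ B ⊔ D) hy)
      have hF : ∀ d' ∈ D, ∀ y ∈ D, (x * d' * x⁻¹ * d'⁻¹) * y = y * (x * d' * x⁻¹ * d'⁻¹) := fun d' hd' y hy =>
        comm_central h2 (comm_mem h2 hx hd') ((le_sup_right : D ≤ E ⊔ D) hy)
      -- every element of D commutes with U and V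
      have hdU : ∀ y ∈ D, ∀ u ∈ U, y * u = u * y := by
        intro y hy u hu
        rw [hU, mem_conjBy] at hu
        set d' := b⁻¹ * u * b with hd'
        have e1 : u = (b * d' * b⁻¹ * d'⁻¹) * d' := by rw [hd']; group
        rw [e1]
        have hc1 : Commute y (b * d' * b⁻¹ * d'⁻¹) := (hC d' hu y hy).symm
        have hc2 : Commute y d' := comm_of_isMulCommutative hDc hy hu
        exact (hc1.mul_right hc2).eq
      have hdV : ∀ y ∈ D, ∀ v ∈ V, y * v = v * y := by
        intro y hy v hv
        rw [hVval, mem_conjBy] at hv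
        set d' := x⁻¹ * v * x with hd'
        have e1 : v = (x * d' * x⁻¹ * d'⁻¹) * d' := by rw [hd']; group
        rw [e1]
        have hc1 : Commute y (x * d' * x⁻¹ * d'⁻¹) := (hF d' hv y hy).symm
        have hc2 : Commute y d' := comm_of_isMulCommutative hDc hy hv
        exact (hc1.mul_right hc2).eq
      -- the contradiction with the central translate lemma
      have hu : b * d * b⁻¹ ∈ U := conj_mem_conjBy hd
      have hu1 : b * d * b⁻¹ ≠ 1 := by
        intro he
        apply hd1
        have e1 : d = b⁻¹ * (b * d * b⁻¹) * b := by group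
        rw [e1, he]; group
      have hzval : d⁻¹ * (b * d * b⁻¹) = (b * d * b⁻¹ * d⁻¹) := by
        have := hC d hd d⁻¹ (D.inv_mem hd)
        calc d⁻¹ * (b * d * b⁻¹) = d⁻¹ * ((b * d * b⁻¹ * d⁻¹) * d) := by group
          _ = (d⁻¹ * (b * d * b⁻¹ * d⁻¹)) * d := by group
          _ = ((b * d * b⁻¹ * d⁻¹) * d⁻¹) * d := by rw [this]
          _ = _ := by group
      have hcm : b * d * b⁻¹ * d⁻¹ ∈ ⁅B, D⁆ := comm_mem h1 hb hd
      have hcne : b * d * b⁻¹ * d⁻¹ ≠ 1 := by
        -- D has partner A
        have hDB : RootCommutatorCase S D B := by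
          apply commCase_of_mem hS hD hB
          rw [Subgroup.commutator_comm]
          exact h1.1
        have := comm_ne_one hS hDB hA hDA hD hd hd1 hb hb1
        intro he
        apply this
        have e1 : d * b * d⁻¹ * b⁻¹ = (b * d * b⁻¹ * d⁻¹)⁻¹ := by group
        rw [e1, he]; simp
      refine root_central_translate hS hVS hUV (z := d⁻¹) (a := b * d * b⁻¹) (F := ⁅B, D⁆)
        (fun y hy => (Commute.inv_left (hdU d hd y hy : Commute d y)).eq)
        (fun y hy => (Commute.inv_left (hdV d hd y hy : Commute d y)).eq)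
        (by simpa using hd1) hu hu1 h1.1 ?_ ?_
      · rw [hzval]; exact hcm
      · rw [hzval]; exact hcne


/-! ### Reachability in the graph `𝓕(S)` -/

lemma fadj_symm {A B : Subgroup G} (h : FAdj S A B) : FAdj S B A := ⟨h.2.1, h.1, RankOnePair_symm h.2.2⟩

lemma reach_symm {A B : Subgroup G} (h : Relation.ReflTransGen (FAdj S) A B) : Relation.ReflTransGen (FAdj S) B A :=
  by
    induction h with
    | refl => exact Relation.ReflTransGen.refl
    | tail _ hbc ih => exact Relation.ReflTransGen.head (fadj_symm hbc) ih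

lemma reach_of_adj {A B : Subgroup G} (hA : A ∈ S) (hB : B ∈ S) (h : IsRankOnePair A B) :
    Relation.ReflTransGen (FAdj S) A B := Relation.ReflTransGen.single ⟨hA, hB, h⟩

lemma comp_eq {A B : Subgroup G} (h : Relation.ReflTransGen (FAdj S) A B) :
    componentOf (FAdj S) S A = componentOf (FAdj S) S B := by
  ext C
  constructor
  · rintro ⟨hC, hr⟩
    exact ⟨hC, (reach_symm h).trans hr⟩
  · rintro ⟨hC, hr⟩
    exact ⟨hC, h.trans hr⟩

lemma exists_partner_of_reach {A A' : Subgroup G} (h : Relation.ReflTransGen (FAdj S) A A') (hne : A' ≠ A) :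
    ∃ D ∈ S, IsRankOnePair A D := by
  rcases Relation.ReflTransGen.cases_head h with h1 | ⟨c, hc, -⟩
  · exact absurd h1.symm hne
  · exact ⟨c, hc.2.1, hc.2.2⟩

/-- A step `F ↦ F^t`, `t ∈ T ∈ S`, stays in the component of `F` (for `F` not isolated). -/
lemma reach_conj_mem (hS : IsRootSubgroupSet S) {F T D : Subgroup G} (hF : F ∈ S) (hT : T ∈ S) (hD : D ∈ S)
    (hFD : IsRankOnePair F D) {t : G} (ht : t ∈ T) : Relation.ReflTransGen (FAdj S) F (conjBy F t) := by
  have hF' : conjBy F t ∈ S := hS.conj_mem F hF t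
  have hTt : conjBy T t = T := conjBy_eq_self_of_comm (fun u hu => (comm_of_isMulCommutative (hS.commutative T hT) hu ht).symm)
  rcases hS.pair F hF T hT with h1 | h1 | h1
  · have : conjBy F t = F := conjBy_eq_self_of_comm (fun u hu => (comm_of_commutator_eq_bot h1 hu ht).symm)
    rw [this]
  · have h2 : IsRankOnePair (conjBy F t) T := by
      have := rankOnePair_conjBy h1 t
      rwa [hTt] at this
    exact (reach_of_adj hF hT h1).trans (reach_of_adj hT hF' (RankOnePair_symm h2))
  · by_cases ht1 : t = 1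
    · subst ht1
      rw [conjBy_one]
    obtain ⟨e, he, he1⟩ := exists_ne_one_left hFD
    have hC : ⁅F, T⁆ ∈ S := h1.1
    have hc1 : t * e * t⁻¹ * e⁻¹ ≠ 1 := by
      have := comm_ne_one hS h1 hD hFD hF he he1 ht ht1
      intro hh
      apply this
      have e1 : e * t * e⁻¹ * t⁻¹ = (t * e * t⁻¹ * e⁻¹)⁻¹ := by group
      rw [e1, hh]; simp
    have hcm : t * e * t⁻¹ * e⁻¹ ∈ ⁅F, T⁆ := by
      rw [Subgroup.commutator_comm]
      exact Subgroup.commutator_mem_commutator ht he
    have hFC : ⁅F, ⁅F, T⁆⁆ = ⊥ := commutator_eq_bot_of_comm (fun a ha b hb =>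
      (comm_central h1 hb ((le_sup_left : F ≤ F ⊔ T) ha)).symm)
    have hxe : e * (t * e * t⁻¹ * e⁻¹) = t * e * t⁻¹ := by
      have := comm_central h1 hcm ((le_sup_left : F ≤ F ⊔ T) he)
      rw [← this]; group
    have hCt : conjBy ⁅F, T⁆ t = ⁅F, T⁆ := conjBy_eq_self_of_comm
      (fun u hu => (comm_central h1 hu ((le_sup_right : T ≤ F ⊔ T) ht)).symm)
    have hDt : conjBy D t ∈ S := hS.conj_mem D hD t
    have hF'D : IsRankOnePair (conjBy F t) (conjBy D t) := rankOnePair_conjBy hFD t
    rcases line_rank_one hS (E := conjBy F t) hF hC hF' hD hFD hFC he he1 hcm hc1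
        (by rw [hxe]; exact conj_mem_conjBy he)
        (by
          rw [hxe]
          intro hh
          apply he1
          have e1 : e = t⁻¹ * (t * e * t⁻¹) * t := by group
          rw [e1, hh]; group) with h2 | h2
    · have h3 : IsRankOnePair ⁅F, T⁆ (conjBy D t) := by
        have := rankOnePair_conjBy h2 t
        rwa [hCt] at this
      exact (reach_of_adj hF hD hFD).trans ((reach_of_adj hD hC (RankOnePair_symm h2)).trans
        ((reach_of_adj hC hDt h3).trans (reach_of_adj hDt hF' (RankOnePair_symm hF'D))))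
    · exact (reach_of_adj hF hD hFD).trans (reach_of_adj hD hF' (RankOnePair_symm h2))

/-- If every member of `S` has a partner, then each conjugation moves a member inside its component. -/
lemma reach_conj (hS : IsRootSubgroupSet S) (hP : ∀ F ∈ S, ∃ D ∈ S, IsRankOnePair F D) (g : G) :
    ∀ F ∈ S, Relation.ReflTransGen (FAdj S) F (conjBy F g) := by
  let H : Subgroup G :=
    { carrier := {g | ∀ F ∈ S, Relation.ReflTransGen (FAdj S) F (conjBy F g)}
      mul_mem' := by
        intro a b ha hb F hF
        have h1 := hb F hF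
        have h2 := ha _ (hS.conj_mem F hF b)
        rw [conjBy_conjBy] at h2
        exact h1.trans h2
      one_mem' := by
        intro F _
        rw [conjBy_one]
      inv_mem' := by
        intro a ha F hF
        have h2 := ha _ (hS.conj_mem F hF a⁻¹)
        rw [conjBy_conjBy_inv] at h2
        exact reach_symm h2 }
  have hle : (⨆ A ∈ S, A) ≤ H := by
    refine iSup₂_le ?_
    intro T hT t ht F hF
    obtain ⟨D, hD, hFD⟩ := hP F hF
    exact reach_conj_mem hS hF hT hD hFD ht
  rw [hS.generates] at hle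
  exact hle (Subgroup.mem_top g)

/-- With all members not isolated, the components are exactly the conjugacy classes. -/
lemma reach_of_class (hS : IsRootSubgroupSet S) (hc : IsConjClassOfSubgroups S)
    (h : ∃ A ∈ S, ¬ IsIsolatedIn (FAdj S) S A) : IsConnectedFamily (FAdj S) S := by
  obtain ⟨A₀, hA₀, hi⟩ := h
  obtain ⟨D₀, hD₀, hA₀D₀⟩ := exists_partner_of_not_isolated hi hA₀
  have hP : ∀ F ∈ S, ∃ D ∈ S, IsRankOnePair F D := by
    intro F hF
    obtain ⟨g, rfl⟩ := hc.2 A₀ hA₀ F hF
    exact ⟨_, hS.conj_mem D₀ hD₀ g, rankOnePair_conjBy hA₀D₀ g⟩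
  intro A hA B hB
  obtain ⟨g, rfl⟩ := hc.2 A hA B hB
  exact reach_conj hS hP g A hA

/-- Reachable members are conjugate. -/
lemma conj_of_reach {A B : Subgroup G} (h : Relation.ReflTransGen (FAdj S) A B) : ∃ g : G, B = conjBy A g := by
  induction h with
  | refl => exact ⟨1, by rw [conjBy_one]⟩
  | tail _ hbc ih =>
    obtain ⟨g, hg⟩ := ih
    obtain ⟨y, -, hy⟩ := exists_mul_conj hbc.2.2
    exact ⟨y * g, by rw [← hy, hg, conjBy_conjBy]⟩

end Cfsg.Agent.Lib.Amalgam.Components
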