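import Cfsg.Agent.Lib.Amalgam.LineTrans

/-!
# Non-degenerate classes: connectivity and generation

For a non-degenerate class `S`: the graph of line partners is connected, `G = ⟨Λ_A, B⟩` for a rank one pair `(A, B)`,
and weak TI-subsets are abelian.
-/

set_option autoImplicit false

namespace Cfsg.Agent.Lib.Amalgam.Connected

open Cfsg Cfsg.Agent.Lib.Amalgam.RankOne Cfsg.Agent.Lib.Amalgam.RootSet Cfsg.Agent.Lib.Amalgam.CommCase
open Cfsg.Agent.Lib.Amalgam.Lines Cfsg.Agent.Lib.Amalgam.Components Cfsg.Agent.Lib.Amalgam.Good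
open Cfsg.Agent.Lib.Amalgam.Chain Cfsg.Agent.Lib.Amalgam.Opposite Cfsg.Agent.Lib.Amalgam.Swap
open Cfsg.Agent.Lib.Amalgam.LineTrans
open scoped commutatorElement

variable {G : Type*} [Group G] {S : Set (Subgroup G)}

lemma partners (hS : IsRootSubgroupClass S) (hnd : IsNondegenerateRootSet S) :
    ∀ X ∈ S, ∃ Q ∈ S, IsRankOnePair X Q :=
  fun _ hX => exists_rank_one_partner hS hnd.2.1 hX

/-- Line partners are preserved under conjugation. -/
lemma linePartners_conj (hS : IsRootSubgroupSet S) {A B : Subgroup G} (h : B ∈ linePartners S A) (g : G) :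
    conjBy B g ∈ linePartners S (conjBy A g) := by
  obtain ⟨⟨hB, hne, hc⟩, h1, h2, h3⟩ := h
  refine ⟨⟨hS.conj_mem B hB g, fun he => hne (conjBy_injective g he), ?_⟩, ?_, ?_, ?_⟩
  · rw [← conjBy_commutator, hc, conjBy_bot]
  · intro C hC
    exact hC.2
  · intro x hx hx1
    rw [← conjBy_sup, mem_conjBy] at hx
    have hy1 : g⁻¹ * x * g ≠ 1 := by
      intro he
      apply hx1
      have e : x = g * (g⁻¹ * x * g) * g⁻¹ := by group
      rw [e, he]; group
    obtain ⟨C, hC, hxC⟩ := h2 _ hx hy1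
    refine ⟨conjBy C g, ⟨hS.conj_mem C hC.1 g, ?_⟩, ?_⟩
    · rw [← conjBy_sup]
      exact conjBy_le_conjBy hC.2 g
    · rw [mem_conjBy]
      exact hxC
  · intro C hC D hD hCD
    have hmem : ∀ X ∈ membersIn S (conjBy A g ⊔ conjBy B g), conjBy X g⁻¹ ∈ membersIn S (A ⊔ B) := by
      intro X hX
      refine ⟨hS.conj_mem X hX.1 g⁻¹, ?_⟩
      have h4 := conjBy_le_conjBy hX.2 g⁻¹
      rwa [← conjBy_sup, conjBy_inv_conjBy] at h4
    have h5 := h3 _ (hmem C hC) _ (hmem D hD) (fun he => hCD (conjBy_injective g⁻¹ he))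
    have h6 := congrArg (fun U => conjBy U g) h5
    simp only [conjBy_inf, conjBy_conjBy_inv, conjBy_bot] at h6
    exact h6

/-! ### Connectivity of the graph of line partners -/

lemma eadj_symm {X Y : Subgroup G} (h : EAdj S S X Y) : EAdj S S Y X :=
  ⟨h.2.1, h.1, linePartners_symm h.1 h.2.2⟩

lemma ereach_symm {X Y : Subgroup G} (h : Relation.ReflTransGen (EAdj S S) X Y) :
    Relation.ReflTransGen (EAdj S S) Y X := by
  induction h with
  | refl => exact Relation.ReflTransGen.refl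
  | tail _ h2 ih => exact Relation.ReflTransGen.head (eadj_symm h2) ih

lemma ereach_conj (hS : IsRootSubgroupSet S) (g : G) {X Y : Subgroup G} (h : Relation.ReflTransGen (EAdj S S) X Y) :
    Relation.ReflTransGen (EAdj S S) (conjBy X g) (conjBy Y g) := by
  induction h with
  | refl => exact Relation.ReflTransGen.refl
  | tail _ h2 ih =>
    refine ih.tail ⟨hS.conj_mem _ h2.1 g, hS.conj_mem _ h2.2.1 g, linePartners_conj hS h2.2.2 g⟩

/-- A commutator pair lies in one component. -/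
lemma ereach_of_comm (hS : IsRootSubgroupSet S) (hF : ∀ X ∈ S, ∃ Q ∈ S, IsRankOnePair X Q) {A D : Subgroup G}
    (hA : A ∈ S) (hD : D ∈ S) (hAD : ⁅A, D⁆ ∈ S) : Relation.ReflTransGen (EAdj S S) A D := by
  have hDA : ⁅D, A⁆ ∈ S := by rw [Subgroup.commutator_comm]; exact hAD
  have hc₁ := commCase_of_mem hS hA hD hAD
  have hc₂ := commCase_of_mem hS hD hA hDA
  obtain ⟨P, hP, hAP⟩ := hF A hA
  obtain ⟨Q, hQ, hDQ⟩ := hF D hD
  have h1 : A ∈ linePartners S ⁅A, D⁆ := mem_linePartners hS hc₁ hP hAP hA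
  have h2 : D ∈ linePartners S ⁅A, D⁆ := by
    have := mem_linePartners hS hc₂ hQ hDQ hD
    rwa [Subgroup.commutator_comm] at this
  have e1 : EAdj S S A ⁅A, D⁆ := ⟨hA, hAD, linePartners_symm hAD h1⟩
  have e2 : EAdj S S ⁅A, D⁆ D := ⟨hAD, hD, h2⟩
  exact (Relation.ReflTransGen.single e1).tail e2

/-- The graph of line partners is connected. -/
theorem eadj_connected (hS : IsRootSubgroupClass S) (hnd : IsNondegenerateRootSet S) :
    IsConnectedFamily (EAdj S S) S := by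
  have hF := partners hS hnd
  intro A₀ hA₀ B hB
  -- the component is stable under `G`
  let T : Set (Subgroup G) := {X | Relation.ReflTransGen (EAdj S S) A₀ X}
  have hstab1 : ∀ D ∈ S, ∀ d ∈ D, ∀ X ∈ T, conjBy X d ∈ T := by
    intro D hD d hd X hX
    -- a point of the component fixed by `d`
    have hfix : ∃ Y ∈ T, conjBy Y d = Y := by
      rcases hS.1.pair A₀ hA₀ D hD with h1 | h1 | h1
      · exact ⟨A₀, Relation.ReflTransGen.refl, conjBy_eq_self_of_comm (fun u hu =>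
          (comm_of_commutator_eq_bot h1 hu hd).symm)⟩
      · obtain ⟨E, hE, hAE⟩ := exists_commutator_partner hS hnd.2.2 hA₀
        obtain ⟨C, hC, hCD⟩ := exists_good hS.1 hA₀ hD hE h1 hAE
        have e0 : EAdj S S A₀ C := ⟨hA₀, hC.1.1, hC⟩
        have hr : Relation.ReflTransGen (EAdj S S) A₀ D :=
          (Relation.ReflTransGen.single e0).trans
            (ereach_of_comm hS.1 hF hC.1.1 hD (by rw [Subgroup.commutator_comm]; exact hCD.2))
        exact ⟨D, hr, conjBy_eq_self hd⟩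
      · exact ⟨D, ereach_of_comm hS.1 hF hA₀ hD h1.1, conjBy_eq_self hd⟩
    obtain ⟨Y, hY, hYd⟩ := hfix
    have h2 : Relation.ReflTransGen (EAdj S S) Y X := (ereach_symm hY).trans hX
    have h3 := ereach_conj hS.1 d h2
    rw [hYd] at h3
    exact Relation.ReflTransGen.trans hY h3
  have hall : ∀ g : G, ∀ X ∈ T, conjBy X g ∈ T := by
    let K : Subgroup G :=
      { carrier := {x | ∀ C, C ∈ T ↔ conjBy C x ∈ T}
        mul_mem' := by
          intro x y hx hy C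
          rw [← conjBy_conjBy]
          exact (hy C).trans (hx _)
        one_mem' := by
          intro C
          simp
        inv_mem' := by
          intro x hx C
          have := hx (conjBy C x⁻¹)
          rw [conjBy_conjBy] at this
          simpa using this.symm }
    have hKtop : (⨆ D ∈ S, D) ≤ K := by
      refine iSup₂_le (fun D hD d hd C => ⟨hstab1 D hD d hd C, fun hC => ?_⟩)
      have := hstab1 D hD d⁻¹ (D.inv_mem hd) _ hC
      rwa [conjBy_inv_conjBy] at this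
    rw [hS.1.generates] at hKtop
    intro g X hX
    exact ((hKtop (Subgroup.mem_top g)) X).1 hX
  obtain ⟨g, rfl⟩ := hS.2.2 A₀ hA₀ B hB
  exact hall g A₀ Relation.ReflTransGen.refl

/-- The commuting graph is connected. -/
theorem dadj_connected (hS : IsRootSubgroupClass S) (hnd : IsNondegenerateRootSet S) :
    IsConnectedFamily (DAdj S) S := by
  intro A hA B hB
  have h := eadj_connected hS hnd A hA B hB
  induction h with
  | refl => exact Relation.ReflTransGen.refl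
  | tail _ h2 ih => exact (ih h2.1).tail ⟨h2.1, h2.2.1, h2.2.2.1.2.1.symm, h2.2.2.1.2.2⟩

/-! ### Generation by `Λ_A` and `B` -/

/-- A third member on a line. -/
lemma exists_third (hS : IsRootSubgroupSet S) {A B : Subgroup G} (hA : A ∈ S) (hB : B ∈ linePartners S A) :
    ∃ C ∈ membersIn S (A ⊔ B), C ≠ A ∧ C ≠ B := by
  obtain ⟨a, ha, ha1⟩ := exists_ne_one_of_mem hS hA
  obtain ⟨b, hb, hb1⟩ := exists_ne_one_of_mem hS hB.1.1
  have hAm : A ∈ membersIn S (A ⊔ B) := ⟨hA, le_sup_left⟩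
  have hBm : B ∈ membersIn S (A ⊔ B) := ⟨hB.1.1, le_sup_right⟩
  have hinf : A ⊓ B = ⊥ := hB.2.2.2 _ hAm _ hBm hB.1.2.1.symm
  have hab1 : a * b ≠ 1 := by
    intro he
    have e : a = b⁻¹ := eq_inv_of_mul_eq_one_left he
    have h2 : a ∈ A ⊓ B := Subgroup.mem_inf.2 ⟨ha, e ▸ B.inv_mem hb⟩
    rw [hinf] at h2
    exact ha1 (by simpa using h2)
  obtain ⟨C, hC, habC⟩ := hB.2.2.1 (a * b) ((A ⊔ B).mul_mem ((le_sup_left : A ≤ A ⊔ B) ha)
    ((le_sup_right : B ≤ A ⊔ B) hb)) hab1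
  refine ⟨C, hC, ?_, ?_⟩
  · rintro rfl
    have e : b = a⁻¹ * (a * b) := by group
    have h2 : b ∈ C ⊓ B := Subgroup.mem_inf.2 ⟨by rw [e]; exact C.mul_mem (C.inv_mem ha) habC, hb⟩
    rw [hinf] at h2
    exact hb1 (by simpa using h2)
  · rintro rfl
    have e : a = (a * b) * b⁻¹ := by group
    have h2 : a ∈ A ⊓ C := Subgroup.mem_inf.2 ⟨ha, by rw [e]; exact C.mul_mem habC (C.inv_mem hb)⟩
    rw [hinf] at h2
    exact ha1 (by simpa using h2)

/-- Each line partner of `A` is an `H`-conjugate of `A`, `H` containing `Λ_A` and a rank one partner of `A`. -/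
lemma conj_of_line_partner (hS : IsRootSubgroupSet S) (hF : ∀ X ∈ S, ∃ Q ∈ S, IsRankOnePair X Q)
    {A B C : Subgroup G} (hA : A ∈ S) (hB : B ∈ S) (hAB : IsRankOnePair A B) (hC : C ∈ linePartners S A)
    {H : Subgroup G} (hΛ : ∀ X ∈ linePartners S A, X ≤ H) (hBH : B ≤ H) :
    ∃ x ∈ H, conjBy A x = C := by
  have hCS : C ∈ S := hC.1.1
  have hLp := hC.2
  have hLab := line_comm hS hA hC
  have hAL : A ≤ A ⊔ C := le_sup_left
  have hCL : C ≤ A ⊔ C := le_sup_right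
  have hAm : A ∈ membersIn S (A ⊔ C) := ⟨hA, hAL⟩
  have hCm : C ∈ membersIn S (A ⊔ C) := ⟨hCS, hCL⟩
  have hinfAC : A ⊓ C = ⊥ := hLp.2.2 _ hAm _ hCm hC.1.2.1.symm
  obtain ⟨T₀, hT₀m, hT₀ne, hT₀c⟩ : ∃ T₀ ∈ membersIn S (A ⊔ C), T₀ ≠ A ∧ ⁅B, T₀⁆ ∈ S := by
    rcases hS.pair C hCS B hB with h1 | h1 | h1
    · exact (partner_not_comm hS hLab hLp hAL hCS hCL hC.1.2.1.symm hB hAB h1).elim
    · obtain ⟨T, hT, hTle, hTne, hTc⟩ := exists_case_of_two_partners hS hB hA hCS (RankOnePair_symm hAB)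
        (RankOnePair_symm h1) hC.1.2.2 hinfAC (fun x hx hx1 => by
          obtain ⟨T, hT, hxT⟩ := hLp.2.1 x hx hx1
          exact ⟨T, hT.1, hT.2, hxT⟩)
      exact ⟨T, ⟨hT, hTle⟩, hTne, by rw [Subgroup.commutator_comm]; exact hTc.1⟩
    · exact ⟨C, hCm, hC.1.2.1, by rw [Subgroup.commutator_comm]; exact h1.1⟩
  have hT₀Λ : T₀ ∈ linePartners S A := mem_linePartners_of_members hS hF hA hC hAm hT₀m hT₀ne.symm
  have hF₀H : ⁅B, T₀⁆ ≤ H := (commutator_le_sup B T₀).trans (sup_le hBH (hΛ T₀ hT₀Λ))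
  have heq : ⁅A, ⁅B, T₀⁆⁆ = T₀ := commutator_eq hS hF hLab hLp hA hAL hT₀m.1 hT₀m.2 hT₀ne.symm hB hAB hT₀c
  have hcc : RootCommutatorCase S A ⁅B, T₀⁆ := commCase_of_mem hS hA hT₀c (by rw [heq]; exact hT₀m.1)
  have hsup : A ⊔ T₀ = A ⊔ C := sup_eq_of_members hS hF hA hC hAm hT₀m hT₀ne.symm
  have hm := members_eq hS hcc hB hAB hA
  rw [heq, hsup] at hm
  rw [hm] at hCm
  rcases hCm with ⟨f, hf, hfe⟩ | h2
  · exact ⟨f, hF₀H hf, hfe⟩
  · rw [Set.mem_singleton_iff] at h2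
    have hlp : A ∈ linePartners S T₀ := mem_linePartners_of_members hS hF hA hC hT₀m hAm hT₀ne
    obtain ⟨T₂, hT₂, hT₂e⟩ := exists_commutator_eq hS hF hT₀m.1 hlp
    have hT₂T₀ : ⁅T₂, T₀⁆ = A := by rw [Subgroup.commutator_comm]; exact hT₂e
    have hc₂ : RootCommutatorCase S T₂ T₀ := commCase_of_mem hS hT₂ hT₀m.1 (by rw [hT₂T₀]; exact hA)
    obtain ⟨Q, hQ, hT₂Q⟩ := hF T₂ hT₂
    have hT₂Λ : T₂ ∈ linePartners S A := by
      have := mem_linePartners hS hc₂ hQ hT₂Q hT₂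
      rwa [hT₂T₀] at this
    have hopp : Opp S A ⁅B, T₀⁆ T₀ T₂ := ⟨hS, hA, hT₀c, hT₀m.1, hT₂, heq, hT₂T₀⟩
    obtain ⟨w, hw, hwe⟩ := hopp.exists_conj
    exact ⟨w, sup_le hF₀H (hΛ T₂ hT₂Λ) hw, hwe.trans h2.symm⟩

/-- **Generation.** `G = ⟨Λ_A, B⟩` for a rank one pair `(A, B)` in a non-degenerate class. -/
theorem sup_linePartners_eq_top (hS : IsRootSubgroupClass S) (hnd : IsNondegenerateRootSet S)
    {A B : Subgroup G} (hA : A ∈ S) (hB : B ∈ S) (hAB : IsRankOnePair A B) :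
    (⨆ C ∈ linePartners S A, C) ⊔ B = ⊤ := by
  have hF := partners hS hnd
  obtain ⟨H, hHd⟩ : ∃ H, H = (⨆ C ∈ linePartners S A, C) ⊔ B := ⟨_, rfl⟩
  rw [← hHd]
  have hΛ : ∀ X ∈ linePartners S A, X ≤ H := fun X hX => by
    rw [hHd]
    exact le_sup_of_le_left (le_iSup₂_of_le X hX le_rfl)
  have hBH : B ≤ H := by
    rw [hHd]
    exact le_sup_right
  -- `A ≤ H`
  have hAH : A ≤ H := by
    obtain ⟨D, hD, hAD⟩ := exists_commutator_partner hS hnd.2.2 hA
    obtain ⟨C₀, hC₀, -⟩ := exists_good hS.1 hA hB hD hAB hAD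
    obtain ⟨C₁, hC₁, hne₁, hne₂⟩ := exists_third hS.1 hA hC₀
    have hC₀m : C₀ ∈ membersIn S (A ⊔ C₀) := ⟨hC₀.1.1, le_sup_right⟩
    have hAm : A ∈ membersIn S (A ⊔ C₀) := ⟨hA, le_sup_left⟩
    have h1 := sup_eq_of_members hS.1 hF hA hC₀ hC₀m hC₁ hne₂.symm
    have hC₁Λ : C₁ ∈ linePartners S A := mem_linePartners_of_members hS.1 hF hA hC₀ hAm hC₁ hne₁.symm
    have h2 : A ≤ C₀ ⊔ C₁ := by
      rw [h1]; exact le_sup_left
    exact h2.trans (sup_le (hΛ C₀ hC₀) (hΛ C₁ hC₁Λ))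
  -- all members are `H`-conjugates of `A`
  have hconj : ∀ T, Relation.ReflTransGen (EAdj S S) A T → ∃ x ∈ H, conjBy A x = T := by
    intro T hT
    induction hT with
    | refl => exact ⟨1, H.one_mem, by simp⟩
    | @tail T' T'' _ h2 ih =>
      obtain ⟨x, hx, rfl⟩ := ih
      have h3 := linePartners_conj hS.1 h2.2.2 x⁻¹
      rw [conjBy_inv_conjBy] at h3
      obtain ⟨y, hy, hye⟩ := conj_of_line_partner hS.1 hF hA hB hAB h3 hΛ hBH
      refine ⟨x * y, H.mul_mem hx hy, ?_⟩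
      rw [← conjBy_conjBy, hye, conjBy_conjBy_inv]
  have hall : ∀ T ∈ S, T ≤ H := by
    intro T hT
    obtain ⟨x, hx, rfl⟩ := hconj T (eadj_connected hS hnd A hA T hT)
    rintro _ ⟨a, ha, rfl⟩
    exact H.mul_mem (H.mul_mem hx (hAH ha)) (H.inv_mem hx)
  rw [eq_top_iff, ← hS.1.generates]
  exact iSup₂_le hall

/-! ### Weak TI-subsets -/

/-- Weak TI-subsets of a non-degenerate class are abelian. -/
theorem weakTI_abelian (hS : IsRootSubgroupClass S) (hnd : IsNondegenerateRootSet S) {Δ : Set (Subgroup G)}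
    (hΔ : IsWeakTISubset S Δ) : IsAbelianFamily Δ := by
  obtain ⟨hsub, -, hne, hTI⟩ := hΔ
  have hF := partners hS hnd
  -- members fixing a point of `Δ` stabilize `Δ`
  have hfix : ∀ D ∈ S, ∀ d ∈ D, ∀ T ∈ Δ, conjBy T d = T → ∀ T' ∈ Δ, conjBy T' d ∈ Δ := by
    intro D hD d hd T hT hTd T' hT'
    by_cases hd1 : d = 1
    · rw [hd1]; simpa using hT'
    · rcases hTI d ⟨hd1, D, hD, hd⟩ with h1 | h1
      · rw [← h1]
        exact ⟨T', hT', rfl⟩
      · exact absurd hT (Set.disjoint_left.1 h1 ⟨T, hT, hTd⟩)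
  let K : Subgroup G :=
    { carrier := {x | ∀ C, C ∈ Δ ↔ conjBy C x ∈ Δ}
      mul_mem' := by
        intro x y hx hy C
        rw [← conjBy_conjBy]
        exact (hy C).trans (hx _)
      one_mem' := by
        intro C
        simp
      inv_mem' := by
        intro x hx C
        have := hx (conjBy C x⁻¹)
        rw [conjBy_conjBy] at this
        simpa using this.symm }
  have hK : ∀ D ∈ S, ∀ T ∈ Δ, ⁅T, D⁆ = ⊥ → D ≤ K := by
    intro D hD T hT hc d hd C
    have hTd : ∀ d ∈ D, conjBy T d = T := fun d hd => conjBy_eq_self_of_comm (fun u hu =>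
      (comm_of_commutator_eq_bot hc hu hd).symm)
    refine ⟨fun hC => hfix D hD d hd T hT (hTd d hd) C hC, fun hC => ?_⟩
    have := hfix D hD d⁻¹ (D.inv_mem hd) T hT (hTd _ (D.inv_mem hd)) _ hC
    rwa [conjBy_inv_conjBy] at this
  have hK' : ∀ T ∈ Δ, T ≤ K := by
    intro T hT d hd C
    have hTd : ∀ d ∈ T, conjBy T d = T := fun d hd => conjBy_eq_self hd
    refine ⟨fun hC => hfix T (hsub hT) d hd T hT (hTd d hd) C hC, fun hC => ?_⟩
    have := hfix T (hsub hT) d⁻¹ (T.inv_mem hd) T hT (hTd _ (T.inv_mem hd)) _ hC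
    rwa [conjBy_inv_conjBy] at this
  -- if `K` contains `Λ_A` and a rank one partner then we are done
  have hfin : ∀ A ∈ Δ, ∀ B ∈ S, IsRankOnePair A B → B ≤ K → False := by
    intro A hA B hB hAB hBK
    have htop := sup_linePartners_eq_top hS hnd (hsub hA) hB hAB
    have hle : (⨆ C ∈ linePartners S A, C) ⊔ B ≤ K :=
      sup_le (iSup₂_le (fun C hC => hK C hC.1.1 A hA hC.1.2.2)) hBK
    rw [htop] at hle
    apply hne
    apply Set.Subset.antisymm hsub
    intro T hT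
    obtain ⟨g, rfl⟩ := hS.2.2 A (hsub hA) T hT
    exact ((hle (Subgroup.mem_top g)) A).1 hA
  intro A hA B hB a ha b hb
  rcases hS.1.pair A (hsub hA) B (hsub hB) with h1 | h1 | h1
  · exact comm_of_commutator_eq_bot h1 ha hb
  · exact (hfin A hA B (hsub hB) h1 (hK' B hB)).elim
  · exfalso
    have hBA : ⁅B, A⁆ = ⁅A, B⁆ := Subgroup.commutator_comm B A
    have hc₂ : RootCommutatorCase S B A := commCase_of_mem hS.1 (hsub hB) (hsub hA) (by rw [hBA]; exact h1.1)
    obtain ⟨Q, hQ, hBQ⟩ := hF B (hsub hB)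
    have hlp : B ∈ linePartners S ⁅A, B⁆ := by
      have := mem_linePartners hS.1 hc₂ hQ hBQ (hsub hB)
      rwa [hBA] at this
    obtain ⟨T, hT, hTe⟩ := exists_commutator_eq hS.1 hF h1.1 hlp
    have hTE : ⁅T, ⁅A, B⁆⁆ = B := by rw [Subgroup.commutator_comm]; exact hTe
    have hopp : Opp S B A ⁅A, B⁆ T := ⟨hS.1, hsub hB, hsub hA, h1.1, hT, hBA, hTE⟩
    have hc₃ : RootCommutatorCase S T ⁅A, B⁆ := commCase_of_mem hS.1 hT h1.1 (by rw [hTE]; exact hsub hB)
    have hBT : ⁅B, T⁆ = ⊥ := commutator_eq_bot_of_comm (fun x hx t ht => by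
      have hx' : x ∈ ⁅T, ⁅A, B⁆⁆ := by rw [hTE]; exact hx
      exact comm_central hc₃ hx' ((le_sup_left : T ≤ T ⊔ ⁅A, B⁆) ht))
    exact hfin A hA T hT hopp.rank_one (hK T hT B hB hBT)

end Cfsg.Agent.Lib.Amalgam.Connected
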