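import Cfsg.Agent.Lib.Amalgam.RankOne

/-!
# Quadratic modules for rank one groups

A rank one group `X = ⟨A, B⟩` acting on an abelian group `N` with `[N, A, A] = 0`, `[N, X, X] ≠ 0` is special.
The proof is elementwise: the fixed points `FixAll` play the role of `C_N(X)`.
-/

set_option autoImplicit false

namespace Cfsg.Agent.Lib.Amalgam.Quadratic

open Cfsg Cfsg.Agent.Lib.Amalgam.RankOne

variable {X : Type*} [Group X] {N : Type*} [AddCommGroup N] [DistribMulAction X N]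

variable (X) in
/-- The fixed points of `X` in `N`. -/
def FixAll (n : N) : Prop := ∀ x : X, x • n = n

lemma fix_zero : FixAll X (0 : N) := fun x => smul_zero x

lemma fix_add {m n : N} (hm : FixAll X m) (hn : FixAll X n) : FixAll X (m + n) := fun x => by
  rw [smul_add, hm x, hn x]

lemma fix_neg {n : N} (hn : FixAll X n) : FixAll X (-n) := fun x => by rw [smul_neg, hn x]

lemma fix_sub {m n : N} (hm : FixAll X m) (hn : FixAll X n) : FixAll X (m - n) := fun x => by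
  rw [smul_sub, hm x, hn x]

variable (X) in
/-- The elements acting trivially on `U` modulo the fixed points. -/
def kerOn (U : Set N) : Subgroup X where
  carrier := {x | ∀ q ∈ U, FixAll X (x • q - q)}
  mul_mem' := by
    intro x y hx hy q hq
    have hf := hy q hq
    have e : (x * y) • q - q = (x • q - q) + (y • q - q) := by
      have e1 : y • q = q + (y • q - q) := by abel
      calc (x * y) • q - q = x • (y • q) - q := by rw [mul_smul]
        _ = x • (q + (y • q - q)) - q := by rw [← e1]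
        _ = x • q + x • (y • q - q) - q := by rw [smul_add]
        _ = x • q + (y • q - q) - q := by rw [hf x]
        _ = _ := by abel
    rw [e]
    exact fix_add (hx q hq) hf
  one_mem' := by
    intro q _
    rw [one_smul, sub_self]; exact fix_zero
  inv_mem' := by
    intro x hx q hq
    have hf := hx q hq
    have e1 : x⁻¹ • (x • q) = q := inv_smul_smul x q
    have e2 : x • q = q + (x • q - q) := by abel
    have e3 : x⁻¹ • q + (x • q - q) = q := by
      have := e1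
      rw [e2, smul_add, hf x⁻¹] at this
      exact this
    have e : x⁻¹ • q - q = -(x • q - q) := by
      have e4 : x⁻¹ • q = q - (x • q - q) := eq_sub_of_add_eq e3
      rw [e4]; abel
    rw [e]
    exact fix_neg hf

lemma mem_kerOn {U : Set N} {x : X} : x ∈ kerOn X U ↔ ∀ q ∈ U, FixAll X (x • q - q) := Iff.rfl

variable (X N) in
/-- The kernel of the action. -/
def actKer : Subgroup X where
  carrier := {x | ∀ n : N, x • n = n}
  mul_mem' := by
    intro x y hx hy n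
    rw [mul_smul, hy n, hx n]
  one_mem' := fun n => one_smul _ n
  inv_mem' := by
    intro x hx n
    have := hx n
    rw [inv_smul_eq_iff, this]

lemma mem_actKer {x : X} : x ∈ actKer X N ↔ ∀ n : N, x • n = n := Iff.rfl

variable (X N) in
/-- The commutator `[N, X]`. -/
def brk : AddSubgroup N := AddSubgroup.closure {v | ∃ (x : X) (n : N), v = x • n - n}

lemma sub_mem_brk (x : X) (n : N) : x • n - n ∈ brk X N := AddSubgroup.subset_closure ⟨x, n, rfl⟩

lemma smul_mem_brk (g : X) {v : N} (hv : v ∈ brk X N) : g • v ∈ brk X N := by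
  induction hv using AddSubgroup.closure_induction with
  | mem v hv =>
    obtain ⟨x, n, rfl⟩ := hv
    have e : g • (x • n - n) = ((g * x) • n - n) - (g • n - n) := by
      rw [smul_sub, mul_smul]; abel
    rw [e]
    exact (brk X N).sub_mem (sub_mem_brk _ _) (sub_mem_brk _ _)
  | zero => rw [smul_zero]; exact (brk X N).zero_mem
  | add u v _ _ hu hv => rw [smul_add]; exact (brk X N).add_mem hu hv
  | neg u _ hu => rw [smul_neg]; exact (brk X N).neg_mem hu

section Main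

variable {A B : Subgroup X}

/-- `B` acts quadratically too. -/
lemma quadratic_right (h : IsRankOnePair A B)
    (hq : ∀ a ∈ A, ∀ a' ∈ A, ∀ n : N, a' • (a • n - n) = a • n - n) :
    ∀ b ∈ B, ∀ b' ∈ B, ∀ n : N, b' • (b • n - n) = b • n - n := by
  obtain ⟨y, -, hy⟩ := exists_mul_conj h
  intro b hb b' hb' n
  rw [← hy, mem_conjBy] at hb hb'
  have h1 := hq _ hb _ hb' (y⁻¹ • n)
  have e1 : (y⁻¹ * b * y) • (y⁻¹ • n) = y⁻¹ • (b • n) := by simp [mul_smul]
  have e2 : ∀ m : N, (y⁻¹ * b' * y) • (y⁻¹ • m) = y⁻¹ • (b' • m) := fun m => by simp [mul_smul]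
  rw [e1, ← smul_sub, e2] at h1
  exact MulAction.injective y⁻¹ h1

/-- Fixed by `A` and `B` means fixed by `X`. -/
lemma fixAll_of_fix (hX : A ⊔ B = ⊤) {u : N} (hA : ∀ a ∈ A, a • u = u) (hB : ∀ b ∈ B, b • u = u) : FixAll X u := by
  have hle : A ⊔ B ≤ MulAction.stabilizer X u := sup_le (fun a ha => hA a ha) (fun b hb => hB b hb)
  rw [hX] at hle
  exact fun x => hle (Subgroup.mem_top x)

/-- If `u` is fixed by `B` and `a` moves it by a fixed point then `u` is fixed by `X`. -/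
lemma fix_of_moved (hX : A ⊔ B = ⊤) {a b : X}
    (hH : ∀ a₁ ∈ A, ∃ b₁ ∈ B, b⁻¹ * a₁ * b = a⁻¹ * b₁ * a) {u : N} (hu : ∀ b' ∈ B, b' • u = u)
    (hf : FixAll X (a • u - u)) (hb : b ∈ B) : FixAll X u := by
  refine fixAll_of_fix hX ?_ hu
  intro a₁ ha₁
  obtain ⟨b₁, hb₁, he⟩ := hH a₁ ha₁
  have e1 : a • u = u + (a • u - u) := by abel
  have e2 : b₁ • (a • u) = a • u := by
    rw [e1, smul_add, hu b₁ hb₁, hf b₁]
  have e3 : (b⁻¹ * a₁ * b) • u = u := by
    rw [he, mul_smul, mul_smul, e2, inv_smul_smul]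
  rw [mul_smul, mul_smul, hu b hb, inv_smul_eq_iff, hu b hb] at e3
  exact e3

/-- The computation: `z = b₁ b` acts on `C_N(A)` trivially modulo fixed points. -/
lemma fix_comm (hX : A ⊔ B = ⊤) (hq : ∀ a ∈ A, ∀ a' ∈ A, ∀ n : N, a' • (a • n - n) = a • n - n)
    (hqB : ∀ b ∈ B, ∀ b' ∈ B, ∀ n : N, b' • (b • n - n) = b • n - n)
    {a b b₁ : X} (ha : a ∈ A) (hb : b ∈ B) (hb₁ : b₁ ∈ B)
    (hH : ∀ a₁ ∈ A, ∃ b₁ ∈ B, b⁻¹ * a₁ * b = a⁻¹ * b₁ * a)
    (he : b⁻¹ * a * b = a⁻¹ * b₁ * a) {v : N} (hv : ∀ a' ∈ A, a' • v = v) :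
    FixAll X ((b₁ * b) • v - v) := by
  obtain ⟨y, hy⟩ : ∃ y, y = b • v - v := ⟨_, rfl⟩
  obtain ⟨y₁, hy₁⟩ : ∃ y₁, y₁ = b₁ • v - v := ⟨_, rfl⟩
  obtain ⟨t, ht⟩ : ∃ t, t = a • y - y := ⟨_, rfl⟩
  obtain ⟨t₁, ht₁⟩ : ∃ t₁, t₁ = a • y₁ - y₁ := ⟨_, rfl⟩
  obtain ⟨s₁, hs₁⟩ : ∃ s₁, s₁ = b • t₁ - t₁ := ⟨_, rfl⟩
  have hyB : ∀ b' ∈ B, b' • y = y := fun b' hb' => by rw [hy]; exact hqB b hb b' hb' v
  have hy₁B : ∀ b' ∈ B, b' • y₁ = y₁ := fun b' hb' => by rw [hy₁]; exact hqB b₁ hb₁ b' hb' v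
  have htA : ∀ a' ∈ A, a' • t = t := fun a' ha' => by rw [ht]; exact hq a ha a' ha' y
  have ht₁A : ∀ a' ∈ A, a' • t₁ = t₁ := fun a' ha' => by rw [ht₁]; exact hq a ha a' ha' y₁
  have hs₁B : ∀ b' ∈ B, b' • s₁ = s₁ := fun b' hb' => by rw [hs₁]; exact hqB b hb b' hb' t₁
  have ebv : b • v = v + y := by rw [hy]; abel
  have eb₁v : b₁ • v = v + y₁ := by rw [hy₁]; abel
  have eay : a • y = y + t := by rw [ht]; abel
  have eay₁ : a • y₁ = y₁ + t₁ := by rw [ht₁]; abel
  have ebt₁ : b • t₁ = t₁ + s₁ := by rw [hs₁]; abel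
  -- a⁻¹ y₁ = y₁ - t₁
  have eai : a⁻¹ • y₁ = y₁ - t₁ := by
    rw [inv_smul_eq_iff, smul_sub, eay₁, ht₁A a ha]
    abel
  have eaiv : a⁻¹ • v = v := by rw [inv_smul_eq_iff, hv a ha]
  have key : a * b = b * (a⁻¹ * b₁ * a) := by
    rw [← he]; group
  have e1 : (a * b) • v = v + y + t := by
    rw [mul_smul, ebv, smul_add, hv a ha, eay]; abel
  have e2 : (b * (a⁻¹ * b₁ * a)) • v = v + y + y₁ - (t₁ + s₁) := by
    rw [mul_smul, mul_smul, mul_smul, hv a ha, eb₁v, smul_add, eaiv, eai, smul_add, smul_sub, ebv, hy₁B b hb, ebt₁]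
    abel
  rw [key, e2] at e1
  have e3 : t + t₁ = y₁ - s₁ := by
    have := e1
    have h5 : t = y₁ - (t₁ + s₁) := by
      have h6 : v + y + y₁ - (t₁ + s₁) = (v + y) + (y₁ - (t₁ + s₁)) := by abel
      rw [h6] at this
      exact (add_left_cancel this).symm
    rw [h5]; abel
  -- `u = y + y₁`
  have hu : ∀ b' ∈ B, b' • (y + y₁) = y + y₁ := fun b' hb' => by rw [smul_add, hyB b' hb', hy₁B b' hb']
  have e4 : a • (y + y₁) - (y + y₁) = t + t₁ := by
    rw [smul_add, eay, eay₁]; abel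
  have hf : FixAll X (a • (y + y₁) - (y + y₁)) := by
    rw [e4]
    refine fixAll_of_fix hX ?_ ?_
    · intro a' ha'
      rw [smul_add, htA a' ha', ht₁A a' ha']
    · intro b' hb'
      rw [e3, smul_sub, hy₁B b' hb', hs₁B b' hb']
  have hfu := fix_of_moved hX hH hu hf hb
  have e5 : (b₁ * b) • v - v = y + y₁ := by
    rw [mul_smul, ebv, smul_add, eb₁v, hyB b₁ hb₁]
    abel
  rw [e5]
  exact hfu

/-- Elements of `[N, X]` decompose as sums of elements fixed by `A` and by `B`. -/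
def Dec (A B : Subgroup X) (v : N) : Prop :=
  ∃ p q : N, v = p + q ∧ p ∈ brk X N ∧ q ∈ brk X N ∧ (∀ a ∈ A, a • p = p) ∧ (∀ b ∈ B, b • q = q)

lemma dec_add {u v : N} (hu : Dec A B u) (hv : Dec A B v) : Dec A B (u + v) := by
  obtain ⟨p, q, rfl, hp, hq, hpA, hqB⟩ := hu
  obtain ⟨p', q', rfl, hp', hq', hpA', hqB'⟩ := hv
  refine ⟨p + p', q + q', by abel, (brk X N).add_mem hp hp', (brk X N).add_mem hq hq', ?_, ?_⟩
  · intro a ha; rw [smul_add, hpA a ha, hpA' a ha]
  · intro b hb; rw [smul_add, hqB b hb, hqB' b hb]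

lemma dec_neg {u : N} (hu : Dec A B u) : Dec A B (-u) := by
  obtain ⟨p, q, rfl, hp, hq, hpA, hqB⟩ := hu
  refine ⟨-p, -q, by abel, (brk X N).neg_mem hp, (brk X N).neg_mem hq, ?_, ?_⟩
  · intro a ha; rw [smul_neg, hpA a ha]
  · intro b hb; rw [smul_neg, hqB b hb]

lemma dec_zero : Dec A B (0 : N) :=
  ⟨0, 0, by abel, (brk X N).zero_mem, (brk X N).zero_mem, fun a _ => smul_zero a, fun b _ => smul_zero b⟩

lemma dec_of_mem (hX : A ⊔ B = ⊤) (hq : ∀ a ∈ A, ∀ a' ∈ A, ∀ n : N, a' • (a • n - n) = a • n - n)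
    (hqB : ∀ b ∈ B, ∀ b' ∈ B, ∀ n : N, b' • (b • n - n) = b • n - n) {v : N} (hv : v ∈ brk X N) : Dec A B v := by
  let H : Subgroup X :=
    { carrier := {x | ∀ n : N, Dec A B (x • n - n)}
      mul_mem' := by
        intro x y hx hy n
        have e : (x * y) • n - n = (x • (y • n) - y • n) + (y • n - n) := by
          rw [mul_smul]; abel
        rw [e]
        exact dec_add (hx _) (hy _)
      one_mem' := by
        intro n
        rw [one_smul, sub_self]
        exact dec_zero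
      inv_mem' := by
        intro x hx n
        have e : x⁻¹ • n - n = -(x • (x⁻¹ • n) - x⁻¹ • n) := by
          rw [smul_inv_smul]; abel
        rw [e]
        exact dec_neg (hx _) }
  have hle : A ⊔ B ≤ H := by
    apply sup_le
    · intro a ha n
      exact ⟨a • n - n, 0, by abel, sub_mem_brk _ _, (brk X N).zero_mem, fun a' ha' => hq a ha a' ha' n,
        fun b _ => smul_zero b⟩
    · intro b hb n
      exact ⟨0, b • n - n, by abel, (brk X N).zero_mem, sub_mem_brk _ _, fun a _ => smul_zero a,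
        fun b' hb' => hqB b hb b' hb' n⟩
  rw [hX] at hle
  have hH : ∀ (x : X) (n : N), Dec A B (x • n - n) := fun x => hle (Subgroup.mem_top x)
  induction hv using AddSubgroup.closure_induction with
  | mem v hv =>
    obtain ⟨x, n, rfl⟩ := hv
    exact hH x n
  | zero => exact dec_zero
  | add u v _ _ hu hv => exact dec_add hu hv
  | neg u _ hu => exact dec_neg hu

/-- The kernel modulo fixed points is normal. -/
lemma kerOn_brk_normal (x g : X) (hx : x ∈ kerOn X ((brk X N : AddSubgroup N) : Set N)) :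
    g * x * g⁻¹ ∈ kerOn X ((brk X N : AddSubgroup N) : Set N) := by
  intro q hq
  have hq' : g⁻¹ • q ∈ brk X N := smul_mem_brk g⁻¹ hq
  have hf := hx _ hq'
  have e : (g * x * g⁻¹) • q - q = g • (x • (g⁻¹ • q) - g⁻¹ • q) := by
    rw [smul_sub, smul_inv_smul, mul_smul, mul_smul]
  rw [e, hf g]
  exact hf

lemma actKer_normal (x g : X) (hx : x ∈ actKer X N) : g * x * g⁻¹ ∈ actKer X N := by
  intro n
  rw [mul_smul, mul_smul, hx, smul_inv_smul]

/-- The action kernel is central. -/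
lemma actKer_central (hX : A ⊔ B = ⊤) (h : IsRankOnePair A B)
    (hq : ∀ a ∈ A, ∀ a' ∈ A, ∀ n : N, a' • (a • n - n) = a • n - n)
    (hX' : ∃ x y : X, ∃ n : N, y • (x • n - n) ≠ x • n - n) :
    ∀ k ∈ actKer X N, ∀ x ∈ A ⊔ B, k * x = x * k := by
  rcases normal_dichotomy h (N := actKer X N) (by rw [hX]; exact le_top) (fun x _ n hn => actKer_normal n x hn) with h1 | h1
  · exfalso
    let H : Subgroup X :=
      { carrier := {x | ∃ a ∈ A, ∀ n : N, x • n = a • n}
        mul_mem' := by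
          rintro x y ⟨a, ha, hae⟩ ⟨b, hb, hbe⟩
          exact ⟨a * b, A.mul_mem ha hb, fun n => by rw [mul_smul, mul_smul, hbe, hae]⟩
        one_mem' := ⟨1, A.one_mem, fun _ => rfl⟩
        inv_mem' := by
          rintro x ⟨a, ha, hae⟩
          refine ⟨a⁻¹, A.inv_mem ha, fun n => ?_⟩
          rw [inv_smul_eq_iff, hae, smul_inv_smul] }
    have hle : actKer X N ⊔ A ≤ H := by
      apply sup_le
      · intro k hk
        exact ⟨1, A.one_mem, fun n => by rw [hk n, one_smul]⟩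
      · intro a ha
        exact ⟨a, ha, fun _ => rfl⟩
    rw [h1, hX] at hle
    obtain ⟨x, y, n, hne⟩ := hX'
    obtain ⟨a₁, ha₁, hae₁⟩ := hle (Subgroup.mem_top x)
    obtain ⟨a₂, ha₂, hae₂⟩ := hle (Subgroup.mem_top y)
    apply hne
    rw [hae₁, hae₂]
    exact hq a₁ ha₁ a₂ ha₂ n
  · exact h1

/-- `[N, X]` modulo fixed points is not centralized by `X`: the kernel modulo fixed points is central. -/
lemma kerOn_central (hX : A ⊔ B = ⊤) (h : IsRankOnePair A B)
    (hq : ∀ a ∈ A, ∀ a' ∈ A, ∀ n : N, a' • (a • n - n) = a • n - n)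
    (hX' : ∃ x y : X, ∃ n : N, y • (x • n - n) ≠ x • n - n) :
    ∀ k ∈ kerOn X ((brk X N : AddSubgroup N) : Set N), ∀ x ∈ A ⊔ B, k * x = x * k := by
  have hqB := quadratic_right h hq
  by_contra hcon
  have h1 := (normal_dichotomy h (N := kerOn X ((brk X N : AddSubgroup N) : Set N)) (by rw [hX]; exact le_top)
    (fun x _ n hn => kerOn_brk_normal n x hn)).resolve_right hcon
  have h2 := (normal_dichotomy (RankOnePair_symm h) (N := kerOn X ((brk X N : AddSubgroup N) : Set N))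
    (by rw [sup_comm, hX]; exact le_top)
    (fun x _ n hn => kerOn_brk_normal n x hn)).resolve_right (by rwa [sup_comm B A])
  -- so everything acts trivially on `[N, X]` modulo the fixed points
  have hK₁ : ∀ x : X, x ∈ kerOn X {q : N | q ∈ brk X N ∧ ∀ a ∈ A, a • q = q} := by
    have hle : kerOn X ((brk X N : AddSubgroup N) : Set N) ⊔ A ≤ kerOn X {q : N | q ∈ brk X N ∧ ∀ a ∈ A, a • q = q} := by
      apply sup_le
      · intro k hk q hq
        exact hk q hq.1
      · intro a ha q hq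
        rw [hq.2 a ha, sub_self]
        exact fix_zero
    rw [h1, hX] at hle
    exact fun x => hle (Subgroup.mem_top x)
  have hK₂ : ∀ x : X, x ∈ kerOn X {q : N | q ∈ brk X N ∧ ∀ b ∈ B, b • q = q} := by
    have hle : kerOn X ((brk X N : AddSubgroup N) : Set N) ⊔ B ≤ kerOn X {q : N | q ∈ brk X N ∧ ∀ b ∈ B, b • q = q} := by
      apply sup_le
      · intro k hk q hq
        exact hk q hq.1
      · intro b hb q hq
        rw [hq.2 b hb, sub_self]
        exact fix_zero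
    rw [h2, sup_comm, hX] at hle
    exact fun x => hle (Subgroup.mem_top x)
  have hall : ∀ (x : X) (v : N), v ∈ brk X N → FixAll X (x • v - v) := by
    intro x v hv
    obtain ⟨p, q, rfl, hp, hq', hpA, hqB'⟩ := dec_of_mem hX hq hqB hv
    have e : x • (p + q) - (p + q) = (x • p - p) + (x • q - q) := by
      rw [smul_add]; abel
    rw [e]
    exact fix_add (hK₁ x p ⟨hp, hpA⟩) (hK₂ x q ⟨hq', hqB'⟩)
  have hC := actKer_central hX h hq hX'
  -- commutators act trivially on `[N, X]`, and modulo fixed points on `N`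
  have hc1 : ∀ (x y : X) (m : N), (x * y) • m - (y * x) • m =
      (x • (y • m - m) - (y • m - m)) - (y • (x • m - m) - (x • m - m)) := by
    intro x y m
    rw [mul_smul, mul_smul, smul_sub, smul_sub]; abel
  have hcomm1 : ∀ (x y : X) (n : N), FixAll X ((x * y * x⁻¹ * y⁻¹) • n - n) := by
    intro x y n
    have e : (x * y * x⁻¹ * y⁻¹) • n - n = (x * y) • (x⁻¹ • y⁻¹ • n) - (y * x) • (x⁻¹ • y⁻¹ • n) := by
      simp [mul_smul]
    rw [e, hc1]
    exact fix_sub (hall _ _ (sub_mem_brk _ _)) (hall _ _ (sub_mem_brk _ _))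
  have hcomm2 : ∀ (x y : X) (v : N), v ∈ brk X N → (x * y * x⁻¹ * y⁻¹) • v = v := by
    intro x y v hv
    have e : (x * y * x⁻¹ * y⁻¹) • v - v = (x * y) • (x⁻¹ • y⁻¹ • v) - (y * x) • (x⁻¹ • y⁻¹ • v) := by
      simp [mul_smul]
    have hm : x⁻¹ • y⁻¹ • v ∈ brk X N := smul_mem_brk _ (smul_mem_brk _ hv)
    have h4 := hall y _ hm x
    have h5 := hall x _ hm y
    have h6 : (x * y * x⁻¹ * y⁻¹) • v - v = 0 := by
      rw [e, hc1, h4, h5, sub_self, sub_self, sub_self]
    exact sub_eq_zero.1 h6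
  have hcomm3 : ∀ (x y w : X), (x * y * x⁻¹ * y⁻¹) * w * (x * y * x⁻¹ * y⁻¹)⁻¹ * w⁻¹ ∈ actKer X N := by
    intro x y w n
    obtain ⟨t, ht⟩ : ∃ t, t = x * y * x⁻¹ * y⁻¹ := ⟨_, rfl⟩
    rw [← ht]
    have e : (t * w * t⁻¹ * w⁻¹) • n - n = (t * w) • (t⁻¹ • w⁻¹ • n) - (w * t) • (t⁻¹ • w⁻¹ • n) := by
      simp [mul_smul]
    have h4 : t • (w • (t⁻¹ • w⁻¹ • n) - (t⁻¹ • w⁻¹ • n)) = w • (t⁻¹ • w⁻¹ • n) - (t⁻¹ • w⁻¹ • n) := by
      rw [ht]; exact hcomm2 x y _ (sub_mem_brk _ _)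
    have h5 : FixAll X (t • (t⁻¹ • w⁻¹ • n) - (t⁻¹ • w⁻¹ • n)) := by
      rw [ht]; exact hcomm1 x y _
    have h6 : (t * w * t⁻¹ * w⁻¹) • n - n = 0 := by
      rw [e, hc1, h4, h5 w, sub_self, sub_self, sub_self]
    exact sub_eq_zero.1 h6
  apply not_class_two h
  intro x _ y _ z _
  have hcen : ∀ w ∈ A ⊔ B, (x * y * x⁻¹ * y⁻¹) * w = w * (x * y * x⁻¹ * y⁻¹) := by
    apply central_of_comm_central h (by rw [hX]; exact Subgroup.mem_top _)
    intro w _ u hu
    exact hC _ (hcomm3 x y w) u hu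
  exact hcen z (by rw [hX]; exact Subgroup.mem_top _)

/-- A rank one group with a quadratic, non-trivial module is special. -/
theorem special_of_quadratic (hX : A ⊔ B = ⊤) (h : IsRankOnePair A B)
    (hq : ∀ a ∈ A, ∀ a' ∈ A, ∀ n : N, a' • (a • n - n) = a • n - n)
    (hX' : ∃ x y : X, ∃ n : N, y • (x • n - n) ≠ x • n - n) : IsSpecialRankOnePair A B := by
  refine ⟨h, ?_⟩
  intro a ha ha1 b hb _ hab
  have hqB := quadratic_right h hq
  have hH : ∀ a₁ ∈ A, ∃ b₁ ∈ B, b⁻¹ * a₁ * b = a⁻¹ * b₁ * a := by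
    intro a₁ ha₁
    have h1 : b⁻¹ * a₁ * b⁻¹⁻¹ ∈ conjBy A b⁻¹ := conj_mem_conjBy ha₁
    rw [hab, mem_conjBy] at h1
    refine ⟨_, h1, ?_⟩
    group
  obtain ⟨b₁, hb₁, he⟩ := hH a ha
  have hz : b₁ * b ∈ kerOn X ((brk X N : AddSubgroup N) : Set N) := by
    intro v hv
    obtain ⟨p, q, rfl, hp, hq', hpA, hqB'⟩ := dec_of_mem hX hq hqB hv
    have e : (b₁ * b) • (p + q) - (p + q) = ((b₁ * b) • p - p) + ((b₁ * b) • q - q) := by
      rw [smul_add]; abel
    rw [e, hqB' _ (B.mul_mem hb₁ hb), sub_self, add_zero]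
    exact fix_comm hX hq hqB ha hb hb₁ hH he hpA
  have hc := kerOn_central hX h hq hX' _ hz a ((le_sup_left : A ≤ A ⊔ B) ha)
  have hz1 : b₁ * b = 1 := eq_one_of_comm' h ha (B.mul_mem hb₁ hb) ha1 hc.symm
  have hb₁' : b₁ = b⁻¹ := eq_inv_of_mul_eq_one_left hz1
  rw [he, hb₁']

end Main


/-! ### Relative version: `⟨A, B⟩` acting by conjugation on an abelian subgroup -/

section Relative

variable {G : Type*} [Group G] {A B : Subgroup G}

lemma map_subtype_conjBy {X : Subgroup G} {A : Subgroup G} (hA : A ≤ X) (x : X) :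
    (conjBy (A.subgroupOf X) x).map X.subtype = conjBy A (x : G) := by
  ext y
  constructor
  · rintro ⟨_, ⟨a, ha, rfl⟩, rfl⟩
    exact ⟨a, ha, by simp [MulAut.conj_apply]⟩
  · rintro ⟨a, ha, rfl⟩
    exact ⟨_, ⟨⟨a, hA ha⟩, ha, rfl⟩, by simp [MulAut.conj_apply]⟩

lemma conjBy_subgroupOf_eq_iff {X : Subgroup G} {A B : Subgroup G} (hA : A ≤ X) (hB : B ≤ X) (x y : X) :
    conjBy (A.subgroupOf X) x = conjBy (B.subgroupOf X) y ↔ conjBy A (x : G) = conjBy B (y : G) := by
  rw [← map_subtype_conjBy hA, ← map_subtype_conjBy hB]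
  exact (Subgroup.map_injective X.subtype_injective).eq_iff.symm

lemma isNilpotent_subgroupOf {X A : Subgroup G} (hA : A ≤ X) (h : Group.IsNilpotent A) :
    Group.IsNilpotent (A.subgroupOf X) :=
  Group.nilpotent_of_mulEquiv (Subgroup.subgroupOfEquivOfLe hA).symm

lemma rankOneCondition_subgroupOf {X A B : Subgroup G} (hA : A ≤ X) (hB : B ≤ X) (h : RankOneCondition A B) :
    RankOneCondition (A.subgroupOf X) (B.subgroupOf X) := by
  rintro ⟨a, haX⟩ ha ha1
  have ha' : a ∈ A := ha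
  have ha1' : a ≠ 1 := fun he => ha1 (Subtype.ext he)
  obtain ⟨b, hb, hb1, he⟩ := h a ha' ha1'
  refine ⟨⟨b, hB hb⟩, hb, fun hc => hb1 (congrArg Subtype.val hc), ?_⟩
  rw [conjBy_subgroupOf_eq_iff hA hB]
  exact he

lemma rankOnePair_subgroupOf {X A B : Subgroup G} (hA : A ≤ X) (hB : B ≤ X) (h : IsRankOnePair A B) :
    IsRankOnePair (A.subgroupOf X) (B.subgroupOf X) := by
  refine ⟨?_, isNilpotent_subgroupOf hA h.nilpotent_left, isNilpotent_subgroupOf hB h.nilpotent_right,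
    rankOneCondition_subgroupOf hA hB h.cond_left, rankOneCondition_subgroupOf hB hA h.cond_right⟩
  intro he
  apply h.ne
  have h1 : (A.subgroupOf X).map X.subtype = (B.subgroupOf X).map X.subtype := by rw [he]
  rwa [Subgroup.map_subgroupOf_eq_of_le hA, Subgroup.map_subgroupOf_eq_of_le hB] at h1

lemma sup_subgroupOf_eq_top {A B : Subgroup G} :
    A.subgroupOf (A ⊔ B) ⊔ B.subgroupOf (A ⊔ B) = ⊤ := by
  apply Subgroup.map_injective (A ⊔ B).subtype_injective
  rw [Subgroup.map_sup, Subgroup.map_subgroupOf_eq_of_le le_sup_left, Subgroup.map_subgroupOf_eq_of_le le_sup_right,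
    ← MonoidHom.range_eq_map, Subgroup.range_subtype]

/-- A rank one pair acting quadratically and non-trivially by conjugation on an abelian subgroup is special. -/
theorem special_of_conj_module {M : Subgroup G} (h : IsRankOnePair A B)
    (hMc : ∀ x ∈ M, ∀ y ∈ M, x * y = y * x) (hMn : ∀ x ∈ A ⊔ B, ∀ m ∈ M, x * m * x⁻¹ ∈ M)
    (hq : ∀ a ∈ A, ∀ a' ∈ A, ∀ m ∈ M, a' * (a * m * a⁻¹ * m⁻¹) * a'⁻¹ = a * m * a⁻¹ * m⁻¹)
    (hne : ∃ x ∈ A ⊔ B, ∃ y ∈ A ⊔ B, ∃ m ∈ M, y * (x * m * x⁻¹ * m⁻¹) * y⁻¹ ≠ x * m * x⁻¹ * m⁻¹) :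
    IsSpecialRankOnePair A B := by
  letI instCG : CommGroup ↥M :=
    { (inferInstance : Group ↥M) with mul_comm := fun x y => Subtype.ext (hMc x x.2 y y.2) }
  letI instD : DistribMulAction ↥(A ⊔ B) (Additive ↥M) :=
    { smul := fun x n => Additive.ofMul ⟨(x : G) * ((Additive.toMul n : ↥M) : G) * (x : G)⁻¹, hMn _ x.2 _ (Additive.toMul n).2⟩
      one_smul := by
        intro n
        apply Additive.toMul.injective
        apply Subtype.ext
        show (1 : G) * ((Additive.toMul n : ↥M) : G) * (1 : G)⁻¹ = _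
        simp
      mul_smul := by
        intro x y n
        apply Additive.toMul.injective
        apply Subtype.ext
        show ((x : G) * (y : G)) * ((Additive.toMul n : ↥M) : G) * ((x : G) * (y : G))⁻¹ =
          (x : G) * ((y : G) * ((Additive.toMul n : ↥M) : G) * (y : G)⁻¹) * (x : G)⁻¹
        group
      smul_zero := by
        intro x
        apply Additive.toMul.injective
        apply Subtype.ext
        show (x : G) * (1 : G) * (x : G)⁻¹ = 1
        simp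
      smul_add := by
        intro x m n
        apply Additive.toMul.injective
        apply Subtype.ext
        show (x : G) * (((Additive.toMul m : ↥M) : G) * ((Additive.toMul n : ↥M) : G)) * (x : G)⁻¹ =
          ((x : G) * ((Additive.toMul m : ↥M) : G) * (x : G)⁻¹) * ((x : G) * ((Additive.toMul n : ↥M) : G) * (x : G)⁻¹)
        group }
  have hval : ∀ (x : ↥(A ⊔ B)) (n : Additive ↥M), ((Additive.toMul (x • n) : ↥M) : G) =
      (x : G) * ((Additive.toMul n : ↥M) : G) * (x : G)⁻¹ := fun _ _ => rfl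
  have hsub : ∀ (m n : Additive ↥M), ((Additive.toMul (m - n) : ↥M) : G) =
      ((Additive.toMul m : ↥M) : G) * ((Additive.toMul n : ↥M) : G)⁻¹ := by
    intro m n
    rw [toMul_sub]
    exact div_eq_mul_inv _ _
  have hex : ∀ (m n : Additive ↥M), ((Additive.toMul m : ↥M) : G) = ((Additive.toMul n : ↥M) : G) → m = n := by
    intro m n he
    exact Additive.toMul.injective (Subtype.ext he)
  have h1 := rankOnePair_subgroupOf (le_sup_left : A ≤ A ⊔ B) (le_sup_right : B ≤ A ⊔ B) h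
  have hq' : ∀ a ∈ A.subgroupOf (A ⊔ B), ∀ a' ∈ A.subgroupOf (A ⊔ B), ∀ n : Additive ↥M, a' • (a • n - n) = a • n - n := by
    rintro ⟨a, haX⟩ ha ⟨a', haX'⟩ ha' n
    apply hex
    rw [hval, hsub, hval]
    exact hq a ha a' ha' _ (Additive.toMul n).2
  have hne' : ∃ x y : ↥(A ⊔ B), ∃ n : Additive ↥M, y • (x • n - n) ≠ x • n - n := by
    obtain ⟨x, hx, y, hy, m, hm, hn⟩ := hne
    refine ⟨⟨x, hx⟩, ⟨y, hy⟩, Additive.ofMul ⟨m, hm⟩, ?_⟩
    intro he
    apply hn
    have h2 : ((Additive.toMul ((⟨y, hy⟩ : ↥(A ⊔ B)) • ((⟨x, hx⟩ : ↥(A ⊔ B)) • Additive.ofMul (⟨m, hm⟩ : ↥M) -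
        Additive.ofMul (⟨m, hm⟩ : ↥M))) : ↥M) : G) =
        ((Additive.toMul ((⟨x, hx⟩ : ↥(A ⊔ B)) • Additive.ofMul (⟨m, hm⟩ : ↥M) -
        Additive.ofMul (⟨m, hm⟩ : ↥M)) : ↥M) : G) := by rw [he]
    rw [hval, hsub, hval] at h2
    exact h2
  have hsp := special_of_quadratic (N := Additive ↥M) sup_subgroupOf_eq_top h1 hq' hne'
  refine ⟨h, ?_⟩
  intro a ha ha1 b hb hb1 hab
  have haX : a ∈ A ⊔ B := (le_sup_left : A ≤ A ⊔ B) ha
  have hbX : b ∈ A ⊔ B := (le_sup_right : B ≤ A ⊔ B) hb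
  have h2 := hsp.2 ⟨a, haX⟩ ha (fun he => ha1 (congrArg Subtype.val he)) ⟨b, hbX⟩ hb
    (fun he => hb1 (congrArg Subtype.val he))
    ((conjBy_subgroupOf_eq_iff le_sup_left le_sup_right _ _).2 hab)
  exact congrArg Subtype.val h2

end Relative

end Cfsg.Agent.Lib.Amalgam.Quadratic
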