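import Cfsg.Agent.Lib.Amalgam.Opposite
import Cfsg.Agent.Lib.Amalgam.Quadratic

/-!
# Lines and rank one partners: good pairs and special rank one groups
-/

set_option autoImplicit false

namespace Cfsg.Agent.Lib.Amalgam.Good

open Cfsg Cfsg.Agent.Lib.Amalgam.RankOne Cfsg.Agent.Lib.Amalgam.RootSet Cfsg.Agent.Lib.Amalgam.CommCase
open Cfsg.Agent.Lib.Amalgam.Lines Cfsg.Agent.Lib.Amalgam.Components Cfsg.Agent.Lib.Amalgam.Opposite
open Cfsg.Agent.Lib.Amalgam.Quadratic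

variable {G : Type*} [Group G] {S : Set (Subgroup G)}

lemma linePartners_symm {A B : Subgroup G} (hA : A ∈ S) (h : B ∈ linePartners S A) : A ∈ linePartners S B := by
  obtain ⟨⟨-, hne, hc⟩, hp⟩ := h
  refine ⟨⟨hA, hne.symm, by rw [Subgroup.commutator_comm]; exact hc⟩, by rw [sup_comm]; exact hp⟩

/-- The rank one group `⟨B, D⟩` of the configuration `Opp` is special. -/
theorem Opp.special {A B C D : Subgroup G} (h : Opp S A B C D) : IsSpecialRankOnePair B D := by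
  refine special_of_conj_module (M := A ⊔ C) h.rank_one ?_ (fun x hx m hm => h.conj_n_mem hx hm) ?_ ?_
  · intro x hx y hy
    have hAc := h.hS.commutative A h.hA
    have hCc := h.hS.commutative C h.hC
    obtain ⟨a, ha, c, hc, rfl⟩ := mem_sup_of_comm (fun u hu v hv => (h.comm_c_a hv hu).symm) hx
    obtain ⟨a', ha', c', hc', rfl⟩ := mem_sup_of_comm (fun u hu v hv => (h.comm_c_a hv hu).symm) hy
    have c1 : Commute a a' := comm_of_isMulCommutative hAc ha ha'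
    have c2 : Commute a c' := (h.comm_c_a hc' ha).symm
    have c3 : Commute c a' := h.comm_c_a hc ha'
    have c4 : Commute c c' := comm_of_isMulCommutative hCc hc hc'
    exact ((c1.mul_right c2).mul_left (c3.mul_right c4)).eq
  · -- `b` and `b'` act quadratically
    intro b hb b' hb' m hm
    obtain ⟨a, ha, c, hc, rfl⟩ := mem_sup_of_comm (fun u hu v hv => (h.comm_c_a hv hu).symm) hm
    have h1 : b * c * b⁻¹ = c := by rw [← h.comm_c_b hc hb]; group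
    have e : b * (a * c) * b⁻¹ * (a * c)⁻¹ = b * a * b⁻¹ * a⁻¹ := by
      have e1 : b * (a * c) * b⁻¹ * (a * c)⁻¹ = (b * a * b⁻¹) * (b * c * b⁻¹) * (a * c)⁻¹ := by group
      rw [e1, h1]
      group
    rw [e]
    have hm' := h.mem_c' ha hb
    rw [← h.comm_c_b hm' hb']
    group
  · obtain ⟨b, hb, hb1⟩ := h.exists_b
    obtain ⟨d, hd, hd1⟩ := h.exists_d
    obtain ⟨a, ha, ha1⟩ : ∃ a ∈ A, a ≠ 1 := by
      by_contra hc
      push Not at hc
      exact h.hS.ne_bot A h.hA (eq_bot_iff.2 fun y hy => by simpa using hc y hy)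
    refine ⟨b, (le_sup_left : B ≤ B ⊔ D) hb, d, (le_sup_right : D ≤ B ⊔ D) hd, a,
      (le_sup_left : A ≤ A ⊔ C) ha, ?_⟩
    have hc : b * a * b⁻¹ * a⁻¹ ∈ C := h.mem_c' ha hb
    have hc1 : b * a * b⁻¹ * a⁻¹ ≠ 1 := h.comm_ne_one_ba ha ha1 hb hb1
    intro he
    apply h.comm_ne_one_dc hc hc1 hd hd1
    rw [he]; group

/-- A line with two members in `Ω_P` contains a member `T` with `⁅T, P⁆ ∈ S`. -/
lemma exists_case_of_two_partners (hS : IsRootSubgroupSet S) {P M M' : Subgroup G} (hP : P ∈ S) (hM : M ∈ S) (hM' : M' ∈ S)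
    (hPM : IsRankOnePair P M) (hPM' : IsRankOnePair P M') (hcomm : ⁅M, M'⁆ = ⊥) (hinf : M ⊓ M' = ⊥)
    (hcover : ∀ x ∈ M ⊔ M', x ≠ 1 → ∃ T ∈ S, T ≤ M ⊔ M' ∧ x ∈ T) :
    ∃ T ∈ S, T ≤ M ⊔ M' ∧ T ≠ M ∧ RootCommutatorCase S T P := by
  obtain ⟨p, hp, hp1⟩ := exists_ne_one_left hPM
  obtain ⟨z, hz, hz1, hze⟩ := cond hPM hp hp1
  obtain ⟨z', hz', hz1', hze'⟩ := cond hPM' hp hp1
  obtain ⟨t, htd⟩ : ∃ t, t = z'⁻¹ * z := ⟨_, rfl⟩
  have ht1 : t ≠ 1 := by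
    intro he
    rw [htd, inv_mul_eq_one] at he
    have h1 : z ∈ M ⊓ M' := Subgroup.mem_inf.2 ⟨hz, he ▸ hz'⟩
    rw [hinf] at h1
    exact hz1 (by simpa using h1)
  have htL : t ∈ M ⊔ M' := by
    rw [htd]
    exact (M ⊔ M').mul_mem ((le_sup_right : M' ≤ M ⊔ M') (M'.inv_mem hz')) ((le_sup_left : M ≤ M ⊔ M') hz)
  obtain ⟨T, hT, hTle, htT⟩ := hcover t htL ht1
  have hcom : ⁅conjBy M p, conjBy M' p⁆ = ⊥ := by
    rw [← conjBy_commutator, hcomm, conjBy_bot]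
  have hPt : ∀ u ∈ P, ∀ v ∈ P, (t * u * t⁻¹) * v = v * (t * u * t⁻¹) := by
    intro u hu v hv
    have h1 : z * u * z⁻¹ ∈ conjBy M p := by
      rw [← hze]; exact conj_mem_conjBy hu
    have h2 : z' * v * z'⁻¹ ∈ conjBy M' p := by
      rw [← hze']; exact conj_mem_conjBy hv
    have h3 := comm_of_commutator_eq_bot hcom h1 h2
    rw [htd]
    calc (z'⁻¹ * z * u * (z'⁻¹ * z)⁻¹) * v = z'⁻¹ * ((z * u * z⁻¹) * (z' * v * z'⁻¹)) * z' := by group
      _ = z'⁻¹ * ((z' * v * z'⁻¹) * (z * u * z⁻¹)) * z' := by rw [h3]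
      _ = v * (z'⁻¹ * z * u * (z'⁻¹ * z)⁻¹) := by group
  have hzz : z * z' = z' * z := comm_of_commutator_eq_bot hcomm hz hz'
  have htz : t * z' = z := by
    rw [htd, mul_assoc, hzz]; group
  rcases hS.pair T hT P hP with h1 | h1 | h1
  · exfalso
    have htM' : ∀ x ∈ M', t * x = x * t := by
      intro x hx
      have c1 : Commute z' x := comm_of_isMulCommutative (hS.commutative M' hM') hz' hx
      have c2 : Commute z x := comm_of_commutator_eq_bot hcomm hz hx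
      rw [htd]
      exact ((c1.inv_left).mul_left c2).eq
    have htP : ∀ x ∈ P, t * x = x * t := fun x hx => comm_of_commutator_eq_bot h1 htT hx
    refine root_central_translate hS hP (RankOnePair_symm hPM') htM' htP ht1 hz' hz1' hM ?_ ?_
    · rw [htz]; exact hz
    · rw [htz]; exact hz1
  · exfalso
    have hne : conjBy P t ≠ P := conjBy_right_ne h1 htT ht1
    have hm1 : conjBy P t ∈ unipotentSubgroups T P := (mem_unipotent_iff h1).2 (Or.inr ⟨t, htT, rfl⟩)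
    have hm2 : P ∈ unipotentSubgroups T P := right_mem_unipotent h1
    have h2 := eq_one_of_comm_of_mem_ne h1 hm1 hm2 hne (conj_mem_conjBy hp) hp hp1 (hPt p hp p hp)
    apply hp1
    have e : p = t⁻¹ * (t * p * t⁻¹) * t := by group
    rw [e, h2]; group
  · refine ⟨T, hT, hTle, ?_, h1⟩
    rintro rfl
    exact not_rankOne_of_commutator_mem hS hT hP h1.1 (RankOnePair_symm hPM)

/-- Existence of good partners: if `⁅A, D⁆ ∈ S` and `B` is a partner of `A`, some line partner of `A` is in `Ψ_B`. -/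
lemma exists_good (hS : IsRootSubgroupSet S) {A B D : Subgroup G} (hA : A ∈ S) (hB : B ∈ S) (hD : D ∈ S)
    (hAB : IsRankOnePair A B) (hAD : ⁅A, D⁆ ∈ S) :
    ∃ C ∈ linePartners S A, C ∈ commutatorPartners S B := by
  have hcc : RootCommutatorCase S A D := commCase_of_mem hS hA hD hAD
  have hC₀L : ⁅A, D⁆ ∈ linePartners S A := linePartners_symm hAD (mem_linePartners hS hcc hB hAB hA)
  have hcomm : ⁅A, ⁅A, D⁆⁆ = ⊥ := commutator_eq_bot_of_comm (fun a ha c hc =>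
    (comm_central hcc hc ((le_sup_left : A ≤ A ⊔ D) ha)).symm)
  rcases hS.pair _ hAD B hB with h1 | h1 | h1
  · exact (commutator_not_comm_partner hS hcc hB hAB hA h1).elim
  · have hpart := partition hS hcc hB hAB hA
    obtain ⟨T, hT, hTle, hTne, hTc⟩ := exists_case_of_two_partners hS hB hA hAD (RankOnePair_symm hAB)
      (RankOnePair_symm h1) hcomm (inf_commutator hS hcc hB hAB) (fun x hx hx1 => by
        obtain ⟨T, hT, hxT⟩ := hpart.2.1 x hx hx1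
        exact ⟨T, hT.1, hT.2, hxT⟩)
    refine ⟨T, ?_, hT, ?_⟩
    · -- `T` is one of the `A^v`
      have hTm : T ∈ membersIn S (A ⊔ ⁅A, D⁆) := ⟨hT, hTle⟩
      rw [members_eq hS hcc hB hAB hA] at hTm
      rcases hTm with ⟨v, hv, rfl⟩ | h2
      · have hv1 : v ≠ 1 := by
          rintro rfl
          exact hTne (conjBy_one A)
        have hsup : A ⊔ conjBy A v = A ⊔ ⁅A, D⁆ := by
          apply le_antisymm
          · exact sup_le le_sup_left hTle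
          · apply sup_le le_sup_left
            intro c hc
            obtain ⟨u, hu, huc⟩ := exists_comm_left hcc hv hv1 hc
            have e : u * v * u⁻¹ * v⁻¹ = u * (v * u⁻¹ * v⁻¹) := by group
            rw [← huc, e]
            exact (A ⊔ conjBy A v).mul_mem ((le_sup_left : A ≤ A ⊔ conjBy A v) hu)
              ((le_sup_right : conjBy A v ≤ A ⊔ conjBy A v) (conj_mem_conjBy (A.inv_mem hu)))
        refine ⟨⟨hT, hTne, ?_⟩, ?_⟩
        · apply commutator_eq_bot_of_comm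
          intro a ha t ht
          obtain ⟨a', ha', c, hc, rfl⟩ := mem_sup_of_comm (fun u hu v hv => comm_of_commutator_eq_bot hcomm hu hv)
            (hTle ht)
          have c1 : Commute a a' := comm_of_isMulCommutative (hS.commutative A hA) ha ha'
          have c2 : Commute a c := comm_of_commutator_eq_bot hcomm ha hc
          exact (c1.mul_right c2).eq
        · rw [hsup]
          exact hpart
      · rw [Set.mem_singleton_iff] at h2
        rw [h2] at hTc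
        exact absurd hTc.1 (by
          intro hm
          exact not_rankOne_of_commutator_mem hS hAD hB hm h1)
    · show ⁅B, T⁆ ∈ S
      rw [Subgroup.commutator_comm]
      exact hTc.1
  · exact ⟨_, hC₀L, hAD, by rw [Subgroup.commutator_comm]; exact h1.1⟩

/-- From a good pair to the configuration `Opp`. -/
theorem opp_of_good (hS : IsRootSubgroupSet S) {A B C : Subgroup G} (hA : A ∈ S) (hB : B ∈ S) (hC : C ∈ S)
    (hAB : IsRankOnePair A B) (hAC : ⁅A, C⁆ = ⊥) (hBC : ⁅B, C⁆ ∈ S) :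
    Opp S ⁅B, C⁆ A ⁅A, ⁅B, C⁆⁆ B := by
  have hBA : IsRankOnePair B A := RankOnePair_symm hAB
  have hcBC : RootCommutatorCase S B C := commCase_of_mem hS hB hC hBC
  have hEc_b : ∀ e ∈ ⁅B, C⁆, ∀ x ∈ B, e * x = x * e := fun e he x hx =>
    comm_central hcBC he ((le_sup_left : B ≤ B ⊔ C) hx)
  have hEc_c : ∀ e ∈ ⁅B, C⁆, ∀ x ∈ C, e * x = x * e := fun e he x hx =>
    comm_central hcBC he ((le_sup_right : C ≤ B ⊔ C) hx)
  have hac : ∀ a ∈ A, ∀ c ∈ C, a * c = c * a := fun a ha c hc => comm_of_commutator_eq_bot hAC ha hc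
  have hne1 : ∀ b ∈ B, b ≠ 1 → ∀ c ∈ C, c ≠ 1 → b * c * b⁻¹ * c⁻¹ ≠ 1 := fun b hb hb1 c hc hc1 =>
    comm_ne_one hS hcBC hA hBA hB hb hb1 hc hc1
  obtain ⟨b₀, hb₀, hb₀1⟩ := exists_ne_one_right hAB
  obtain ⟨a₀, ha₀, ha₀1⟩ := exists_ne_one_left hAB
  -- not commuting
  have hnc : ⁅A, ⁅B, C⁆⁆ ≠ ⊥ := by
    intro hc
    apply hS.ne_bot _ hBC
    have h1 : ∀ a ∈ A, ∀ b ∈ B, ∀ c ∈ C, (b⁻¹ * a * b) * c = c * (b⁻¹ * a * b) := by
      intro a ha b hb c hcC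
      have hm : b * c * b⁻¹ * c⁻¹ ∈ ⁅B, C⁆ := comm_mem hcBC hb hcC
      have c1 : Commute a (b * c * b⁻¹ * c⁻¹) := comm_of_commutator_eq_bot hc ha hm
      have c2 : Commute a c := hac a ha c hcC
      have c3 : Commute a (b * c * b⁻¹) := by
        have e : b * c * b⁻¹ = (b * c * b⁻¹ * c⁻¹) * c := by group
        rw [e]
        exact c1.mul_right c2
      calc (b⁻¹ * a * b) * c = b⁻¹ * (a * (b * c * b⁻¹)) * b := by group
        _ = b⁻¹ * ((b * c * b⁻¹) * a) * b := by rw [c3.eq]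
        _ = c * (b⁻¹ * a * b) := by group
    -- `C` commutes with `A` and `A^{b₀⁻¹}`, hence with `⟨A, B⟩`
    have hne : A ≠ conjBy A b₀⁻¹ := (conjBy_left_ne hAB (B.inv_mem hb₀) (by simpa using hb₀1)).symm
    have hm1 : A ∈ unipotentSubgroups A B := left_mem_unipotent
    have hm2 : conjBy A b₀⁻¹ ∈ unipotentSubgroups A B :=
      conj_mem_unipotent ((le_sup_right : B ≤ A ⊔ B) (B.inv_mem hb₀)) hm1
    have hsup := sup_eq_of_mem_ne hAB hm1 hm2 hne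
    have hle : A ⊔ B ≤ Subgroup.centralizer (C : Set G) := by
      rw [← hsup]
      apply sup_le
      · intro a ha
        rw [Subgroup.mem_centralizer_iff]
        intro c hcC
        exact (hac a ha c hcC).symm
      · intro x hx
        rw [Subgroup.mem_centralizer_iff]
        intro c hcC
        rw [mem_conjBy] at hx
        have h2 := h1 _ hx b₀ hb₀ c hcC
        have e : b₀⁻¹ * (b₀⁻¹⁻¹ * x * b₀⁻¹) * b₀ = x := by group
        rw [e] at h2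
        exact h2.symm
    apply commutator_eq_bot_of_comm
    intro b hb c hcC
    have := hle ((le_sup_right : B ≤ A ⊔ B) hb)
    rw [Subgroup.mem_centralizer_iff] at this
    exact (this c hcC).symm
  -- not rank one
  have hnr : ¬ IsRankOnePair A ⁅B, C⁆ := by
    intro hr
    obtain ⟨b, hb, hb1, hab⟩ := cond hAB ha₀ ha₀1
    -- `(C, A^b)` is in the commutator case
    have h1 : ⁅C, conjBy A b⁆ ∈ S := by
      rw [hab]
      have hCa : conjBy C a₀ = C := conjBy_eq_self_of_comm (fun u hu => hac a₀ ha₀ u hu)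
      have : ⁅C, conjBy B a₀⁆ = conjBy ⁅C, B⁆ a₀ := by
        rw [conjBy_commutator, hCa]
      rw [this, Subgroup.commutator_comm]
      exact hS.conj_mem _ hBC a₀
    -- `(C, A^b)` is rank one
    obtain ⟨x, hx, hx1⟩ : ∃ x ∈ C, x ≠ 1 := by
      by_contra hc
      push Not at hc
      exact hS.ne_bot C hC (eq_bot_iff.2 fun y hy => by simpa using hc y hy)
    have hb' : b⁻¹ ∈ B := B.inv_mem hb
    have hb'1 : b⁻¹ ≠ 1 := by simpa using hb1
    have hem : b⁻¹ * x * b⁻¹⁻¹ * x⁻¹ ∈ ⁅B, C⁆ := comm_mem hcBC hb' hx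
    have he1 : b⁻¹ * x * b⁻¹⁻¹ * x⁻¹ ≠ 1 := hne1 _ hb' hb'1 x hx hx1
    have hprod : (b⁻¹ * x * b⁻¹⁻¹ * x⁻¹) * x = b⁻¹ * x * b⁻¹⁻¹ := by group
    have hEC : ⁅⁅B, C⁆, C⁆ = ⊥ := commutator_eq_bot_of_comm (fun e he c hc => hEc_c e he c hc)
    rcases line_rank_one hS (E := conjBy C b⁻¹) hBC hC (hS.conj_mem C hC b⁻¹) hA (RankOnePair_symm hr) hEC hem he1 hx hx1
        (by rw [hprod]; exact conj_mem_conjBy hx)
        (by
          rw [hprod]
          intro he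
          apply hx1
          have e : x = b * (b⁻¹ * x * b⁻¹⁻¹) * b⁻¹ := by group
          rw [e, he]; group) with h2 | h2
    · -- `C` commutes with `A`
      exact hx1 (eq_one_of_comm h2 hx ha₀ ha₀1 (hac a₀ ha₀ x hx).symm)
    · have h3 := rankOnePair_conjBy h2 b
      have e : conjBy (conjBy C b⁻¹) b = C := by
        rw [conjBy_conjBy]; simp
      rw [e] at h3
      exact not_rankOne_of_commutator_mem hS hC (hS.conj_mem A hA b) h1 h3
  -- so `(A, E)` is in the commutator case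
  have hcAE : RootCommutatorCase S A ⁅B, C⁆ := by
    rcases hS.pair A hA _ hBC with h1 | h1 | h1
    · exact absurd h1 hnc
    · exact absurd h1 hnr
    · exact h1
  have hFS : ⁅A, ⁅B, C⁆⁆ ∈ S := hcAE.1
  have hFc_a : ∀ f ∈ ⁅A, ⁅B, C⁆⁆, ∀ x ∈ A, f * x = x * f := fun f hf x hx =>
    comm_central hcAE hf ((le_sup_left : A ≤ A ⊔ ⁅B, C⁆) hx)
  have hFc_e : ∀ f ∈ ⁅A, ⁅B, C⁆⁆, ∀ x ∈ ⁅B, C⁆, f * x = x * f := fun f hf x hx =>
    comm_central hcAE hf ((le_sup_right : ⁅B, C⁆ ≤ A ⊔ ⁅B, C⁆) hx)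
  -- the key computation
  have hkey : ∀ {a b c : G}, a ∈ A → c ∈ C → (b⁻¹ * (a * b * a⁻¹) * b) ∈ A →
      b * ((b⁻¹ * (a * b * a⁻¹) * b) * (b⁻¹ * c * b * c⁻¹) * (b⁻¹ * (a * b * a⁻¹) * b)⁻¹ * (b⁻¹ * c * b * c⁻¹)⁻¹) * b⁻¹ =
        a * (b * c * b⁻¹ * c⁻¹) * a⁻¹ := by
    intro a b c ha hcC ha₁
    obtain ⟨a₁, ha₁d⟩ : ∃ a₁, a₁ = b⁻¹ * (a * b * a⁻¹) * b := ⟨_, rfl⟩
    rw [← ha₁d] at ha₁ ⊢
    have hc1 : a * c = c * a := hac a ha c hcC
    have hc2 : a₁ * c = c * a₁ := hac a₁ ha₁ c hcC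
    have hc3 : c⁻¹ * a₁⁻¹ * c = a₁⁻¹ := by
      have : a₁⁻¹ * c = c * a₁⁻¹ := ((Commute.inv_left (hc2 : Commute a₁ c))).eq
      rw [mul_assoc, this]; group
    have hc4 : a * c * a⁻¹ = c := by rw [hc1]; group
    have e1 : a * b * a⁻¹ = b * a₁ * b⁻¹ := by rw [ha₁d]; group
    obtain ⟨w, hw⟩ : ∃ w, w = b⁻¹ * c * b := ⟨_, rfl⟩
    have e2 : b⁻¹ * c * b * c⁻¹ = w * c⁻¹ := by rw [hw]
    rw [e2]
    have e3 : a₁ * (w * c⁻¹) * a₁⁻¹ * (w * c⁻¹)⁻¹ = a₁ * w * a₁⁻¹ * w⁻¹ := by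
      calc a₁ * (w * c⁻¹) * a₁⁻¹ * (w * c⁻¹)⁻¹ = a₁ * w * (c⁻¹ * a₁⁻¹ * c) * w⁻¹ := by group
        _ = a₁ * w * a₁⁻¹ * w⁻¹ := by rw [hc3]
    rw [e3]
    calc b * (a₁ * w * a₁⁻¹ * w⁻¹) * b⁻¹ = (b * a₁ * b⁻¹) * c * (b * a₁ * b⁻¹)⁻¹ * c⁻¹ := by rw [hw]; group
      _ = (a * b * a⁻¹) * c * (a * b * a⁻¹)⁻¹ * c⁻¹ := by rw [e1]
      _ = (a * b * a⁻¹) * (a * c * a⁻¹) * (a * b * a⁻¹)⁻¹ * (a * c * a⁻¹)⁻¹ := by rw [hc4]
      _ = a * (b * c * b⁻¹ * c⁻¹) * a⁻¹ := by group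
  -- parametrization of `F` for fixed `b`
  have hpar : ∀ {b f : G}, b ∈ B → b ≠ 1 → f ∈ ⁅A, ⁅B, C⁆⁆ → ∃ a ∈ A, ∃ c ∈ C, ∃ e₁ ∈ ⁅B, C⁆, e₁ = b * c * b⁻¹ * c⁻¹ ∧
      b * f * b⁻¹ = a * e₁ * a⁻¹ := by
    intro b f hb hb1 hf
    obtain ⟨a, ha, ha1, hab⟩ := cond' hAB hb hb1
    have ha₁ : b⁻¹ * (a * b * a⁻¹) * b ∈ A := by
      have : a * b * a⁻¹ ∈ conjBy B a := conj_mem_conjBy hb
      rw [← hab, mem_conjBy] at this
      exact this
    have ha₁1 : b⁻¹ * (a * b * a⁻¹) * b ≠ 1 := by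
      intro he
      apply hb1
      have e : b = a⁻¹ * (b * (b⁻¹ * (a * b * a⁻¹) * b) * b⁻¹) * a := by group
      rw [e, he]; group
    obtain ⟨e₀, he₀, he₀f⟩ := exists_comm_right hcAE ha₁ ha₁1 hf
    obtain ⟨c, hcC, hce⟩ := exists_comm_right hcBC (B.inv_mem hb) (by simpa using hb1) he₀
    have hce' : e₀ = b⁻¹ * c * b * c⁻¹ := by rw [← hce]; group
    refine ⟨a, ha, c, hcC, _, comm_mem hcBC hb hcC, rfl, ?_⟩
    rw [← hkey ha hcC ha₁, ← hce', he₀f]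
  -- `B` normalizes `E F`
  have hnorm : ∀ b ∈ B, ∀ f ∈ ⁅A, ⁅B, C⁆⁆, b * f * b⁻¹ ∈ ⁅A, ⁅B, C⁆⁆ ⊔ ⁅B, C⁆ := by
    intro b hb f hf
    by_cases hb1 : b = 1
    · rw [hb1]
      have : (1 : G) * f * (1 : G)⁻¹ = f := by group
      rw [this]
      exact (le_sup_left : ⁅A, ⁅B, C⁆⁆ ≤ ⁅A, ⁅B, C⁆⁆ ⊔ ⁅B, C⁆) hf
    · obtain ⟨a, ha, c, hcC, e₁, he₁, -, he⟩ := hpar hb hb1 hf
      rw [he]
      have e : a * e₁ * a⁻¹ = (a * e₁ * a⁻¹ * e₁⁻¹) * e₁ := by group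
      rw [e]
      exact (⁅A, ⁅B, C⁆⁆ ⊔ ⁅B, C⁆).mul_mem ((le_sup_left : ⁅A, ⁅B, C⁆⁆ ≤ ⁅A, ⁅B, C⁆⁆ ⊔ ⁅B, C⁆) (comm_mem hcAE ha he₁))
        ((le_sup_right : ⁅B, C⁆ ≤ ⁅A, ⁅B, C⁆⁆ ⊔ ⁅B, C⁆) he₁)
  -- the pair `(F, B)` is in the commutator case
  have hcFB : RootCommutatorCase S ⁅A, ⁅B, C⁆⁆ B := by
    rcases hS.pair _ hFS B hB with h1 | h1 | h1
    · exact (commutator_not_comm_partner hS hcAE hB hAB hA h1).elim
    · exfalso
      obtain ⟨f, hf, hf1⟩ := exists_ne_one_left h1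
      have hne : conjBy ⁅A, ⁅B, C⁆⁆ b₀ ≠ ⁅A, ⁅B, C⁆⁆ := conjBy_left_ne h1 hb₀ hb₀1
      have hm1 : ⁅A, ⁅B, C⁆⁆ ∈ unipotentSubgroups ⁅A, ⁅B, C⁆⁆ B := left_mem_unipotent
      have hm2 : conjBy ⁅A, ⁅B, C⁆⁆ b₀ ∈ unipotentSubgroups ⁅A, ⁅B, C⁆⁆ B :=
        conj_mem_unipotent ((le_sup_right : B ≤ ⁅A, ⁅B, C⁆⁆ ⊔ B) hb₀) hm1
      have hf'1 : b₀ * f * b₀⁻¹ ≠ 1 := by
        intro he
        apply hf1
        have e : f = b₀⁻¹ * (b₀ * f * b₀⁻¹) * b₀ := by group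
        rw [e, he]; group
      have hcomm : f * (b₀ * f * b₀⁻¹) = (b₀ * f * b₀⁻¹) * f := by
        have hle : ⁅A, ⁅B, C⁆⁆ ⊔ ⁅B, C⁆ ≤ Subgroup.centralizer ({f} : Set G) := by
          apply sup_le
          · intro x hx
            rw [Subgroup.mem_centralizer_singleton_iff]
            exact comm_of_isMulCommutative (hS.commutative _ hFS) hx hf
          · intro x hx
            rw [Subgroup.mem_centralizer_singleton_iff]
            exact (hFc_e f hf x hx).symm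
        have := hle (hnorm b₀ hb₀ f hf)
        rw [Subgroup.mem_centralizer_singleton_iff] at this
        exact this.symm
      exact hf1 (eq_one_of_comm_of_mem_ne h1 hm1 hm2 hne.symm hf (conj_mem_conjBy hf) hf'1 hcomm)
    · exact h1
  have hcBF : RootCommutatorCase S B ⁅A, ⁅B, C⁆⁆ :=
    commCase_of_mem hS hB hFS (by rw [Subgroup.commutator_comm]; exact hcFB.1)
  -- the commutator equals the expected element
  have hval : ∀ {b f a e₁ : G}, b ∈ B → b ≠ 1 → f ∈ ⁅A, ⁅B, C⁆⁆ → a ∈ A → e₁ ∈ ⁅B, C⁆ →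
      b * f * b⁻¹ = a * e₁ * a⁻¹ → b * f * b⁻¹ * f⁻¹ = e₁ := by
    intro b f a e₁ hb hb1 hf ha he₁ he
    have hf₁ : a * e₁ * a⁻¹ * e₁⁻¹ ∈ ⁅A, ⁅B, C⁆⁆ := comm_mem hcAE ha he₁
    obtain ⟨y, hyd⟩ : ∃ y, y = (a * e₁ * a⁻¹ * e₁⁻¹) * f⁻¹ := ⟨_, rfl⟩
    have hy : y ∈ ⁅A, ⁅B, C⁆⁆ := by
      rw [hyd]; exact (⁅A, ⁅B, C⁆⁆).mul_mem hf₁ ((⁅A, ⁅B, C⁆⁆).inv_mem hf)
    have hk : b * f * b⁻¹ * f⁻¹ = y * e₁ := by
      have c1 : e₁ * f⁻¹ = f⁻¹ * e₁ := ((Commute.inv_left (hFc_e f hf e₁ he₁ : Commute f e₁))).eq.symm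
      rw [he, hyd]
      calc a * e₁ * a⁻¹ * f⁻¹ = (a * e₁ * a⁻¹ * e₁⁻¹) * (e₁ * f⁻¹) := by group
        _ = (a * e₁ * a⁻¹ * e₁⁻¹) * (f⁻¹ * e₁) := by rw [c1]
        _ = _ := by group
    have hkm : b * f * b⁻¹ * f⁻¹ ∈ ⁅B, ⁅A, ⁅B, C⁆⁆⁆ := comm_mem hcBF hb hf
    have hbk : Commute b (b * f * b⁻¹ * f⁻¹) :=
      (comm_central hcBF hkm ((le_sup_left : B ≤ B ⊔ ⁅A, ⁅B, C⁆⁆) hb)).symm
    have hbe : Commute b e₁ := (hEc_b e₁ he₁ b hb).symm
    have hby : b * y = y * b := by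
      have e : y = (b * f * b⁻¹ * f⁻¹) * e₁⁻¹ := by rw [hk]; group
      rw [e]
      exact (hbk.mul_right hbe.inv_right).eq
    have hy1 : y = 1 := by
      by_contra hy1
      apply comm_ne_one hS hcBF hA hBA hB hb hb1 hy hy1
      rw [hby]; group
    rw [hk, hy1, one_mul]
  have hDC : ⁅B, ⁅A, ⁅B, C⁆⁆⁆ = ⁅B, C⁆ := by
    apply le_antisymm
    · rw [Subgroup.commutator_le]
      intro b hb f hf
      rw [commutatorElement_def]
      by_cases hb1 : b = 1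
      · rw [hb1]
        have : (1 : G) * f * (1 : G)⁻¹ * f⁻¹ = 1 := by group
        rw [this]
        exact Subgroup.one_mem _
      · obtain ⟨a, ha, c, hcC, e₁, he₁, -, he⟩ := hpar hb hb1 hf
        rw [hval hb hb1 hf ha he₁ he]
        exact he₁
    · intro e he
      obtain ⟨a, ha, ha1, hab⟩ := cond' hAB hb₀ hb₀1
      obtain ⟨c, hcC, hce⟩ := exists_comm_right hcBC hb₀ hb₀1 he
      have ha₁ : b₀⁻¹ * (a * b₀ * a⁻¹) * b₀ ∈ A := by
        have : a * b₀ * a⁻¹ ∈ conjBy B a := conj_mem_conjBy hb₀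
        rw [← hab, mem_conjBy] at this
        exact this
      have he₀ : b₀⁻¹ * c * b₀ * c⁻¹ ∈ ⁅B, C⁆ := by
        have := comm_mem hcBC (B.inv_mem hb₀) hcC
        simpa using this
      have hf := comm_mem hcAE ha₁ he₀
      have h1 := hval hb₀ hb₀1 hf ha he (by rw [hkey ha hcC ha₁, hce])
      rw [← h1]
      exact comm_mem hcBF hb₀ hf
  exact ⟨hS, hBC, hA, hFS, hB, by rw [Subgroup.commutator_comm], hDC⟩

/-- A rank one pair with a good partner is special. -/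
theorem special_of_good (hS : IsRootSubgroupSet S) {A B C : Subgroup G} (hA : A ∈ S) (hB : B ∈ S) (hC : C ∈ S)
    (hAB : IsRankOnePair A B) (hAC : ⁅A, C⁆ = ⊥) (hBC : ⁅B, C⁆ ∈ S) : IsSpecialRankOnePair A B :=
  Opp.special (opp_of_good hS hA hB hC hAB hAC hBC)

/-- In a class with a commutator pair, each member has a commutator partner. -/
lemma exists_commutator_partner (hS : IsRootSubgroupClass S) (h : ∃ A ∈ S, ∃ B ∈ S, RootCommutatorCase S A B)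
    {A : Subgroup G} (hA : A ∈ S) : ∃ D ∈ S, ⁅A, D⁆ ∈ S := by
  obtain ⟨A₁, hA₁, B₁, hB₁, hc⟩ := h
  obtain ⟨g, rfl⟩ := hS.2.2 A₁ hA₁ A hA
  refine ⟨conjBy B₁ g, hS.1.conj_mem B₁ hB₁ g, ?_⟩
  rw [← conjBy_commutator]
  exact hS.1.conj_mem _ hc.1 g

/-- In a class with a rank one pair, each member has a rank one partner. -/
lemma exists_rank_one_partner (hS : IsRootSubgroupClass S) (h : ∃ A ∈ S, ∃ B ∈ S, IsRankOnePair A B)
    {A : Subgroup G} (hA : A ∈ S) : ∃ D ∈ S, IsRankOnePair A D := by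
  obtain ⟨A₁, hA₁, B₁, hB₁, hc⟩ := h
  obtain ⟨g, rfl⟩ := hS.2.2 A₁ hA₁ A hA
  exact ⟨conjBy B₁ g, hS.1.conj_mem B₁ hB₁ g, rankOnePair_conjBy hc g⟩


end Cfsg.Agent.Lib.Amalgam.Good
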