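import Cfsg.Agent.Lib.Amalgam.Components

/-!
# Homomorphic images of sets of abstract root subgroups
-/

set_option autoImplicit false

namespace Cfsg.Agent.Lib.Amalgam.Image

open Cfsg Cfsg.Agent.Lib.Amalgam.RankOne Cfsg.Agent.Lib.Amalgam.RootSet Cfsg.Agent.Lib.Amalgam.CommCase
open Cfsg.Agent.Lib.Amalgam.Lines Cfsg.Agent.Lib.Amalgam.Components

variable {G H : Type*} [Group G] [Group H] {S : Set (Subgroup G)}

lemma map_conjBy (f : G →* H) (A : Subgroup G) (g : G) : (conjBy A g).map f = conjBy (A.map f) (f g) := by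
  ext x
  constructor
  · rintro ⟨_, ⟨a, ha, rfl⟩, rfl⟩
    exact ⟨f a, ⟨a, ha, rfl⟩, by simp [MulAut.conj_apply]⟩
  · rintro ⟨_, ⟨a, ha, rfl⟩, rfl⟩
    exact ⟨_, ⟨a, ha, rfl⟩, by simp [MulAut.conj_apply]⟩

lemma isNilpotent_map {A : Subgroup G} (hA : Group.IsNilpotent A) (f : G →* H) : Group.IsNilpotent (A.map f) :=
  nilpotent_of_surjective (f.subgroupMap A) (f.subgroupMap_surjective A)

lemma isMulCommutative_map {A : Subgroup G} (hA : IsMulCommutative A) (f : G →* H) : IsMulCommutative (A.map f) := by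
  refine ⟨⟨?_⟩⟩
  rintro ⟨_, a, ha, rfl⟩ ⟨_, b, hb, rfl⟩
  apply Subtype.ext
  show f a * f b = f b * f a
  rw [← map_mul, ← map_mul, comm_of_isMulCommutative hA ha hb]

/-- The one-sided rank one condition passes to the image when no non-trivial element of the partner in the kernel
exists. -/
lemma map_cond {A B : Subgroup G} (h : RankOneCondition A B) (f : G →* H)
    (hk : ∀ b ∈ B, b ≠ 1 → f b ≠ 1) : RankOneCondition (A.map f) (B.map f) := by
  rintro _ ⟨a, ha, rfl⟩ ha1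
  have ha1' : a ≠ 1 := by
    rintro rfl
    exact ha1 (map_one f)
  obtain ⟨b, hb, hb1, he⟩ := h a ha ha1'
  refine ⟨f b, ⟨b, hb, rfl⟩, hk b hb hb1, ?_⟩
  rw [← map_inv, ← map_inv, ← map_conjBy, ← map_conjBy, he]

/-- A rank one pair is mapped to a rank one pair, or collapses. -/
lemma map_rank_one {A B : Subgroup G} (h : IsRankOnePair A B) (f : G →* H) :
    IsRankOnePair (A.map f) (B.map f) ∨ A.map f = B.map f := by
  have hnorm : ∀ x ∈ A ⊔ B, ∀ n ∈ f.ker ⊓ (A ⊔ B), x * n * x⁻¹ ∈ f.ker ⊓ (A ⊔ B) := by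
    intro x hx n hn
    obtain ⟨hn1, hn2⟩ := Subgroup.mem_inf.1 hn
    refine Subgroup.mem_inf.2 ⟨?_, (A ⊔ B).mul_mem ((A ⊔ B).mul_mem hx hn2) ((A ⊔ B).inv_mem hx)⟩
    rw [MonoidHom.mem_ker] at hn1 ⊢
    simp [hn1]
  have hnorm' : ∀ x ∈ B ⊔ A, ∀ n ∈ f.ker ⊓ (B ⊔ A), x * n * x⁻¹ ∈ f.ker ⊓ (B ⊔ A) := by
    rw [sup_comm B A]; exact hnorm
  have hsupA : (f.ker ⊓ (A ⊔ B) ⊔ A).map f = A.map f := by
    rw [Subgroup.map_sup]
    apply le_antisymm
    · apply sup_le _ le_rfl
      rintro _ ⟨n, hn, rfl⟩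
      have : f n = 1 := (Subgroup.mem_inf.1 hn).1
      rw [this]
      exact Subgroup.one_mem _
    · exact le_sup_right
  have hsupB : (f.ker ⊓ (B ⊔ A) ⊔ B).map f = B.map f := by
    rw [Subgroup.map_sup]
    apply le_antisymm
    · apply sup_le _ le_rfl
      rintro _ ⟨n, hn, rfl⟩
      have : f n = 1 := (Subgroup.mem_inf.1 hn).1
      rw [this]
      exact Subgroup.one_mem _
    · exact le_sup_right
  by_cases h1 : ∀ n ∈ f.ker ⊓ (A ⊔ B), ∀ x ∈ A ⊔ B, n * x = x * n
  swap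
  · have h3 := (normal_dichotomy h inf_le_right hnorm).resolve_right h1
    have h4 := (normal_dichotomy (RankOnePair_symm h) inf_le_right hnorm').resolve_right (by
      rw [sup_comm B A]; exact h1)
    right
    rw [h3] at hsupA
    rw [h4] at hsupB
    rw [← hsupA, ← hsupB, sup_comm]
  · by_cases heq : A.map f = B.map f
    · exact Or.inr heq
    · left
      have hkA : ∀ a ∈ A, a ≠ 1 → f a ≠ 1 := by
        intro a ha ha1 hfa
        obtain ⟨b, hb, hb1⟩ := exists_ne_one_right h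
        have := h1 a (Subgroup.mem_inf.2 ⟨hfa, (le_sup_left : A ≤ A ⊔ B) ha⟩) b ((le_sup_right : B ≤ A ⊔ B) hb)
        exact ha1 (eq_one_of_comm h ha hb hb1 this)
      have hkB : ∀ b ∈ B, b ≠ 1 → f b ≠ 1 := by
        intro b hb hb1 hfb
        obtain ⟨a, ha, ha1⟩ := exists_ne_one_left h
        have := h1 b (Subgroup.mem_inf.2 ⟨hfb, (le_sup_right : B ≤ A ⊔ B) hb⟩) a ((le_sup_left : A ≤ A ⊔ B) ha)
        exact ha1 (eq_one_of_comm h ha hb hb1 this.symm)
      exact ⟨heq, isNilpotent_map h.nilpotent_left f, isNilpotent_map h.nilpotent_right f,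
        map_cond h.cond_left f hkB, map_cond h.cond_right f hkA⟩


lemma map_eq_bot_of_reach {A B : Subgroup G} (hr : Relation.ReflTransGen (FAdj S) A B) (f : G →* H)
    (hA : A.map f = ⊥) : B.map f = ⊥ := by
  induction hr with
  | refl => exact hA
  | tail _ hbc ih =>
    rcases map_rank_one hbc.2.2 f with h1 | h1
    · exact absurd ih (left_ne_bot h1)
    · rw [← h1]; exact ih

lemma map_case {A B : Subgroup G} (hcc : RootCommutatorCase S A B) (f : G →* H) :
    RootCommutatorCase ((fun A : Subgroup G => A.map f) '' S) (A.map f) (B.map f) := by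
  refine ⟨?_, ?_, ?_, ?_⟩
  · rw [← Subgroup.map_commutator]
    exact ⟨_, hcc.1, rfl⟩
  · intro c hc x hx
    rw [← Subgroup.map_commutator] at hc
    rw [← Subgroup.map_sup] at hx
    obtain ⟨c, hc, rfl⟩ := hc
    obtain ⟨x, hx, rfl⟩ := hx
    rw [← map_mul, ← map_mul, hcc.2.1 c hc x hx]
  · rintro _ ⟨a, ha, rfl⟩ ha1
    have ha1' : a ≠ 1 := by
      rintro rfl
      exact ha1 (map_one f)
    rw [← Subgroup.map_commutator, ← hcc.2.2.1 a ha ha1', MonoidHom.map_closure, Set.image_image]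
    congr 1
    ext y
    constructor
    · rintro ⟨_, ⟨b, hb, rfl⟩, rfl⟩
      exact ⟨b, hb, by simp⟩
    · rintro ⟨b, hb, rfl⟩
      exact ⟨f b, ⟨b, hb, rfl⟩, by simp⟩
  · rintro _ ⟨b, hb, rfl⟩ hb1
    have hb1' : b ≠ 1 := by
      rintro rfl
      exact hb1 (map_one f)
    rw [← Subgroup.map_commutator, ← hcc.2.2.2 b hb hb1', MonoidHom.map_closure, Set.image_image]
    congr 1
    ext y
    constructor
    · rintro ⟨_, ⟨a, ha, rfl⟩, rfl⟩
      exact ⟨a, ha, by simp⟩
    · rintro ⟨a, ha, rfl⟩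
      exact ⟨f a, ⟨a, ha, rfl⟩, by simp⟩

/-- The image of a root set with no member in the kernel is a root set. -/
lemma image_rootSet (hS : IsRootSubgroupSet S) (f : G →* H) (hf : Function.Surjective f)
    (hb : ∀ A ∈ S, A.map f ≠ ⊥) : IsRootSubgroupSet ((fun A : Subgroup G => A.map f) '' S) := by
  refine ⟨?_, ?_, ?_, ?_, ?_⟩
  · rintro _ ⟨A, hA, rfl⟩
    exact isMulCommutative_map (hS.commutative A hA) f
  · rintro _ ⟨A, hA, rfl⟩
    exact hb A hA
  · rw [eq_top_iff, ← Subgroup.map_top_of_surjective f hf, ← hS.generates, Subgroup.map_le_iff_le_comap]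
    refine iSup₂_le fun B hB => ?_
    rw [← Subgroup.map_le_iff_le_comap]
    exact le_iSup₂_of_le (B.map f) ⟨B, hB, rfl⟩ le_rfl
  · rintro _ ⟨A, hA, rfl⟩ g
    obtain ⟨g, rfl⟩ := hf g
    exact ⟨conjBy A g, hS.conj_mem A hA g, map_conjBy f A g⟩
  · rintro _ ⟨A, hA, rfl⟩ _ ⟨B, hB, rfl⟩
    rcases hS.pair A hA B hB with h1 | h1 | h1
    · left
      rw [← Subgroup.map_commutator, h1, Subgroup.map_bot]
    · rcases map_rank_one h1 f with h2 | h2
      · exact Or.inr (Or.inl h2)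
      · left
        show ⁅A.map f, B.map f⁆ = ⊥
        rw [← h2]
        have hAc := isMulCommutative_map (hS.commutative A hA) f
        exact commutator_eq_bot_of_comm (fun a ha b hb => comm_of_isMulCommutative hAc ha hb)
    · exact Or.inr (Or.inr (map_case h1 f))

/-- The image of a connected graph is connected. -/
lemma image_reach {A B : Subgroup G} (hr : Relation.ReflTransGen (FAdj S) A B) (f : G →* H) :
    Relation.ReflTransGen (FAdj ((fun A : Subgroup G => A.map f) '' S)) (A.map f) (B.map f) := by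
  induction hr with
  | refl => exact Relation.ReflTransGen.refl
  | tail _ hbc ih =>
    rcases map_rank_one hbc.2.2 f with h1 | h1
    · exact ih.tail ⟨⟨_, hbc.1, rfl⟩, ⟨_, hbc.2.1, rfl⟩, h1⟩
    · rw [← h1]; exact ih

/-- The dichotomy for images. -/
theorem image_dichotomy (hS : IsRootSubgroupSet S) (hc : IsConnectedFamily (FAdj S) S) (f : G →* H)
    (hf : Function.Surjective f) :
    (IsRootSubgroupSet ((fun A : Subgroup G => A.map f) '' S) ∧
      IsConnectedFamily (FAdj ((fun A : Subgroup G => A.map f) '' S)) ((fun A : Subgroup G => A.map f) '' S)) ∨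
    ∃ A ∈ S, A.map f = ⊤ := by
  by_cases hb : ∃ A ∈ S, A.map f = ⊥
  · right
    obtain ⟨A, hA, hAb⟩ := hb
    refine ⟨A, hA, ?_⟩
    have hle : (⨆ B ∈ S, B) ≤ f.ker :=
      iSup₂_le fun B hB => (Subgroup.map_eq_bot_iff B).1 (map_eq_bot_of_reach (hc A hA B hB) f hAb)
    rw [hS.generates] at hle
    rw [eq_top_iff]
    intro x _
    obtain ⟨g, rfl⟩ := hf x
    have : f g = 1 := hle (Subgroup.mem_top g)
    rw [this]
    exact Subgroup.one_mem _
  · left
    push Not at hb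
    refine ⟨image_rootSet hS f hf hb, ?_⟩
    rintro _ ⟨A, hA, rfl⟩ _ ⟨B, hB, rfl⟩
    exact image_reach (hc A hA B hB) f

end Cfsg.Agent.Lib.Amalgam.Image
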