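import Cfsg.Agent.Lib.Amalgam.Swap

/-!
# Lines: the action of the normalizing members

If `B` is a line partner of `A` then, for any two members `C ≠ E` of the line `L = AB`, there is a member `T` of `S`
with `⁅C, T⁆ = E`. Hence `N_S(L)` acts doubly transitively on the members of `L`.
-/

set_option autoImplicit false

namespace Cfsg.Agent.Lib.Amalgam.LineTrans

open Cfsg Cfsg.Agent.Lib.Amalgam.RankOne Cfsg.Agent.Lib.Amalgam.RootSet Cfsg.Agent.Lib.Amalgam.CommCase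
open Cfsg.Agent.Lib.Amalgam.Lines Cfsg.Agent.Lib.Amalgam.Components Cfsg.Agent.Lib.Amalgam.Good
open Cfsg.Agent.Lib.Amalgam.Chain Cfsg.Agent.Lib.Amalgam.Opposite Cfsg.Agent.Lib.Amalgam.Swap
open scoped commutatorElement

variable {G : Type*} [Group G] {S : Set (Subgroup G)}

lemma exists_ne_one_of_mem (hS : IsRootSubgroupSet S) {A : Subgroup G} (hA : A ∈ S) : ∃ a ∈ A, a ≠ 1 := by
  by_contra hh
  push Not at hh
  apply hS.ne_bot A hA
  rw [eq_bot_iff]
  intro x hx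
  simpa using hh x hx

/-- Subgroups of nilpotent subgroups are nilpotent. -/
lemma nilpotent_of_le {U R : Subgroup G} (hle : U ≤ R) (hR : Group.IsNilpotent ↥R) : Group.IsNilpotent ↥U := by
  haveI := hR
  have h2 : Group.IsNilpotent ↥(U.subgroupOf R) := Subgroup.isNilpotent _
  exact nilpotent_of_mulEquiv (Subgroup.subgroupOfEquivOfLe hle)

variable {L : Subgroup G}

/-- A member of a line different from a rank one partner of `P` does not commute with `P`. -/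
lemma partner_not_comm (hS : IsRootSubgroupSet S) (hLab : ∀ x ∈ L, ∀ y ∈ L, x * y = y * x)
    (hLp : IsSubgroupPartition L (membersIn S L)) {A D P : Subgroup G} (hAL : A ≤ L)
    (hD : D ∈ S) (hDL : D ≤ L) (hne : A ≠ D) (hP : P ∈ S) (hAP : IsRankOnePair A P) (h : ⁅D, P⁆ = ⊥) : False := by
  obtain ⟨d, hd, hd1⟩ := exists_ne_one_of_mem hS hD
  obtain ⟨a, ha, ha1⟩ := exists_ne_one_left hAP
  have hinf : A ⊓ D = ⊥ := by
    rcases ti hS hD hP hAP with h1 | h1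
    · exact h1
    · exact absurd h1 hne
  have hda : d * a ∈ L := L.mul_mem (hDL hd) (hAL ha)
  have hda1 : d * a ≠ 1 := by
    intro he
    have e : a = d⁻¹ := eq_inv_of_mul_eq_one_right he
    have h2 : a ∈ A ⊓ D := Subgroup.mem_inf.2 ⟨ha, e ▸ D.inv_mem hd⟩
    rw [hinf] at h2
    exact ha1 (by simpa using h2)
  obtain ⟨F, hF, hxF⟩ := hLp.2.1 _ hda hda1
  exact root_central_translate hS hP hAP (fun x hx => hLab d (hDL hd) x (hAL hx))
    (fun x hx => comm_of_commutator_eq_bot h hd hx) hd1 ha ha1 hF.1 hxF hda1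

/-- **Main lemma.** In a line, if `A` is a rank one partner of `P` and `(P, T)` is a commutator pair then
`⁅A, ⁅P, T⁆⁆ = T`. -/
theorem commutator_eq (hS : IsRootSubgroupSet S) (hF : ∀ X ∈ S, ∃ Q ∈ S, IsRankOnePair X Q)
    (hLab : ∀ x ∈ L, ∀ y ∈ L, x * y = y * x) (hLp : IsSubgroupPartition L (membersIn S L))
    {A T P : Subgroup G} (hA : A ∈ S) (hAL : A ≤ L) (hT : T ∈ S) (hTL : T ≤ L) (hne : A ≠ T) (hP : P ∈ S)
    (hAP : IsRankOnePair A P) (hTP : ⁅P, T⁆ ∈ S) : ⁅A, ⁅P, T⁆⁆ = T := by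
  have hAT : ⁅A, T⁆ = ⊥ := commutator_eq_bot_of_comm (fun a ha t ht => hLab a (hAL ha) t (hTL ht))
  obtain ⟨E, hEd⟩ : ∃ E, E = ⁅P, T⁆ := ⟨_, rfl⟩
  rw [← hEd] at hTP ⊢
  have hopp : Opp S E A ⁅A, E⁆ P := by
    have := opp_of_good hS hA hP hT hAP hAT (hEd ▸ hTP)
    rwa [← hEd] at this
  have hFS : ⁅A, E⁆ ∈ S := hopp.hC
  have hPF : ⁅P, ⁅A, E⁆⁆ = E := hopp.hDC
  have hcPT : RootCommutatorCase S P T := commCase_of_mem hS hP hT (hEd ▸ hTP)
  have hcAE : RootCommutatorCase S A E := commCase_of_mem hS hA hTP hFS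
  have hcPF : RootCommutatorCase S P ⁅A, E⁆ := commCase_of_mem hS hP hFS (by rw [hPF]; exact hTP)
  by_contra hFT
  obtain ⟨Q, hQ, hFQ⟩ := hF _ hFS
  have hFTinf : ⁅A, E⁆ ⊓ T = ⊥ := by
    rcases ti hS hT hQ hFQ with h1 | h1
    · exact h1
    · exact absurd h1 hFT
  have hEt : ∀ e ∈ E, ∀ t ∈ T, e * t = t * e := fun e he t ht => by
    rw [hEd] at he
    exact comm_central hcPT he ((le_sup_right : T ≤ P ⊔ T) ht)
  have hFTc : ⁅⁅A, E⁆, T⁆ = ⊥ := by
    apply Subgroup.commutator_commutator_eq_bot_of_rotate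
    · rw [commutator_eq_bot_of_comm hEt]
      exact Subgroup.commutator_bot_left A
    · have h0 : ⁅T, A⁆ = ⊥ := by rw [Subgroup.commutator_comm]; exact hAT
      rw [h0]
      exact Subgroup.commutator_bot_left E
  obtain ⟨a, ha, ha1⟩ := exists_ne_one_left hAP
  obtain ⟨t, ht, ht1⟩ := exists_ne_one_of_mem hS hT
  obtain ⟨p, hp, hp1⟩ := exists_ne_one_right hAP
  have hATinf : A ⊓ T = ⊥ := by
    rcases ti hS hT hP hAP with h1 | h1
    · exact h1
    · exact absurd h1 hne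
  have hd1 : a * t ≠ 1 := by
    intro he
    have e : a = t⁻¹ := eq_inv_of_mul_eq_one_left he
    have h2 : a ∈ A ⊓ T := Subgroup.mem_inf.2 ⟨ha, e ▸ T.inv_mem ht⟩
    rw [hATinf] at h2
    exact ha1 (by simpa using h2)
  obtain ⟨D, hDm, hdD⟩ := hLp.2.1 (a * t) (L.mul_mem (hAL ha) (hTL ht)) hd1
  have hD : D ∈ S := hDm.1
  have hDL : D ≤ L := hDm.2
  have haD : a = (a * t) * t⁻¹ := by group
  have hDT : D ≠ T := by
    rintro rfl
    have h2 : a ∈ A ⊓ D := Subgroup.mem_inf.2 ⟨ha, by rw [haD]; exact D.mul_mem hdD (D.inv_mem ht)⟩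
    rw [hATinf] at h2
    exact ha1 (by simpa using h2)
  have hDTc : ⁅D, T⁆ = ⊥ := commutator_eq_bot_of_comm (fun x hx t' ht' => hLab x (hDL hx) t' (hTL ht'))
  have hDA : A ≠ D := by
    rintro rfl
    have h2 : t ∈ A ⊓ T := Subgroup.mem_inf.2 ⟨by
      have e : t = a⁻¹ * (a * t) := by group
      rw [e]; exact A.mul_mem (A.inv_mem ha) hdD, ht⟩
    rw [hATinf] at h2
    exact ht1 (by simpa using h2)
  have hDP : IsRankOnePair D P := by
    rcases hS.pair D hD P hP with h1 | h1 | h1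
    · exact (partner_not_comm hS hLab hLp hAL hD hDL hDA hP hAP h1).elim
    · exact h1
    · exfalso
      have hch : Chain S D P T p := ⟨hS, hD, hP, hT, h1.1, hEd ▸ hTP, hDTc, hp, hp1⟩
      have hnil := hch.nilpotent
      have haR : a ∈ D ⊔ P ⊔ T := by
        rw [haD]
        exact Subgroup.mul_mem _ ((le_sup_left.trans le_sup_left : D ≤ D ⊔ P ⊔ T) hdD)
          ((le_sup_right : T ≤ D ⊔ P ⊔ T) (T.inv_mem ht))
      have hPR : P ≤ D ⊔ P ⊔ T := le_sup_right.trans le_sup_left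
      have hle : A ⊔ P ≤ D ⊔ P ⊔ T := by
        have hm : conjBy P a ∈ unipotentSubgroups A P := (mem_unipotent_iff hAP).2 (Or.inr ⟨a, ha, rfl⟩)
        rw [← sup_eq_of_mem_ne hAP hm (right_mem_unipotent hAP) (conjBy_right_ne hAP ha ha1)]
        refine sup_le ?_ hPR
        rintro _ ⟨x, hx, rfl⟩
        exact Subgroup.mul_mem _ (Subgroup.mul_mem _ haR (hPR hx)) (Subgroup.inv_mem _ haR)
      exact not_isNilpotent_sup hAP (nilpotent_of_le hle hnil)
  have hoppD : Opp S E D ⁅D, E⁆ P := by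
    have := opp_of_good hS hD hP hT hDP hDTc (hEd ▸ hTP)
    rwa [← hEd] at this
  have hcDE : RootCommutatorCase S D E := commCase_of_mem hS hD hTP hoppD.hC
  obtain ⟨e, hed⟩ : ∃ e, e = p * t * p⁻¹ * t⁻¹ := ⟨_, rfl⟩
  have he : e ∈ E := by
    rw [hEd, hed]; exact Subgroup.commutator_mem_commutator hp ht
  have he1 : e ≠ 1 := by
    rw [hed]
    exact comm_ne_one hS hcPT hA (RankOnePair_symm hAP) hP hp hp1 ht ht1
  have hae1 : a * e * a⁻¹ * e⁻¹ ≠ 1 := comm_ne_one hS hcAE hP hAP hA ha ha1 he he1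
  have haem : a * e * a⁻¹ * e⁻¹ ∈ ⁅A, E⁆ := Subgroup.commutator_mem_commutator ha he
  have hcte : Commute t e := (hEt e he t ht).symm
  have hdem : a * e * a⁻¹ * e⁻¹ ∈ ⁅D, E⁆ := by
    have e1 : a * e * a⁻¹ * e⁻¹ = (a * t) * e * (a * t)⁻¹ * e⁻¹ := by
      have e2 : t * e * t⁻¹ = e := by rw [hcte.eq]; group
      calc a * e * a⁻¹ * e⁻¹ = a * (t * e * t⁻¹) * a⁻¹ * e⁻¹ := by rw [e2]
        _ = (a * t) * e * (a * t)⁻¹ * e⁻¹ := by group
    rw [e1]
    exact Subgroup.commutator_mem_commutator hdD he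
  have hDE : ⁅D, E⁆ = ⁅A, E⁆ := by
    obtain ⟨Q', hQ', hFQ'⟩ := hF _ hoppD.hC
    rcases ti hS hFS hQ' hFQ' with h1 | h1
    · exfalso
      have h2 : a * e * a⁻¹ * e⁻¹ ∈ ⁅D, E⁆ ⊓ ⁅A, E⁆ := Subgroup.mem_inf.2 ⟨hdem, haem⟩
      rw [h1] at h2
      exact hae1 (by simpa using h2)
    · exact h1
  -- the element `f`
  obtain ⟨f, hf, hfe⟩ := exists_comm_right hcPF hp hp1 (c := e) (by rw [hPF]; exact he)
  have hfD : ∀ x ∈ D, f * x = x * f := fun x hx => by
    have hf' : f ∈ ⁅D, E⁆ := hDE ▸ hf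
    exact comm_central hcDE hf' ((le_sup_left : D ≤ D ⊔ E) hx)
  have hfa : f * a = a * f := comm_central hcAE hf ((le_sup_left : A ≤ A ⊔ E) ha)
  have hfe' : Commute f e := comm_central hcAE hf ((le_sup_right : E ≤ A ⊔ E) he)
  have hft : Commute f t := comm_of_commutator_eq_bot hFTc hf ht
  obtain ⟨z, hzd⟩ : ∃ z, z = f * t⁻¹ := ⟨_, rfl⟩
  have hz1 : z ≠ 1 := by
    rw [hzd]
    intro he2
    have e2 : f = t := by
      have := mul_inv_eq_one.1 he2
      exact this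
    have h2 : t ∈ ⁅A, E⁆ ⊓ T := Subgroup.mem_inf.2 ⟨e2 ▸ hf, ht⟩
    rw [hFTinf] at h2
    exact ht1 (by simpa using h2)
  have hzD : ∀ x ∈ D, z * x = x * z := by
    intro x hx
    have c1 : Commute f x := hfD x hx
    have c2 : Commute t x := hLab t (hTL ht) x (hDL hx)
    rw [hzd]
    exact (c1.mul_left c2.inv_left).eq
  have hzp : z * p = p * z := by
    have e1 : p * f * p⁻¹ = e * f := by
      rw [← hfe]; group
    have e2 : p * t * p⁻¹ = e * t := by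
      rw [hed]; group
    have e3 : p * z * p⁻¹ = z := by
      have e4 : p * z * p⁻¹ = (p * f * p⁻¹) * (p * t * p⁻¹)⁻¹ := by
        rw [hzd]; group
      rw [e4, e1, e2, hzd]
      calc e * f * (e * t)⁻¹ = (e * f) * t⁻¹ * e⁻¹ := by group
        _ = (f * e) * t⁻¹ * e⁻¹ := by rw [hfe'.eq]
        _ = f * (e * t⁻¹ * e⁻¹) := by group
        _ = f * t⁻¹ := by
            have : e * t⁻¹ * e⁻¹ = t⁻¹ := by
              have c : Commute e t⁻¹ := hcte.symm.inv_right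
              rw [c.eq]; group
            rw [this]
    have e5 : p * z = z * p := by
      calc p * z = (p * z * p⁻¹) * p := by group
        _ = z * p := by rw [e3]
    exact e5.symm
  have hzP : ∀ x ∈ P, z * x = x * z := by
    have hsup : conjBy D p ⊔ D = D ⊔ P :=
      sup_eq_of_mem_ne hDP (conj_mem_unipotent ((le_sup_right : P ≤ D ⊔ P) hp) left_mem_unipotent)
        left_mem_unipotent (conjBy_left_ne hDP hp hp1)
    have hCz : ∀ y ∈ conjBy D p, z * y = y * z := by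
      intro y hy
      rw [mem_conjBy] at hy
      have e : y = p * (p⁻¹ * y * p) * p⁻¹ := by group
      have c : Commute z (p⁻¹ * y * p) := hzD _ hy
      have cp : Commute z p := hzp
      rw [e]
      exact ((cp.mul_right c).mul_right cp.inv_right).eq
    have hle : conjBy D p ⊔ D ≤ Subgroup.centralizer ({z} : Set G) := by
      apply sup_le
      · intro y hy
        rw [Subgroup.mem_centralizer_singleton_iff]
        exact (hCz y hy).symm
      · intro y hy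
        rw [Subgroup.mem_centralizer_singleton_iff]
        exact (hzD y hy).symm
    intro x hx
    have h3 := hle (hsup ▸ (le_sup_right : P ≤ D ⊔ P) hx)
    rw [Subgroup.mem_centralizer_singleton_iff] at h3
    exact h3.symm
  have hzd2 : z * (a * t) = f * a := by
    have c : Commute t a := hLab t (hTL ht) a (hAL ha)
    rw [hzd]
    calc f * t⁻¹ * (a * t) = f * (t⁻¹ * a * t) := by group
      _ = f * a := by
          have : t⁻¹ * a * t = a := by
            rw [c.inv_left.eq]; group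
          rw [this]
  have hinfAF := inf_commutator hS hcAE hP hAP
  have hfa1 : f * a ≠ 1 := by
    intro he2
    have e2 : a = f⁻¹ := eq_inv_of_mul_eq_one_right he2
    have h2 : a ∈ A ⊓ ⁅A, E⁆ := Subgroup.mem_inf.2 ⟨ha, e2 ▸ Subgroup.inv_mem _ hf⟩
    rw [hinfAF] at h2
    exact ha1 (by simpa using h2)
  have hfam : f * a ∈ A ⊔ ⁅A, E⁆ := Subgroup.mul_mem _ ((le_sup_right : ⁅A, E⁆ ≤ A ⊔ ⁅A, E⁆) hf)
    ((le_sup_left : A ≤ A ⊔ ⁅A, E⁆) ha)
  obtain ⟨C, hC, hfaC⟩ := (partition hS hcAE hP hAP hA).2.1 (f * a) hfam hfa1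
  refine root_central_translate hS hP hDP hzD hzP hz1 hdD hd1 hC.1 ?_ ?_
  · rw [hzd2]; exact hfaC
  · rw [hzd2]; exact hfa1

/-- A line partner: elementwise commutativity of `A ⊔ B`. -/
lemma line_comm (hS : IsRootSubgroupSet S) {A B : Subgroup G} (hA : A ∈ S) (hB : B ∈ linePartners S A) :
    ∀ x ∈ A ⊔ B, ∀ y ∈ A ⊔ B, x * y = y * x := by
  have hab : ∀ a ∈ A, ∀ b ∈ B, a * b = b * a := fun a ha b hb => comm_of_commutator_eq_bot hB.1.2.2 ha hb
  refine comm_sup_left (fun a ha y hy => ?_) (fun b hb y hy => ?_)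
  · exact comm_sup_right (fun a ha a' ha' => comm_of_isMulCommutative (hS.commutative A hA) ha ha') hab a ha y hy
  · exact comm_sup_right (fun b hb a ha => (hab a ha b hb).symm)
      (fun b hb b' hb' => comm_of_isMulCommutative (hS.commutative B hB.1.1) hb hb') b hb y hy

/-- Every line partner of `A` is a commutator partner of some rank one partner of `A`. -/
theorem exists_partner_comm (hS : IsRootSubgroupSet S) (hF : ∀ X ∈ S, ∃ Q ∈ S, IsRankOnePair X Q)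
    {A B : Subgroup G} (hA : A ∈ S) (hB : B ∈ linePartners S A) :
    ∃ P ∈ S, IsRankOnePair A P ∧ ⁅P, B⁆ ∈ S := by
  have hBS : B ∈ S := hB.1.1
  have hneBA : B ≠ A := hB.1.2.1
  have hABc : ⁅A, B⁆ = ⊥ := hB.1.2.2
  have hLp := hB.2
  have hLab := line_comm hS hA hB
  have hAL : A ≤ A ⊔ B := le_sup_left
  have hBL : B ≤ A ⊔ B := le_sup_right
  by_contra hno
  push Not at hno
  have hsub : rankOnePartners S A ⊆ rankOnePartners S B := by
    intro P hP
    refine ⟨hP.1, ?_⟩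
    rcases hS.pair B hBS P hP.1 with h1 | h1 | h1
    · exact (partner_not_comm hS hLab hLp hAL hBS hBL hneBA.symm hP.1 hP.2 h1).elim
    · exact h1
    · exact (hno P hP.1 hP.2 (by rw [Subgroup.commutator_comm]; exact h1.1)).elim
  obtain ⟨P₀, hP₀, hAP₀⟩ := hF A hA
  have hBP₀ : IsRankOnePair B P₀ := (hsub ⟨hP₀, hAP₀⟩).2
  obtain ⟨g, hg₁, hg₂⟩ := exists_swap hAP₀ hBP₀ hABc
  have hsub' : rankOnePartners S B ⊆ rankOnePartners S A := by
    intro T hT
    have h1 := rankOne_conj hT hS g⁻¹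
    have e1 : conjBy B g⁻¹ = A := by rw [← hg₁]; exact conjBy_inv_conjBy A g
    rw [e1] at h1
    have h2 := rankOne_conj (hsub h1) hS g
    rwa [conjBy_conjBy_inv, hg₂] at h2
  have hinfAB : A ⊓ B = ⊥ := hLp.2.2 A ⟨hA, hAL⟩ B ⟨hBS, hBL⟩ hneBA.symm
  obtain ⟨T₀, hT₀, hT₀le, hT₀ne, hT₀c⟩ := exists_case_of_two_partners hS hP₀ hA hBS (RankOnePair_symm hAP₀)
    (RankOnePair_symm hBP₀) hABc hinfAB (fun x hx hx1 => by
      obtain ⟨T, hT, hxT⟩ := hLp.2.1 x hx hx1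
      exact ⟨T, hT.1, hT.2, hxT⟩)
  have hP₀T₀ : ⁅P₀, T₀⁆ ∈ S := by rw [Subgroup.commutator_comm]; exact hT₀c.1
  have heq : ⁅A, ⁅P₀, T₀⁆⁆ = T₀ := commutator_eq hS hF hLab hLp hA hAL hT₀ hT₀le hT₀ne.symm hP₀ hAP₀ hP₀T₀
  obtain ⟨E₀, hE₀d⟩ : ∃ E₀, E₀ = ⁅P₀, T₀⁆ := ⟨_, rfl⟩
  rw [← hE₀d] at heq hP₀T₀
  have hcAE : RootCommutatorCase S A E₀ := commCase_of_mem hS hA hP₀T₀ (by rw [heq]; exact hT₀)
  have hneBT : B ≠ T₀ := by
    rintro rfl
    exact not_rankOne_of_commutator_mem hS hBS hP₀ hT₀c.1 hBP₀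
  obtain ⟨Q, hQ, hT₀Q⟩ := hF T₀ hT₀
  have hAT₀c : ⁅T₀, A⁆ = ⊥ := commutator_eq_bot_of_comm (fun x hx a ha => hLab x (hT₀le hx) a (hAL ha))
  -- a rank one partner `Q'` of `T₀` in the commutator case with `A`
  have hQ' : ∃ Q' ∈ S, IsRankOnePair T₀ Q' ∧ ⁅Q', A⁆ ∈ S := by
    rcases hS.pair A hA Q hQ with h1 | h1 | h1
    · exact (partner_not_comm hS hLab hLp hT₀le hA hAL hT₀ne hQ hT₀Q h1).elim
    · -- two partners in the line
      have hsupeq : T₀ ⊔ A = A ⊔ ⁅A, E₀⁆ := by rw [heq, sup_comm]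
      have hinf : T₀ ⊓ A = ⊥ := by
        have := inf_commutator hS hcAE hP₀ hAP₀
        rwa [heq, inf_comm] at this
      have hpart := partition hS hcAE hP₀ hAP₀ hA
      obtain ⟨T', hT', hT'le, hT'ne, hT'c⟩ := exists_case_of_two_partners hS hQ hT₀ hA (RankOnePair_symm hT₀Q)
        (RankOnePair_symm h1) hAT₀c hinf (fun x hx hx1 => by
          rw [hsupeq] at hx
          obtain ⟨T, hT, hxT⟩ := hpart.2.1 x hx hx1
          refine ⟨T, hT.1, ?_, hxT⟩
          rw [hsupeq]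
          exact hT.2)
      have hTm : T' ∈ membersIn S (A ⊔ ⁅A, E₀⁆) := ⟨hT', hsupeq ▸ hT'le⟩
      rw [members_eq hS hcAE hP₀ hAP₀ hA] at hTm
      rcases hTm with ⟨e, he, rfl⟩ | h2
      · have hEc : conjBy T₀ e⁻¹ = T₀ := conjBy_eq_self_of_comm (fun u hu => by
          have hu' : u ∈ ⁅A, E₀⁆ := heq ▸ hu
          have hei : e⁻¹ ∈ A ⊔ E₀ := (le_sup_right : E₀ ≤ A ⊔ E₀) (E₀.inv_mem he)
          exact (comm_central hcAE hu' hei).symm)
        refine ⟨conjBy Q e⁻¹, hS.conj_mem Q hQ e⁻¹, ?_, ?_⟩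
        · have := rankOnePair_conjBy hT₀Q e⁻¹
          rwa [hEc] at this
        · have h3 := hS.conj_mem _ hT'c.1 e⁻¹
          rw [conjBy_commutator, conjBy_inv_conjBy] at h3
          rw [Subgroup.commutator_comm]
          exact h3
      · rw [Set.mem_singleton_iff, heq] at h2
        exact absurd h2 hT'ne
    · exact ⟨Q, hQ, hT₀Q, by rw [Subgroup.commutator_comm]; exact h1.1⟩
  obtain ⟨Q', hQ'S, hT₀Q', hQ'A⟩ := hQ'
  have hAQ' : ⁅A, Q'⁆ ∈ S := by rw [Subgroup.commutator_comm]; exact hQ'A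
  have hQ'B : ⁅Q', B⁆ ∈ S := by
    rcases hS.pair B hBS Q' hQ'S with h1 | h1 | h1
    · exact (partner_not_comm hS hLab hLp hT₀le hBS hBL hneBT.symm hQ'S hT₀Q' h1).elim
    · exact absurd (hsub' ⟨hQ'S, h1⟩).2 (fun hr => not_rankOne_of_commutator_mem hS hA hQ'S hAQ' hr)
    · rw [Subgroup.commutator_comm]; exact h1.1
  obtain ⟨q, hq, hq1⟩ := exists_ne_one_right hT₀Q'
  have hch : Chain S A Q' B q := ⟨hS, hA, hQ'S, hBS, hAQ', hQ'B, hABc, hq, hq1⟩
  have hle : T₀ ⊔ Q' ≤ A ⊔ Q' ⊔ B := by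
    apply sup_le
    · exact hT₀le.trans (sup_le (le_sup_left.trans le_sup_left) le_sup_right)
    · exact le_sup_right.trans le_sup_left
  exact not_isNilpotent_sup hT₀Q' (nilpotent_of_le hle hch.nilpotent)

/-- If `B` is a line partner of `A` then there is a member `T` of `S` with `⁅A, T⁆ = B`. -/
theorem exists_commutator_eq (hS : IsRootSubgroupSet S) (hF : ∀ X ∈ S, ∃ Q ∈ S, IsRankOnePair X Q)
    {A B : Subgroup G} (hA : A ∈ S) (hB : B ∈ linePartners S A) :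
    ∃ T ∈ S, ⁅A, T⁆ = B := by
  obtain ⟨P, hP, hAP, hPB⟩ := exists_partner_comm hS hF hA hB
  exact ⟨⁅P, B⁆, hPB, commutator_eq hS hF (line_comm hS hA hB) hB.2 hA le_sup_left hB.1.1 le_sup_right
    hB.1.2.1.symm hP hAP hPB⟩

/-- `T` with `⁅A, T⁆ = B` normalizes `A ⊔ B`. -/
lemma normalizes_line (hS : IsRootSubgroupSet S) {A B T : Subgroup G} (hB : B ∈ S) (hc : RootCommutatorCase S A T)
    (hAT : ⁅A, T⁆ = B) {t : G} (ht : t ∈ T) : conjBy (A ⊔ B) t = A ⊔ B := by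
  have hle : ∀ t ∈ T, conjBy (A ⊔ B) t ≤ A ⊔ B := by
    intro t ht
    rw [conjBy_sup]
    have h1 : conjBy A t ≤ A ⊔ B := by
      rw [← hAT]; exact conjBy_le_sup hc ht
    have h2 : conjBy B t = B := conjBy_eq_self_of_comm (fun u hu => by
      have hu' : u ∈ ⁅A, T⁆ := hAT ▸ hu
      exact (comm_central hc hu' ((le_sup_right : T ≤ A ⊔ T) ht)).symm)
    rw [h2]
    exact sup_le h1 le_sup_right
  apply le_antisymm (hle t ht)
  intro y hy
  rw [mem_conjBy]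
  have h3 := hle t⁻¹ (T.inv_mem ht) (conj_mem_conjBy (g := t⁻¹) hy)
  simpa using h3

/-- Any two different members of a line generate the line. -/
theorem sup_eq_of_members (hS : IsRootSubgroupSet S) (hF : ∀ X ∈ S, ∃ Q ∈ S, IsRankOnePair X Q)
    {A B C D : Subgroup G} (hA : A ∈ S) (hB : B ∈ linePartners S A) (hC : C ∈ membersIn S (A ⊔ B))
    (hD : D ∈ membersIn S (A ⊔ B)) (hne : C ≠ D) : C ⊔ D = A ⊔ B := by
  obtain ⟨T, hT, hATe⟩ := exists_commutator_eq hS hF hA hB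
  have hBS : B ∈ S := hB.1.1
  have hcc : RootCommutatorCase S A T := commCase_of_mem hS hA hT (by rw [hATe]; exact hBS)
  obtain ⟨P, hP, hAP⟩ := hF A hA
  have hmem := members_eq hS hcc hP hAP hA
  rw [hATe] at hmem
  have hL : ∀ t ∈ T, conjBy (A ⊔ B) t = A ⊔ B := fun t ht => normalizes_line hS hBS hcc hATe ht
  have hBfix : ∀ t ∈ T, conjBy B t = B := fun t ht => conjBy_eq_self_of_comm (fun u hu => by
    have hu' : u ∈ ⁅A, T⁆ := hATe ▸ hu
    exact (comm_central hcc hu' ((le_sup_right : T ≤ A ⊔ T) ht)).symm)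
  -- `A ⊔ A^t = A ⊔ B` for `t ≠ 1`
  have hgen : ∀ t ∈ T, t ≠ 1 → A ⊔ conjBy A t = A ⊔ B := by
    intro t ht ht1
    apply le_antisymm
    · exact sup_le le_sup_left (by rw [← hATe]; exact conjBy_le_sup hcc ht)
    · apply sup_le le_sup_left
      intro c hc
      have hc' : c ∈ ⁅A, T⁆ := hATe ▸ hc
      obtain ⟨u, hu, huc⟩ := exists_comm_left hcc ht ht1 hc'
      have e : u * t * u⁻¹ * t⁻¹ = u * (t * u⁻¹ * t⁻¹) := by group
      rw [← huc, e]
      exact (A ⊔ conjBy A t).mul_mem ((le_sup_left : A ≤ A ⊔ conjBy A t) hu)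
        ((le_sup_right : conjBy A t ≤ A ⊔ conjBy A t) (conj_mem_conjBy (A.inv_mem hu)))
  rw [hmem] at hC hD
  rcases hC with ⟨t, ht, rfl⟩ | hC
  · rcases hD with ⟨t', ht', rfl⟩ | hD
    · -- two moved points
      have hne' : t⁻¹ * t' ≠ 1 := by
        intro he
        apply hne
        have : t' = t := by
          rw [inv_mul_eq_one] at he
          exact he.symm
        rw [this]
      have h1 := hgen (t⁻¹ * t') (T.mul_mem (T.inv_mem ht) ht') hne'
      have h2 := congrArg (fun U => conjBy U t) h1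
      simp only [conjBy_sup, conjBy_conjBy] at h2
      have e : t * (t⁻¹ * t') = t' := by group
      rw [e, ← conjBy_sup, hL t ht] at h2
      exact h2
    · rw [Set.mem_singleton_iff] at hD
      have h3 : conjBy A t ⊔ conjBy B t = A ⊔ B := by rw [← conjBy_sup]; exact hL t ht
      rw [hBfix t ht] at h3
      rw [hD]; exact h3
  · rw [Set.mem_singleton_iff] at hC
    rcases hD with ⟨t', ht', rfl⟩ | hD
    · have h3 : conjBy A t' ⊔ conjBy B t' = A ⊔ B := by rw [← conjBy_sup]; exact hL t' ht'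
      rw [hBfix t' ht'] at h3
      rw [hC, sup_comm]; exact h3
    · rw [Set.mem_singleton_iff] at hD
      exact absurd (hC.trans hD.symm) hne

/-- Two different members of a line are line partners of each other. -/
lemma mem_linePartners_of_members (hS : IsRootSubgroupSet S) (hF : ∀ X ∈ S, ∃ Q ∈ S, IsRankOnePair X Q)
    {A B C D : Subgroup G} (hA : A ∈ S) (hB : B ∈ linePartners S A) (hC : C ∈ membersIn S (A ⊔ B))
    (hD : D ∈ membersIn S (A ⊔ B)) (hne : C ≠ D) : D ∈ linePartners S C := by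
  have hLab := line_comm hS hA hB
  refine ⟨⟨hD.1, hne.symm, commutator_eq_bot_of_comm (fun x hx y hy => hLab x (hC.2 hx) y (hD.2 hy))⟩, ?_⟩
  rw [sup_eq_of_members hS hF hA hB hC hD hne]
  exact hB.2

/-- Transitivity of a point stabilizer. -/
lemma stabilizer_trans (hS : IsRootSubgroupSet S) (hF : ∀ X ∈ S, ∃ Q ∈ S, IsRankOnePair X Q)
    {A B E C C' : Subgroup G} (hA : A ∈ S) (hB : B ∈ linePartners S A) (hE : E ∈ membersIn S (A ⊔ B))
    (hC : C ∈ membersIn S (A ⊔ B)) (hC' : C' ∈ membersIn S (A ⊔ B)) (hCE : C ≠ E) (hC'E : C' ≠ E) :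
    ∃ T ∈ normalizingMembers S (A ⊔ B), ∃ t ∈ T, conjBy E t = E ∧ conjBy C t = C' := by
  have hlp := mem_linePartners_of_members hS hF hA hB hC hE hCE
  obtain ⟨T, hT, hCTe⟩ := exists_commutator_eq hS hF hC.1 hlp
  have hcc : RootCommutatorCase S C T := commCase_of_mem hS hC.1 hT (by rw [hCTe]; exact hE.1)
  have hsup : C ⊔ E = A ⊔ B := sup_eq_of_members hS hF hA hB hC hE hCE
  refine ⟨T, ⟨hT, fun t ht => ?_⟩, ?_⟩
  · rw [mem_normalizer_iff_conjBy, ← hsup]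
    exact normalizes_line hS hE.1 hcc hCTe ht
  · obtain ⟨P, hP, hCP⟩ := hF C hC.1
    have hm := members_eq hS hcc hP hCP hC.1
    rw [hCTe, hsup] at hm
    have hC'm := hC'
    rw [hm] at hC'm
    rcases hC'm with ⟨t, ht, rfl⟩ | h2
    · refine ⟨t, ht, ?_, rfl⟩
      exact conjBy_eq_self_of_comm (fun u hu => by
        have hu' : u ∈ ⁅C, T⁆ := hCTe ▸ hu
        exact (comm_central hcc hu' ((le_sup_right : T ≤ C ⊔ T) ht)).symm)
    · exact absurd h2 hC'E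

/-- **Double transitivity on a line.** -/
theorem doubly_transitive_line (hS : IsRootSubgroupSet S) (hF : ∀ X ∈ S, ∃ Q ∈ S, IsRankOnePair X Q)
    {A B : Subgroup G} (hA : A ∈ S) (hB : B ∈ linePartners S A) :
    ∀ C₁ ∈ membersIn S (A ⊔ B), ∀ C₂ ∈ membersIn S (A ⊔ B), ∀ D₁ ∈ membersIn S (A ⊔ B),
      ∀ D₂ ∈ membersIn S (A ⊔ B), C₁ ≠ C₂ → D₁ ≠ D₂ →
        ∃ x ∈ ⨆ E ∈ normalizingMembers S (A ⊔ B), E, conjBy C₁ x = D₁ ∧ conjBy C₂ x = D₂ := by
  have hLp := hB.2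
  have hLab := line_comm hS hA hB
  obtain ⟨N, hNd⟩ : ∃ N, N = ⨆ E ∈ normalizingMembers S (A ⊔ B), E := ⟨_, rfl⟩
  rw [← hNd]
  have hmemN : ∀ T ∈ normalizingMembers S (A ⊔ B), T ≤ N := fun T hT => by
    rw [hNd]
    exact le_iSup₂_of_le T hT le_rfl
  have hNnorm : N ≤ Subgroup.normalizer ((A ⊔ B : Subgroup G) : Set G) := by
    rw [hNd]
    exact iSup₂_le (fun T hT => hT.2)
  have hstab : ∀ E ∈ membersIn S (A ⊔ B), ∀ C ∈ membersIn S (A ⊔ B), ∀ C' ∈ membersIn S (A ⊔ B), C ≠ E → C' ≠ E →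
      ∃ x ∈ N, conjBy E x = E ∧ conjBy C x = C' := by
    intro E hE C hC C' hC' h1 h2
    obtain ⟨T, hT, t, ht, h3, h4⟩ := stabilizer_trans hS hF hA hB hE hC hC' h1 h2
    exact ⟨t, hmemN T hT ht, h3, h4⟩
  intro C₁ hC₁ C₂ hC₂ D₁ hD₁ D₂ hD₂ hC hD
  -- first step: move `C₂` to `D₂`
  have hstep : ∃ x ∈ N, conjBy C₂ x = D₂ := by
    by_cases hCD : C₂ = D₂
    · exact ⟨1, N.one_mem, by simp [hCD]⟩
    · obtain ⟨c, hc, hc1⟩ := exists_ne_one_of_mem hS hC₂.1
      obtain ⟨d, hd, hd1⟩ := exists_ne_one_of_mem hS hD₂.1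
      have hinf : C₂ ⊓ D₂ = ⊥ := hLp.2.2 _ hC₂ _ hD₂ hCD
      have hcd1 : c * d ≠ 1 := by
        intro he
        have e : c = d⁻¹ := eq_inv_of_mul_eq_one_left he
        have h2 : c ∈ C₂ ⊓ D₂ := Subgroup.mem_inf.2 ⟨hc, e ▸ D₂.inv_mem hd⟩
        rw [hinf] at h2
        exact hc1 (by simpa using h2)
      obtain ⟨E, hE, hcdE⟩ := hLp.2.1 (c * d) ((A ⊔ B).mul_mem (hC₂.2 hc) (hD₂.2 hd)) hcd1
      have hEC : C₂ ≠ E := by
        rintro rfl
        have e : d = c⁻¹ * (c * d) := by group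
        have h2 : d ∈ C₂ ⊓ D₂ := Subgroup.mem_inf.2 ⟨by rw [e]; exact C₂.mul_mem (C₂.inv_mem hc) hcdE, hd⟩
        rw [hinf] at h2
        exact hd1 (by simpa using h2)
      have hED : D₂ ≠ E := by
        rintro rfl
        have e : c = (c * d) * d⁻¹ := by group
        have h2 : c ∈ C₂ ⊓ D₂ := Subgroup.mem_inf.2 ⟨hc, by rw [e]; exact D₂.mul_mem hcdE (D₂.inv_mem hd)⟩
        rw [hinf] at h2
        exact hc1 (by simpa using h2)
      obtain ⟨x, hx, -, h2⟩ := hstab E hE C₂ hC₂ D₂ hD₂ hEC hED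
      exact ⟨x, hx, h2⟩
  obtain ⟨x₁, hx₁, hx₁e⟩ := hstep
  have hC₁' : conjBy C₁ x₁ ∈ membersIn S (A ⊔ B) := by
    refine ⟨hS.conj_mem C₁ hC₁.1 x₁, ?_⟩
    have h1 : conjBy (A ⊔ B) x₁ = A ⊔ B := mem_normalizer_iff_conjBy.1 (hNnorm hx₁)
    rw [← h1]
    exact conjBy_le_conjBy hC₁.2 x₁
  have hne : conjBy C₁ x₁ ≠ D₂ := by
    rw [← hx₁e]
    exact fun h => hC (conjBy_injective x₁ h)
  obtain ⟨x₂, hx₂, h2, h3⟩ := hstab D₂ hD₂ _ hC₁' D₁ hD₁ hne hD
  refine ⟨x₂ * x₁, N.mul_mem hx₂ hx₁, ?_, ?_⟩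
  · rw [← conjBy_conjBy, h3]
  · rw [← conjBy_conjBy, hx₁e, h2]

end Cfsg.Agent.Lib.Amalgam.LineTrans
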