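import Cfsg.Agent.Lib.Amalgam.CommCase

/-!
# Central translates and lines

The key lemma `root_central_translate` (no element `z a` with `z` centralizing `⟨A, B⟩` and `a ∈ A#` is a root
element), members contained in a rank one group, the action on lines, and components of the graph 𝓕(S).
-/

set_option autoImplicit false

namespace Cfsg.Agent.Lib.Amalgam.Lines

open Cfsg Cfsg.Agent.Lib.Amalgam.RankOne Cfsg.Agent.Lib.Amalgam.RootSet Cfsg.Agent.Lib.Amalgam.CommCase
open scoped commutatorElement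

variable {G : Type*} [Group G] {S : Set (Subgroup G)}

/-- `z a` with `z ≠ 1` centralizing `⟨A, B⟩`, `a ∈ A#`, is never an element of a member of `S`. -/
lemma root_central_translate (hS : IsRootSubgroupSet S) {A B F : Subgroup G} (hB : B ∈ S) (hAB : IsRankOnePair A B)
    {z : G} (hzA : ∀ x ∈ A, z * x = x * z) (hzB : ∀ x ∈ B, z * x = x * z) (hz1 : z ≠ 1)
    {a : G} (ha : a ∈ A) (ha1 : a ≠ 1) (hF : F ∈ S) (hx : z * a ∈ F) (hx1 : z * a ≠ 1) : False := by
  obtain ⟨b, hb, hb1⟩ := exists_ne_one_right hAB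
  have hFcomm : (z * a) * b * (z * a)⁻¹ = a * b * a⁻¹ := by
    have hc : Commute z (a * b * a⁻¹) :=
      (Commute.mul_right (hzA a ha) (hzB b hb)).mul_right (Commute.inv_right (hzA a ha))
    calc (z * a) * b * (z * a)⁻¹ = z * (a * b * a⁻¹) * z⁻¹ := by group
      _ = (a * b * a⁻¹) * z * z⁻¹ := by rw [hc.eq]
      _ = a * b * a⁻¹ := by group
  have hne : conjBy B a ≠ B := conjBy_right_ne hAB ha ha1
  have hm2 : conjBy B a ∈ unipotentSubgroups A B := (mem_unipotent_iff hAB).2 (Or.inr ⟨a, ha, rfl⟩)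
  have hconj_ne : a * b * a⁻¹ * b ≠ b * (a * b * a⁻¹) := by
    intro hc
    have h9 := eq_one_of_comm_of_mem_ne hAB hm2 (right_mem_unipotent hAB) hne (conj_mem_conjBy hb) hb hb1 hc
    apply hb1
    have e : b = a⁻¹ * (a * b * a⁻¹) * a := by group
    rw [e, h9]; group
  rcases hS.pair F hF B hB with h1 | h1 | h1
  · -- commuting
    have h2 : (z * a) * b = b * (z * a) := comm_of_commutator_eq_bot h1 hx hb
    have h3 : a * b = b * a := by
      have h4 : z * (a * b) = z * (b * a) := by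
        calc z * (a * b) = (z * a) * b := (mul_assoc _ _ _).symm
          _ = b * (z * a) := h2
          _ = (b * z) * a := (mul_assoc _ _ _).symm
          _ = (z * b) * a := by rw [hzB b hb]
          _ = z * (b * a) := mul_assoc _ _ _
      exact mul_left_cancel h4
    exact ha1 (eq_one_of_comm hAB ha hb hb1 h3)
  · -- rank one
    obtain ⟨b', hb', -, hb'e⟩ := cond h1 hx hx1
    obtain ⟨b₁, hb₁, -, hb₁e⟩ := cond hAB ha ha1
    have h2 : conjBy B (z * a) = conjBy B a := by
      rw [hzA a ha, ← conjBy_conjBy, conjBy_eq_self_of_comm hzB]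
    have h3 : F = conjBy A (b'⁻¹ * b₁) := by
      have h4 : conjBy F b' = conjBy A b₁ := by rw [hb'e, h2, hb₁e]
      rw [← conjBy_conjBy, ← h4, conjBy_inv_conjBy]
    have hm1 : F ∈ unipotentSubgroups A B := by
      rw [h3]
      exact ⟨_, (le_sup_right : B ≤ A ⊔ B) (B.mul_mem (B.inv_mem hb') hb₁), rfl⟩
    by_cases hFA : F = A
    · have hzmem : z ∈ A := by
        have h5 : z * a ∈ A := hFA ▸ hx
        have h6 := A.mul_mem h5 (A.inv_mem ha)
        simpa using h6
      exact conjBy_right_ne hAB hzmem hz1 (conjBy_eq_self_of_comm hzB)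
    · refine hx1 (eq_one_of_comm_of_mem_ne hAB hm1 left_mem_unipotent hFA hx ha ha1 ?_)
      have hc : Commute z a := hzA a ha
      exact (hc.mul_left (Commute.refl a)).eq
  · -- commutator case
    obtain ⟨-, h2, -, -⟩ := h1
    have h3 : (z * a) * b * (z * a)⁻¹ * b⁻¹ ∈ ⁅F, B⁆ := Subgroup.commutator_mem_commutator hx hb
    have h4 := h2 _ h3 b ((le_sup_right : B ≤ F ⊔ B) hb)
    rw [hFcomm] at h4
    apply hconj_ne
    have h7 : a * b * a⁻¹ * b⁻¹ * b = a * b * a⁻¹ := by group
    have h8 : b * (a * b * a⁻¹ * b⁻¹) = b * (a * b * a⁻¹) * b⁻¹ := by group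
    rw [h7, h8] at h4
    exact eq_mul_inv_iff_mul_eq.1 h4

/-- Centralizers inside a rank one group. An element `t` fixing all of Ω is central in `A ⊔ B`. -/
lemma central_of_fix_all {A B : Subgroup G} (h : IsRankOnePair A B) {t : G}
    (ht : ∀ E ∈ unipotentSubgroups A B, conjBy E t = E) : ∀ x ∈ A ⊔ B, t * x = x * t := by
  -- the kernel of the action
  let N : Subgroup G :=
    { carrier := {y | ∀ E ∈ unipotentSubgroups A B, conjBy E y = E}
      mul_mem' := by
        intro x y hx hy E hE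
        rw [← conjBy_conjBy, hy E hE, hx E hE]
      one_mem' := fun E _ => by simp
      inv_mem' := by
        intro x hx E hE
        exact (conjBy_eq_iff.1 (hx E hE)).symm }
  have hnorm : ∀ x ∈ A ⊔ B, ∀ n ∈ N, x * n * x⁻¹ ∈ N := by
    intro x hx n hn E hE
    have h1 : conjBy E x⁻¹ ∈ unipotentSubgroups A B := conj_mem_unipotent ((A ⊔ B).inv_mem hx) hE
    have e : x * n * x⁻¹ = x * (n * x⁻¹) := by group
    rw [e, ← conjBy_conjBy, ← conjBy_conjBy, hn _ h1, conjBy_conjBy]
    simp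
  exact central_of_fixes h hnorm ht
    (fun m hm => ⟨hm A left_mem_unipotent, hm B (right_mem_unipotent h)⟩)

/-- An element of `C ⊔ D` centralizing `C` is a product `c t` with `c ∈ C`, `t` central in `C ⊔ D`. -/
lemma decomp_of_comm {C D : Subgroup G} (h : IsRankOnePair C D) (hCc : IsMulCommutative C)
    {e : G} (he : e ∈ C ⊔ D) (hec : ∀ c ∈ C, e * c = c * e) :
    ∃ c ∈ C, ∀ x ∈ C ⊔ D, (c⁻¹ * e) * x = x * (c⁻¹ * e) := by
  have hfixC : conjBy C e = C := conjBy_eq_self_of_comm hec
  have hD : D ∈ unipotentSubgroups C D := right_mem_unipotent h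
  have heD : conjBy D e ∈ unipotentSubgroups C D := conj_mem_unipotent he hD
  have heD2 : conjBy D e ≠ C := by
    intro hc
    have h1 : D = conjBy C e⁻¹ := conjBy_eq_iff.1 hc
    have h2 : C = conjBy C e⁻¹ := conjBy_eq_iff.1 hfixC
    exact h.ne (h2.trans h1.symm)
  rw [mem_unipotent_iff h] at heD
  rcases heD with h1 | ⟨c, hc, hce⟩
  · exact absurd h1 heD2
  · refine ⟨c, hc, ?_⟩
    set t := c⁻¹ * e with ht
    have htC : ∀ u ∈ C, t * u = u * t := by
      intro u hu
      have h2 : Commute c⁻¹ u := (comm_of_isMulCommutative hCc (C.inv_mem hc) hu : _)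
      have h3 : Commute e u := hec u hu
      exact (h2.mul_left h3).eq
    have htD : conjBy D t = D := by
      rw [ht, ← conjBy_conjBy, hce, conjBy_inv_conjBy]
    apply central_of_fix_all h
    intro E hE
    rw [mem_unipotent_iff h] at hE
    rcases hE with rfl | ⟨c₁, hc₁, rfl⟩
    · exact conjBy_eq_self_of_comm htC
    · rw [conjBy_conjBy]
      have e1 : t * c₁ = c₁ * t := htC c₁ hc₁
      rw [e1, ← conjBy_conjBy, htD]

/-- A member of `S` inside a rank one group, not centralizing it, is a unipotent subgroup. -/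
lemma mem_unipotent_of_le (hS : IsRootSubgroupSet S) {C D E : Subgroup G} (hC : C ∈ S) (hD : D ∈ S)
    (h : IsRankOnePair C D) (hE : E ∈ S) (hle : E ≤ C ⊔ D)
    (hnc : ∀ e ∈ E, e ≠ 1 → ∃ y ∈ C ⊔ D, e * y ≠ y * e) : E ∈ unipotentSubgroups C D := by
  have hCm : C ∈ unipotentSubgroups C D := left_mem_unipotent
  have hCc := hS.commutative C hC
  obtain ⟨e, he, he1⟩ : ∃ e ∈ E, e ≠ 1 := by
    by_contra hc
    push Not at hc
    exact hS.ne_bot E hE (eq_bot_iff.2 fun y hy => by simpa using hc y hy)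
  rcases hS.pair E hE C hC with h1 | h1 | h1
  · -- commuting
    have hec : ∀ c ∈ C, e * c = c * e := fun c hc => comm_of_commutator_eq_bot h1 he hc
    obtain ⟨c, hc, hct⟩ := decomp_of_comm h hCc (hle he) hec
    set t := c⁻¹ * e with ht
    have hval : e = c * t := by rw [ht]; group
    by_cases ht1 : t = 1
    · -- e ∈ C
      have hec' : e ∈ C := by rw [hval, ht1, mul_one]; exact hc
      rcases ti hS hE hD h with h2 | h2
      · have : e ∈ C ⊓ E := ⟨hec', he⟩
        rw [h2] at this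
        exact absurd (by simpa using this) he1
      · rw [← h2]; exact hCm
    · by_cases hc1 : c = 1
      · exfalso
        obtain ⟨y, hy, hne⟩ := hnc e he he1
        apply hne
        have h3 : e = t := by rw [hval, hc1, one_mul]
        rw [h3]
        exact hct y hy
      · exfalso
        have hctt : c * t = t * c := (hct c ((le_sup_left : C ≤ C ⊔ D) hc)).symm
        refine root_central_translate hS hD h (z := t)
          (fun x hx => hct x ((le_sup_left : C ≤ C ⊔ D) hx))
          (fun x hx => hct x ((le_sup_right : D ≤ C ⊔ D) hx)) ht1 hc hc1 hE ?_ ?_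
        · rw [← hctt, ← hval]; exact he
        · rw [← hctt, ← hval]; exact he1
  · -- rank one
    obtain ⟨c, hc, -, hce⟩ := cond h1 he he1
    have h2 : conjBy C e ∈ unipotentSubgroups C D := conj_mem_unipotent (hle he) hCm
    rw [← hce] at h2
    have h3 := conj_mem_unipotent (x := c⁻¹) ((C ⊔ D).inv_mem ((le_sup_left : C ≤ C ⊔ D) hc)) h2
    rwa [conjBy_inv_conjBy] at h3
  · -- commutator case
    exfalso
    have hF := h1.1
    have hcC : conjBy C e ∈ unipotentSubgroups C D := conj_mem_unipotent (hle he) hCm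
    obtain ⟨c₀, hc₀, hc₀1⟩ := exists_ne_one_left h
    have hval : ∀ c ∈ C, e * c * e⁻¹ = (e * c * e⁻¹ * c⁻¹) * c := fun c _ => by group
    have hfc : ∀ c ∈ C, e * c * e⁻¹ * c⁻¹ ∈ ⁅E, C⁆ := fun c hc => comm_mem h1 he hc
    -- `C` is fixed by `e`
    have hfix : conjBy C e = C := by
      by_contra hne
      have hc₁ : e * c₀ * e⁻¹ ∈ conjBy C e := conj_mem_conjBy hc₀
      have hc₂ : e * c₀ * e⁻¹ ≠ 1 := by
        intro he2; apply hc₀1
        have e3 : c₀ = e⁻¹ * (e * c₀ * e⁻¹) * e := by group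
        rw [e3, he2]; group
      apply hc₂
      refine eq_one_of_comm_of_mem_ne h hcC hCm hne hc₁ hc₀ hc₀1 ?_
      rw [hval c₀ hc₀]
      have h4 : (e * c₀ * e⁻¹ * c₀⁻¹) * c₀ = c₀ * (e * c₀ * e⁻¹ * c₀⁻¹) :=
        comm_central h1 (hfc c₀ hc₀) ((le_sup_right : C ≤ E ⊔ C) hc₀)
      calc (e * c₀ * e⁻¹ * c₀⁻¹) * c₀ * c₀ = c₀ * (e * c₀ * e⁻¹ * c₀⁻¹) * c₀ := by rw [h4]
        _ = c₀ * ((e * c₀ * e⁻¹ * c₀⁻¹) * c₀) := mul_assoc _ _ _
    -- so the commutator subgroup lies in `C`
    have hle2 : ⁅E, C⁆ ≤ C := by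
      intro f hf
      obtain ⟨c, hc, rfl⟩ := exists_comm_right h1 he he1 hf
      have h5 : e * c * e⁻¹ ∈ conjBy C e := conj_mem_conjBy hc
      rw [hfix] at h5
      exact C.mul_mem h5 (C.inv_mem hc)
    have hF2 : C = ⁅E, C⁆ := by
      rcases ti hS hF hD h with h2 | h2
      · rw [inf_eq_right.2 hle2] at h2
        exact absurd h2 (hS.ne_bot _ hF)
      · exact h2
    -- `C` is central in `E ⊔ C`, so the commutator is trivial
    apply hS.ne_bot _ hF
    apply commutator_eq_bot_of_comm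
    intro x hx c hc
    have h6 : c ∈ ⁅E, C⁆ := hF2 ▸ hc
    exact (comm_central h1 h6 ((le_sup_left : E ≤ E ⊔ C) hx)).symm

/-- Two different members of Ω define the same Ω. -/
lemma unipotent_eq_of_mem_ne {A B C D : Subgroup G} (h : IsRankOnePair C D) (hA : A ∈ unipotentSubgroups C D)
    (hB : B ∈ unipotentSubgroups C D) (hne : A ≠ B) : unipotentSubgroups A B = unipotentSubgroups C D := by
  have hsup := sup_eq_of_mem_ne h hA hB hne
  obtain ⟨x, hx, rfl⟩ := hA
  ext E
  constructor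
  · rintro ⟨y, hy, rfl⟩
    rw [hsup] at hy
    rw [conjBy_conjBy]
    exact ⟨y * x, (C ⊔ D).mul_mem hy hx, rfl⟩
  · rintro ⟨y, hy, rfl⟩
    refine ⟨y * x⁻¹, ?_, ?_⟩
    · rw [hsup]
      exact (C ⊔ D).mul_mem hy ((C ⊔ D).inv_mem hx)
    · rw [conjBy_conjBy]
      congr 1
      group

end Cfsg.Agent.Lib.Amalgam.Lines
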