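import Cfsg.Agent.Lib.Amalgam.Components

/-!
# Opposite commutator partners

The configuration `[A, B] = C`, `[D, C] = A` of abstract root subgroups.  Then `B, D` is a rank one pair acting on
`N = A C`.
-/

set_option autoImplicit false

namespace Cfsg.Agent.Lib.Amalgam.Opposite

open Cfsg Cfsg.Agent.Lib.Amalgam.RankOne Cfsg.Agent.Lib.Amalgam.RootSet Cfsg.Agent.Lib.Amalgam.CommCase
open Cfsg.Agent.Lib.Amalgam.Lines Cfsg.Agent.Lib.Amalgam.Components

variable {G : Type*} [Group G] {S : Set (Subgroup G)}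

/-- The configuration `[A, B] = C`, `[D, C] = A`. -/
structure Opp (S : Set (Subgroup G)) (A B C D : Subgroup G) : Prop where
  hS : IsRootSubgroupSet S
  hA : A ∈ S
  hB : B ∈ S
  hC : C ∈ S
  hD : D ∈ S
  hAB : ⁅A, B⁆ = C
  hDC : ⁅D, C⁆ = A

namespace Opp

variable {A B C D : Subgroup G} (h : Opp S A B C D)
include h

lemma swap : Opp S C D A B :=
  ⟨h.hS, h.hC, h.hD, h.hA, h.hB, by rw [Subgroup.commutator_comm]; exact h.hDC,
    by rw [Subgroup.commutator_comm]; exact h.hAB⟩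

lemma caseAB : RootCommutatorCase S A B := commCase_of_mem h.hS h.hA h.hB (by rw [h.hAB]; exact h.hC)

lemma caseBA : RootCommutatorCase S B A :=
  commCase_of_mem h.hS h.hB h.hA (by rw [Subgroup.commutator_comm, h.hAB]; exact h.hC)

lemma caseDC : RootCommutatorCase S D C := h.swap.caseBA

lemma caseCD : RootCommutatorCase S C D := h.swap.caseAB

lemma comm_c_b {c b : G} (hc : c ∈ C) (hb : b ∈ B) : c * b = b * c :=
  h.caseAB.2.1 c (by rw [h.hAB]; exact hc) b ((le_sup_right : B ≤ A ⊔ B) hb)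

lemma comm_c_a {c a : G} (hc : c ∈ C) (ha : a ∈ A) : c * a = a * c :=
  h.caseAB.2.1 c (by rw [h.hAB]; exact hc) a ((le_sup_left : A ≤ A ⊔ B) ha)

lemma comm_a_d {a d : G} (ha : a ∈ A) (hd : d ∈ D) : a * d = d * a := h.swap.comm_c_b ha hd

lemma mem_c {a b : G} (ha : a ∈ A) (hb : b ∈ B) : a * b * a⁻¹ * b⁻¹ ∈ C := by
  rw [← h.hAB]; exact Subgroup.commutator_mem_commutator ha hb

lemma mem_a {d c : G} (hd : d ∈ D) (hc : c ∈ C) : d * c * d⁻¹ * c⁻¹ ∈ A := by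
  rw [← h.hDC]; exact Subgroup.commutator_mem_commutator hd hc

lemma mem_c' {a b : G} (ha : a ∈ A) (hb : b ∈ B) : b * a * b⁻¹ * a⁻¹ ∈ C := by
  have : b * a * b⁻¹ * a⁻¹ = (a * b * a⁻¹ * b⁻¹)⁻¹ := by group
  rw [this]
  exact C.inv_mem (h.mem_c ha hb)

lemma inf_eq : A ⊓ C = ⊥ := by
  rw [eq_bot_iff]
  rintro x ⟨hxA, hxC⟩
  by_contra hx1
  have hx1' : x ≠ 1 := by simpa using hx1
  obtain ⟨b, hb, hne⟩ := comm_ne_one_right h.caseAB h.hS hxA hx1'
  apply hne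
  have : x * b = b * x := h.comm_c_b hxC hb
  rw [this]; group

lemma exists_b : ∃ b ∈ B, b ≠ 1 := by
  by_contra hc
  push Not at hc
  exact h.hS.ne_bot B h.hB (eq_bot_iff.2 fun y hy => by simpa using hc y hy)

lemma exists_d : ∃ d ∈ D, d ≠ 1 := h.swap.exists_b

/-- `D` does not commute with `C`. -/
lemma not_dc (hc : ∀ d ∈ D, ∀ c ∈ C, d * c = c * d) : False := by
  apply h.hS.ne_bot A h.hA
  rw [← h.hDC]
  exact commutator_eq_bot_of_comm hc

lemma not_comm : ⁅B, D⁆ ≠ ⊥ := by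
  intro hc
  obtain ⟨b, hb, hb1⟩ := h.exists_b
  apply h.not_dc
  intro d hd c hcC
  obtain ⟨a, ha, hac⟩ := exists_comm_left h.caseAB hb hb1 (by rw [h.hAB]; exact hcC)
  have h1 : Commute d a := (h.comm_a_d ha hd).symm
  have h2 : Commute d b := (comm_of_commutator_eq_bot hc hb hd).symm
  rw [← hac]
  exact ((((h1.mul_right h2).mul_right h1.inv_right).mul_right h2.inv_right)).eq

/-- The main computation excluding the commutator case for `(B, D)`. -/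
lemma key_comm {b d : G} (hb : b ∈ B) (hb1 : b ≠ 1) (hd : d ∈ D)
    (hdd : (b * d * b⁻¹) * d = d * (b * d * b⁻¹)) {c₀ : G} (hc₀ : c₀ ∈ C) :
    d * (b * (d * c₀ * d⁻¹ * c₀⁻¹) * b⁻¹ * (d * c₀ * d⁻¹ * c₀⁻¹)⁻¹)
      = (b * (d * c₀ * d⁻¹ * c₀⁻¹) * b⁻¹ * (d * c₀ * d⁻¹ * c₀⁻¹)⁻¹) * d := by
  obtain ⟨a, ha, hac⟩ := exists_comm_left h.caseAB hb hb1 (by rw [h.hAB]; exact hc₀)
  have hbc : c₀ * b = b * c₀ := h.comm_c_b hc₀ hb
  have hac' : c₀ * a = a * c₀ := h.comm_c_a hc₀ ha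
  have hda : a * d = d * a := h.comm_a_d ha hd
  obtain ⟨a₂, ha₂d⟩ : ∃ a₂, a₂ = d * c₀ * d⁻¹ * c₀⁻¹ := ⟨_, rfl⟩
  rw [← ha₂d]
  have ha₂ : a₂ ∈ A := by rw [ha₂d]; exact h.mem_a hd hc₀
  have hda₂ : a₂ * d = d * a₂ := h.comm_a_d ha₂ hd
  obtain ⟨c₁, hc₁d⟩ : ∃ c₁, c₁ = b * a₂ * b⁻¹ * a₂⁻¹ := ⟨_, rfl⟩
  rw [← hc₁d]
  -- b⁻¹ a b = c₀ a
  have e1 : b⁻¹ * a * b = c₀ * a := by
    have : a * b = c₀ * (b * a) := by rw [← hac]; group
    calc b⁻¹ * a * b = b⁻¹ * (a * b) := by group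
      _ = b⁻¹ * (c₀ * (b * a)) := by rw [this]
      _ = b⁻¹ * ((c₀ * b) * a) := by group
      _ = b⁻¹ * ((b * c₀) * a) := by rw [hbc]
      _ = c₀ * a := by group
  have e2 : b * a * b⁻¹ = c₀⁻¹ * a := by
    have : b * a = c₀⁻¹ * (a * b) := by rw [← hac]; group
    rw [this]; group
  have e3 : d * (c₀ * a) * d⁻¹ = a₂ * c₀ * a := by
    have hdi : a * d⁻¹ = d⁻¹ * a := (Commute.inv_right (hda : Commute a d)).eq
    calc d * (c₀ * a) * d⁻¹ = d * c₀ * (a * d⁻¹) := by group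
      _ = d * c₀ * (d⁻¹ * a) := by rw [hdi]
      _ = a₂ * c₀ * a := by rw [ha₂d]; group
  have hbc' : b * c₀ * b⁻¹ = c₀ := by rw [← hbc]; group
  have e4 : (b * d * b⁻¹) * a * (b * d * b⁻¹)⁻¹ = c₁ * a₂ * a := by
    calc (b * d * b⁻¹) * a * (b * d * b⁻¹)⁻¹ = b * (d * (b⁻¹ * a * b) * d⁻¹) * b⁻¹ := by group
      _ = b * (a₂ * c₀ * a) * b⁻¹ := by rw [e1, e3]
      _ = (b * a₂ * b⁻¹) * (b * c₀ * b⁻¹) * (b * a * b⁻¹) := by group
      _ = (b * a₂ * b⁻¹) * c₀ * (c₀⁻¹ * a) := by rw [hbc', e2]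
      _ = c₁ * a₂ * a := by rw [hc₁d]; group
  have hc1 : Commute d (b * d * b⁻¹) := hdd.symm
  have hc2 : Commute d a := hda.symm
  have hc3 : Commute d a₂ := hda₂.symm
  have hc4 : Commute d (c₁ * a₂ * a) := by
    rw [← e4]
    exact (hc1.mul_right hc2).mul_right hc1.inv_right
  have e5 : c₁ = (c₁ * a₂ * a) * a⁻¹ * a₂⁻¹ := by group
  rw [e5]
  exact ((hc4.mul_right hc2.inv_right).mul_right hc3.inv_right).eq

lemma not_case : ¬ RootCommutatorCase S B D := by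
  intro hE
  obtain ⟨b, hb, hb1⟩ := h.exists_b
  apply h.not_dc
  intro d' hd' c hc
  by_cases hd1' : d' = 1
  · rw [hd1']; group
  -- now the same for a general element: use `d'` in place of `d`
  have hdd' : (b * d' * b⁻¹) * d' = d' * (b * d' * b⁻¹) := by
    have h1 := comm_central hE (comm_mem hE hb hd') ((le_sup_right : D ≤ B ⊔ D) hd')
    have e1 : b * d' * b⁻¹ = (b * d' * b⁻¹ * d'⁻¹) * d' := by group
    rw [e1, mul_assoc, ← mul_assoc d', ← h1]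
    group
  obtain ⟨x, hx, hxc⟩ := exists_comm_left h.caseAB hb hb1 (by rw [h.hAB]; exact C.inv_mem hc)
  obtain ⟨c₀, hc₀, hc₀x⟩ := exists_comm_right h.caseDC hd' hd1' (by rw [h.hDC]; exact hx)
  have h2 := h.key_comm hb hb1 hd' hdd' hc₀
  rw [hc₀x] at h2
  have e : b * x * b⁻¹ * x⁻¹ = c := by
    have : b * x * b⁻¹ * x⁻¹ = (x * b * x⁻¹ * b⁻¹)⁻¹ := by group
    rw [this, hxc, inv_inv]
  rwa [e] at h2

/-- `B, D` is a rank one pair. -/
lemma rank_one : IsRankOnePair B D := by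
  rcases h.hS.pair B h.hB D h.hD with h1 | h1 | h1
  · exact absurd h1 h.not_comm
  · exact h1
  · exact absurd h1 h.not_case

lemma rank_one' : IsRankOnePair D B := RankOnePair_symm h.rank_one

/-- Injectivity of the commutator of `b ≠ 1` and `a ≠ 1`. -/
lemma comm_ne_one_ba {a b : G} (ha : a ∈ A) (ha1 : a ≠ 1) (hb : b ∈ B) (hb1 : b ≠ 1) :
    b * a * b⁻¹ * a⁻¹ ≠ 1 :=
  comm_ne_one h.hS h.caseBA h.hD h.rank_one h.hB hb hb1 ha ha1

lemma comm_ne_one_dc {c d : G} (hc : c ∈ C) (hc1 : c ≠ 1) (hd : d ∈ D) (hd1 : d ≠ 1) :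
    d * c * d⁻¹ * c⁻¹ ≠ 1 := h.swap.comm_ne_one_ba hc hc1 hd hd1

lemma not_comm_ba {a b : G} (ha : a ∈ A) (ha1 : a ≠ 1) (hb : b ∈ B) (hb1 : b ≠ 1) : b * a ≠ a * b := by
  intro he
  apply h.comm_ne_one_ba ha ha1 hb hb1
  rw [he]; group

/-- An element of `N = A C` commuting with `b ≠ 1` lies in `C`. -/
lemma mem_c_of_comm {x b : G} (hx : x ∈ A ⊔ C) (hb : b ∈ B) (hb1 : b ≠ 1) (hc : x * b = b * x) : x ∈ C := by
  obtain ⟨a, ha, c, hcC, rfl⟩ := mem_sup_of_comm (fun u hu v hv => (h.comm_c_a hv hu).symm) hx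
  by_cases ha1 : a = 1
  · rw [ha1, one_mul]; exact hcC
  exfalso
  apply h.not_comm_ba ha ha1 hb hb1
  have h1 : c * b = b * c := h.comm_c_b hcC hb
  have h2 : c * (a * b) = c * (b * a) := by
    calc c * (a * b) = a * c * b := by rw [← mul_assoc, h.comm_c_a hcC ha]
      _ = b * (a * c) := hc
      _ = (b * a) * c := by group
      _ = c * (b * a) := by
        have h3 : Commute c (b * a) := (Commute.mul_right h1 (h.comm_c_a hcC ha))
        exact h3.symm.eq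
  exact (mul_left_cancel h2).symm

lemma mem_a_of_comm {x d : G} (hx : x ∈ A ⊔ C) (hd : d ∈ D) (hd1 : d ≠ 1) (hc : x * d = d * x) : x ∈ A :=
  h.swap.mem_c_of_comm (by rwa [sup_comm]) hd hd1 hc

/-- `B` normalizes `N`. -/
lemma conj_b_mem {b x : G} (hb : b ∈ B) (hx : x ∈ A ⊔ C) : b * x * b⁻¹ ∈ A ⊔ C := by
  obtain ⟨a, ha, c, hcC, rfl⟩ := mem_sup_of_comm (fun u hu v hv => (h.comm_c_a hv hu).symm) hx
  have e : b * (a * c) * b⁻¹ = (b * a * b⁻¹ * a⁻¹) * (a * (b * c * b⁻¹)) := by group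
  rw [e]
  have h1 : b * c * b⁻¹ = c := by
    have := h.comm_c_b hcC hb
    rw [← this]; group
  rw [h1]
  exact (A ⊔ C).mul_mem ((le_sup_right : C ≤ A ⊔ C) (h.mem_c' ha hb))
    ((A ⊔ C).mul_mem ((le_sup_left : A ≤ A ⊔ C) ha) ((le_sup_right : C ≤ A ⊔ C) hcC))

lemma conj_d_mem {d x : G} (hd : d ∈ D) (hx : x ∈ A ⊔ C) : d * x * d⁻¹ ∈ A ⊔ C := by
  have := h.swap.conj_b_mem hd (by rwa [sup_comm])
  rwa [sup_comm]

lemma conjBy_n_b {b : G} (hb : b ∈ B) : conjBy (A ⊔ C) b = A ⊔ C := by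
  apply le_antisymm
  · intro x hx
    rw [mem_conjBy] at hx
    have := h.conj_b_mem hb hx
    have e : b * (b⁻¹ * x * b) * b⁻¹ = x := by group
    rwa [e] at this
  · intro x hx
    rw [mem_conjBy]
    have := h.conj_b_mem (B.inv_mem hb) hx
    simpa using this

lemma conjBy_n_d {d : G} (hd : d ∈ D) : conjBy (A ⊔ C) d = A ⊔ C := by
  have := h.swap.conjBy_n_b hd
  rwa [sup_comm] at this

/-- `X = ⟨B, D⟩` normalizes `N`. -/
lemma conjBy_n {x : G} (hx : x ∈ B ⊔ D) : conjBy (A ⊔ C) x = A ⊔ C := by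
  have := stable_sup (A := B) (B := D) (T := {A ⊔ C})
    (fun b hb E hE => by
      rw [Set.mem_singleton_iff] at hE ⊢
      rw [hE]; exact h.conjBy_n_b hb)
    (fun d hd E hE => by
      rw [Set.mem_singleton_iff] at hE ⊢
      rw [hE]; exact h.conjBy_n_d hd) x hx (A ⊔ C) rfl
  simpa using this

lemma conj_n_mem {x n : G} (hx : x ∈ B ⊔ D) (hn : n ∈ A ⊔ C) : x * n * x⁻¹ ∈ A ⊔ C := by
  rw [← h.conjBy_n hx]
  exact conj_mem_conjBy hn

/-- The key link between `b` and `d(b)`. -/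
lemma conjBy_a_eq {b d : G} (hb : b ∈ B) (hb1 : b ≠ 1) (hd : d ∈ D) (hd1 : d ≠ 1)
    (hbd : conjBy B d = conjBy D b) : conjBy A (d⁻¹ * b) = C := by
  have hw : d⁻¹ * b ∈ B ⊔ D :=
    (B ⊔ D).mul_mem ((le_sup_right : D ≤ B ⊔ D) (D.inv_mem hd)) ((le_sup_left : B ≤ B ⊔ D) hb)
  have hDw : conjBy D (d⁻¹ * b) = B := by
    rw [← conjBy_conjBy, ← hbd, conjBy_inv_conjBy]
  apply le_antisymm
  · intro x hx
    have hxN : x ∈ A ⊔ C := by
      rw [← h.conjBy_n hw]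
      exact conjBy_le_conjBy (le_sup_left : A ≤ A ⊔ C) _ hx
    refine h.mem_c_of_comm hxN hb hb1 ?_
    -- `x` commutes with `b ∈ B = D^w`
    have hb' : b ∈ conjBy D (d⁻¹ * b) := by rw [hDw]; exact hb
    rw [mem_conjBy] at hb' hx
    set w := d⁻¹ * b with hw'
    have h1 := h.comm_a_d hx hb'
    have e1 : x = w * (w⁻¹ * x * w) * w⁻¹ := by group
    have e2 : b = w * (w⁻¹ * b * w) * w⁻¹ := by group
    calc x * b = (w * (w⁻¹ * x * w) * w⁻¹) * (w * (w⁻¹ * b * w) * w⁻¹) := by rw [← e1, ← e2]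
      _ = w * ((w⁻¹ * x * w) * (w⁻¹ * b * w)) * w⁻¹ := by group
      _ = w * ((w⁻¹ * b * w) * (w⁻¹ * x * w)) * w⁻¹ := by rw [h1]
      _ = (w * (w⁻¹ * b * w) * w⁻¹) * (w * (w⁻¹ * x * w) * w⁻¹) := by group
      _ = b * x := by rw [← e1, ← e2]
  · intro y hy
    rw [mem_conjBy]
    set w := d⁻¹ * b with hw'
    have hd' : w * d * w⁻¹ ∈ B := by
      have : w * d * w⁻¹ ∈ conjBy D w := conj_mem_conjBy hd
      rwa [hDw] at this
    have h1 := h.comm_c_b hy hd'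
    have hz : w⁻¹ * y * w ∈ A ⊔ C := by
      have := h.conj_n_mem ((B ⊔ D).inv_mem hw) ((le_sup_right : C ≤ A ⊔ C) hy)
      simpa using this
    refine h.mem_a_of_comm hz hd hd1 ?_
    calc (w⁻¹ * y * w) * d = w⁻¹ * (y * (w * d * w⁻¹)) * w := by group
      _ = w⁻¹ * ((w * d * w⁻¹) * y) * w := by rw [h1]
      _ = d * (w⁻¹ * y * w) := by group

/-- `A^b = C^d` for corresponding non-trivial `b` and `d`. -/
lemma conjBy_a_eq' {b d : G} (hb : b ∈ B) (hb1 : b ≠ 1) (hd : d ∈ D) (hd1 : d ≠ 1)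
    (hbd : conjBy B d = conjBy D b) : conjBy A b = conjBy C d := by
  rw [← h.conjBy_a_eq hb hb1 hd hd1 hbd, conjBy_conjBy]
  group

/-- `A` and `C` are conjugate under `X`. -/
lemma exists_conj : ∃ w ∈ B ⊔ D, conjBy A w = C := by
  obtain ⟨b, hb, hb1⟩ := h.exists_b
  obtain ⟨d, hd, hd1, hbd⟩ := cond h.rank_one hb hb1
  exact ⟨d⁻¹ * b, (B ⊔ D).mul_mem ((le_sup_right : D ≤ B ⊔ D) (D.inv_mem hd)) ((le_sup_left : B ≤ B ⊔ D) hb),
    h.conjBy_a_eq hb hb1 hd hd1 hbd⟩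

/-- The set `A^B ∪ {C}`. -/
def setT (A B C : Subgroup G) : Set (Subgroup G) := (fun b : G => conjBy A b) '' (B : Set G) ∪ {C}

omit h in
lemma mem_setT {A B C E : Subgroup G} : E ∈ setT A B C ↔ (∃ b ∈ B, conjBy A b = E) ∨ E = C := by
  simp [setT, or_comm]

lemma setT_subset : setT A B C ⊆ setT C D A := by
  intro E hE
  rw [mem_setT] at hE ⊢
  rcases hE with ⟨b, hb, rfl⟩ | rfl
  · by_cases hb1 : b = 1
    · right; rw [hb1, conjBy_one]
    · obtain ⟨d, hd, hd1, hbd⟩ := cond h.rank_one hb hb1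
      left
      exact ⟨d, hd, (h.conjBy_a_eq' hb hb1 hd hd1 hbd).symm⟩
  · left
    exact ⟨1, D.one_mem, conjBy_one _⟩

lemma setT_eq : setT A B C = setT C D A := Set.Subset.antisymm h.setT_subset h.swap.setT_subset

/-- `T` is `B`-stable. -/
lemma setT_b {b : G} {E : Subgroup G} (hb : b ∈ B) (hE : E ∈ setT A B C) : conjBy E b ∈ setT A B C := by
  rw [mem_setT] at hE ⊢
  rcases hE with ⟨b', hb', rfl⟩ | rfl
  · left
    exact ⟨b * b', B.mul_mem hb hb', by rw [conjBy_conjBy]⟩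
  · right
    exact conjBy_eq_self_of_comm (fun u hu => (h.comm_c_b hu hb).symm)

lemma setT_x {x : G} {E : Subgroup G} (hx : x ∈ B ⊔ D) (hE : E ∈ setT A B C) : conjBy E x ∈ setT A B C := by
  refine stable_sup (fun b hb E hE => h.setT_b hb hE) (fun d hd E hE => ?_) x hx E hE
  rw [h.setT_eq] at hE ⊢
  exact h.swap.setT_b hd hE

/-- The orbit of `A`. -/
lemma orbit_eq : {E | ∃ x ∈ B ⊔ D, E = conjBy A x} = setT A B C := by
  ext E
  constructor
  · rintro ⟨x, hx, rfl⟩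
    apply h.setT_x hx
    rw [mem_setT]
    exact Or.inl ⟨1, B.one_mem, conjBy_one _⟩
  · intro hE
    rw [mem_setT] at hE
    rcases hE with ⟨b, hb, rfl⟩ | rfl
    · exact ⟨b, (le_sup_left : B ≤ B ⊔ D) hb, rfl⟩
    · obtain ⟨w, hw, hwe⟩ := h.exists_conj
      exact ⟨w, hw, hwe.symm⟩

lemma orbit_eq' : {E | ∃ x ∈ B ⊔ D, E = conjBy A x} = {E | ∃ x ∈ B ⊔ D, E = conjBy C x} := by
  obtain ⟨w, hw, hwe⟩ := h.exists_conj
  ext E
  constructor
  · rintro ⟨x, hx, rfl⟩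
    refine ⟨x * w⁻¹, (B ⊔ D).mul_mem hx ((B ⊔ D).inv_mem hw), ?_⟩
    rw [← hwe, conjBy_conjBy]
    group
  · rintro ⟨x, hx, rfl⟩
    refine ⟨x * w, (B ⊔ D).mul_mem hx hw, ?_⟩
    rw [← hwe, conjBy_conjBy]

/-- The partition of `N`. -/
lemma partition_n : IsSubgroupPartition (A ⊔ C) (setT A B C) := by
  refine ⟨?_, ?_, ?_⟩
  · intro E hE
    rw [mem_setT] at hE
    rcases hE with ⟨b, hb, rfl⟩ | rfl
    · rw [← h.conjBy_n_b hb]
      exact conjBy_le_conjBy le_sup_left b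
    · exact le_sup_right
  · intro x hx hx1
    obtain ⟨a, ha, c, hcC, rfl⟩ := mem_sup_of_comm (fun u hu v hv => (h.comm_c_a hv hu).symm) hx
    by_cases ha1 : a = 1
    · refine ⟨C, mem_setT.2 (Or.inr rfl), ?_⟩
      rw [ha1, one_mul]; exact hcC
    · obtain ⟨w, hw, hwc⟩ := exists_comm_right h.caseAB ha ha1 (by rw [h.hAB]; exact C.inv_mem hcC)
      refine ⟨conjBy A w, mem_setT.2 (Or.inl ⟨w, hw, rfl⟩), ?_⟩
      have e : a * c = w * a * w⁻¹ := by
        have e1 : c = (a * w * a⁻¹ * w⁻¹)⁻¹ := by rw [hwc, inv_inv]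
        have e2 : c * a = a * c := h.comm_c_a hcC ha
        rw [← e2, e1]
        group
      rw [e]
      exact conj_mem_conjBy ha
  · have key : ∀ E ∈ setT A B C, E ≠ C → E ⊓ C = ⊥ := by
      intro E hE hne
      rw [mem_setT] at hE
      rcases hE with ⟨b, hb, rfl⟩ | rfl
      · rw [eq_bot_iff]
        intro x hx
        obtain ⟨hxE, hxC⟩ := Subgroup.mem_inf.1 hx
        rw [mem_conjBy] at hxE
        have h1 := h.comm_c_b hxC hb
        have e : b⁻¹ * x * b = x := by rw [mul_assoc, h1]; group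
        rw [e] at hxE
        have : x ∈ A ⊓ C := ⟨hxE, hxC⟩
        rwa [h.inf_eq] at this
      · exact absurd rfl hne
    intro E hE F hF hne
    by_cases hEC : E = C
    · rw [hEC] at hne ⊢
      rw [inf_comm]
      exact key F hF (Ne.symm hne)
    by_cases hFC : F = C
    · rw [hFC]
      exact key E hE hEC
    rw [mem_setT] at hE hF
    obtain ⟨b₁, hb₁, rfl⟩ := hE.resolve_right hEC
    obtain ⟨b₂, hb₂, rfl⟩ := hF.resolve_right hFC
    rw [eq_bot_iff]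
    intro x hx
    obtain ⟨hx1, hx2⟩ := Subgroup.mem_inf.1 hx
    rw [mem_conjBy] at hx1 hx2
    by_contra hxne
    have hxne' : x ≠ 1 := by simpa using hxne
    set a₁ := b₁⁻¹ * x * b₁ with ha₁
    set b := b₂⁻¹ * b₁ with hb
    have hbB : b ∈ B := B.mul_mem (B.inv_mem hb₂) hb₁
    have hb1 : b ≠ 1 := by
      intro he
      apply hne
      have : b₁ = b₂ := by
        have : b₂⁻¹ * b₁ = 1 := he
        rw [inv_mul_eq_one] at this
        exact this.symm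
      rw [this]
    have ha₁1 : a₁ ≠ 1 := by
      intro he
      apply hxne'
      have e1 : x = b₁ * a₁ * b₁⁻¹ := by rw [ha₁]; group
      rw [e1, he]; group
    have e2 : b * a₁ * b⁻¹ = b₂⁻¹ * x * b₂ := by rw [ha₁, hb]; group
    have hm : b * a₁ * b⁻¹ * a₁⁻¹ ∈ A ⊓ C := ⟨by
        rw [e2]
        exact A.mul_mem hx2 (A.inv_mem hx1), h.mem_c' hx1 hbB⟩
    rw [h.inf_eq] at hm
    exact h.comm_ne_one_ba hx1 ha₁1 hbB hb1 (by simpa using hm)

/-- The centralizer of `N` in `X` is central in `X`. -/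
lemma centralizer_central {x : G} (hx : x ∈ (B ⊔ D) ⊓ Subgroup.centralizer ((A ⊔ C : Subgroup G) : Set G))
    {y : G} (hy : y ∈ B ⊔ D) : x * y = y * x := by
  have hcases := normal_dichotomy h.rank_one (N := (B ⊔ D) ⊓ Subgroup.centralizer ((A ⊔ C : Subgroup G) : Set G))
    inf_le_left (by
      intro u hu n hn
      obtain ⟨hn1, hn2⟩ := Subgroup.mem_inf.1 hn
      refine Subgroup.mem_inf.2 ⟨(B ⊔ D).mul_mem ((B ⊔ D).mul_mem hu hn1) ((B ⊔ D).inv_mem hu), ?_⟩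
      rw [Subgroup.mem_centralizer_iff] at hn2 ⊢
      intro m hm
      have hm' : u⁻¹ * m * u ∈ A ⊔ C := by
        have := h.conj_n_mem ((B ⊔ D).inv_mem hu) hm
        simpa using this
      have h3 := hn2 _ hm'
      calc m * (u * n * u⁻¹) = u * ((u⁻¹ * m * u) * n) * u⁻¹ := by group
        _ = u * (n * (u⁻¹ * m * u)) * u⁻¹ := by rw [h3]
        _ = (u * n * u⁻¹) * m := by group)
  rcases hcases with h1 | h1
  · exfalso
    apply h.not_dc
    intro d hd c hc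
    have hd' : d ∈ ((B ⊔ D) ⊓ Subgroup.centralizer ((A ⊔ C : Subgroup G) : Set G)) ⊔ B := by
      rw [h1]; exact (le_sup_right : D ≤ B ⊔ D) hd
    have hle : ((B ⊔ D) ⊓ Subgroup.centralizer ((A ⊔ C : Subgroup G) : Set G)) ⊔ B ≤
        Subgroup.centralizer ((C : Subgroup G) : Set G) := by
      apply sup_le
      · intro u hu'
        have hu := (Subgroup.mem_inf.1 hu').2
        rw [Subgroup.mem_centralizer_iff] at hu ⊢
        intro m hm
        exact hu m ((le_sup_right : C ≤ A ⊔ C) hm)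
      · intro u hu
        rw [Subgroup.mem_centralizer_iff]
        intro m hm
        exact h.comm_c_b hm hu
    have := hle hd'
    rw [Subgroup.mem_centralizer_iff] at this
    exact (this c hc).symm
  · exact h1 x hx y hy

end Opp

end Cfsg.Agent.Lib.Amalgam.Opposite
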