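import Mathlib
import Cfsg.Prelude.Def_RootSubgroups

/-!
# Rank one pairs: the basic theory

Conjugation is left conjugation `conjBy A g = g A g⁻¹`.  For a rank one pair `(A, B)` we prove the
standard facts: uniqueness of partners, the doubly transitive action on the set of unipotent
subgroups, trivial intersections, and centralizer facts.
-/

set_option autoImplicit false

namespace Cfsg.Agent.Lib.Amalgam.RankOne

open Cfsg

variable {G : Type*} [Group G]

/-! ### Conjugation -/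

lemma mem_conjBy {A : Subgroup G} {g x : G} : x ∈ conjBy A g ↔ g⁻¹ * x * g ∈ A := by
  constructor
  · rintro ⟨a, ha, rfl⟩
    simpa [MulAut.conj_apply, mul_assoc] using ha
  · intro h
    refine ⟨g⁻¹ * x * g, h, ?_⟩
    simp [MulAut.conj_apply, mul_assoc]

lemma conj_mem_conjBy {A : Subgroup G} {g a : G} (ha : a ∈ A) : g * a * g⁻¹ ∈ conjBy A g := by
  rw [mem_conjBy]
  simpa [mul_assoc] using ha

lemma conjBy_conjBy (A : Subgroup G) (g h : G) : conjBy (conjBy A h) g = conjBy A (g * h) := by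
  ext x
  simp only [mem_conjBy]
  simp [mul_assoc]

@[simp] lemma conjBy_one (A : Subgroup G) : conjBy A 1 = A := by
  ext x
  simp [mem_conjBy]

lemma conjBy_eq_self {A : Subgroup G} {g : G} (hg : g ∈ A) : conjBy A g = A := by
  ext x
  rw [mem_conjBy]
  constructor
  · intro h
    have := A.mul_mem (A.mul_mem hg h) (A.inv_mem hg)
    simpa [mul_assoc] using this
  · intro h
    exact A.mul_mem (A.mul_mem (A.inv_mem hg) h) hg

lemma comm_of_commutator_eq_one {x y : G} (h : x * y * x⁻¹ * y⁻¹ = 1) : x * y = y * x := by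
  have h1 : x * y * x⁻¹ = y := mul_inv_eq_one.1 h
  exact (mul_inv_eq_iff_eq_mul.1 h1)

lemma conjBy_eq_self_of_comm {A : Subgroup G} {c : G} (hc : ∀ a ∈ A, c * a = a * c) : conjBy A c = A := by
  ext x
  rw [mem_conjBy]
  constructor
  · intro h
    have h1 := hc _ h
    have h2 : c * (c⁻¹ * x * c) = x * c := by group
    rw [h2] at h1
    have h3 : c⁻¹ * x * c = x := by
      have h4 : (c⁻¹ * x * c) * c = x * c := h1.symm
      exact mul_right_cancel h4
    rwa [h3] at h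
  · intro h
    have h1 := hc _ h
    have h3 : c⁻¹ * x * c = x := by
      rw [mul_assoc, ← h1]; group
    rwa [h3]

lemma mem_normalizer_iff_conjBy {A : Subgroup G} {x : G} :
    x ∈ Subgroup.normalizer (A : Set G) ↔ conjBy A x = A := by
  rw [Subgroup.mem_normalizer_iff]
  constructor
  · intro h
    ext u
    rw [mem_conjBy]
    have := h (x⁻¹ * u * x)
    rw [this]
    have e : x * (x⁻¹ * u * x) * x⁻¹ = u := by group
    rw [e]
  · intro h u
    constructor
    · intro hu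
      have : x * u * x⁻¹ ∈ conjBy A x := conj_mem_conjBy hu
      rwa [h] at this
    · intro hu
      rw [← h, mem_conjBy] at hu
      have e : x⁻¹ * (x * u * x⁻¹) * x = u := by group
      rwa [e] at hu

lemma conjBy_inv_conjBy (A : Subgroup G) (g : G) : conjBy (conjBy A g) g⁻¹ = A := by
  rw [conjBy_conjBy]; simp

lemma conjBy_conjBy_inv (A : Subgroup G) (g : G) : conjBy (conjBy A g⁻¹) g = A := by
  rw [conjBy_conjBy]; simp

lemma conjBy_injective (g : G) : Function.Injective (fun A : Subgroup G => conjBy A g) := by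
  intro A B h
  have h' : conjBy (conjBy A g) g⁻¹ = conjBy (conjBy B g) g⁻¹ := congrArg (fun C => conjBy C g⁻¹) h
  rwa [conjBy_inv_conjBy, conjBy_inv_conjBy] at h'

lemma conjBy_eq_iff {A B : Subgroup G} {g : G} : conjBy A g = B ↔ A = conjBy B g⁻¹ := by
  constructor
  · rintro rfl; rw [conjBy_inv_conjBy]
  · rintro rfl; rw [conjBy_conjBy_inv]

lemma conjBy_sup (A B : Subgroup G) (g : G) : conjBy (A ⊔ B) g = conjBy A g ⊔ conjBy B g :=
  Subgroup.map_sup _ _ _

lemma conjBy_inf (A B : Subgroup G) (g : G) : conjBy (A ⊓ B) g = conjBy A g ⊓ conjBy B g := by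
  ext x
  rw [Subgroup.mem_inf, mem_conjBy, mem_conjBy, mem_conjBy, Subgroup.mem_inf]

lemma conjBy_bot (g : G) : conjBy (⊥ : Subgroup G) g = ⊥ := by
  ext x
  simp only [mem_conjBy, Subgroup.mem_bot]
  constructor
  · intro h
    have : x = g * (g⁻¹ * x * g) * g⁻¹ := by group
    rw [this, h]; group
  · rintro rfl; group

lemma conjBy_eq_bot_iff {A : Subgroup G} {g : G} : conjBy A g = ⊥ ↔ A = ⊥ := by
  constructor
  · intro h
    rw [conjBy_eq_iff] at h
    rw [h, conjBy_bot]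
  · rintro rfl; exact conjBy_bot g

lemma conjBy_le_conjBy {A B : Subgroup G} (h : A ≤ B) (g : G) : conjBy A g ≤ conjBy B g :=
  Subgroup.map_mono h

lemma conjBy_commutator (A B : Subgroup G) (g : G) : conjBy ⁅A, B⁆ g = ⁅conjBy A g, conjBy B g⁆ :=
  Subgroup.map_commutator _ _ _

lemma isNilpotent_conjBy {A : Subgroup G} (hA : Group.IsNilpotent A) (g : G) :
    Group.IsNilpotent (conjBy A g) := by
  have e : A ≃* conjBy A g := A.equivMapOfInjective _ (MulAut.conj g).injective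
  exact Group.nilpotent_of_mulEquiv e

lemma isMulCommutative_conjBy {A : Subgroup G} (hA : IsMulCommutative A) (g : G) :
    IsMulCommutative (conjBy A g) := by
  refine ⟨⟨?_⟩⟩
  rintro ⟨x, hx⟩ ⟨y, hy⟩
  obtain ⟨a, ha, rfl⟩ := hx
  obtain ⟨b, hb, rfl⟩ := hy
  have := hA.is_comm.comm ⟨a, ha⟩ ⟨b, hb⟩
  have hab : a * b = b * a := congrArg Subtype.val this
  apply Subtype.ext
  show (MulAut.conj g).toMonoidHom a * (MulAut.conj g).toMonoidHom b =
    (MulAut.conj g).toMonoidHom b * (MulAut.conj g).toMonoidHom a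
  rw [← map_mul, ← map_mul, hab]

lemma comm_of_isMulCommutative {A : Subgroup G} (hA : IsMulCommutative A) {x y : G} (hx : x ∈ A)
    (hy : y ∈ A) : x * y = y * x :=
  congrArg Subtype.val (hA.is_comm.comm ⟨x, hx⟩ ⟨y, hy⟩)

/-! ### Rank one pairs -/

section Pair

variable {A B : Subgroup G} (h : IsRankOnePair A B)

include h

/-- Left-action form of the rank one condition. -/
lemma cond {a : G} (ha : a ∈ A) (ha1 : a ≠ 1) : ∃ b ∈ B, b ≠ 1 ∧ conjBy A b = conjBy B a := by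
  obtain ⟨b, hb, hb1, hab⟩ := h.cond_left a⁻¹ (A.inv_mem ha) (by simpa using ha1)
  refine ⟨b⁻¹, B.inv_mem hb, by simpa using hb1, ?_⟩
  simpa using hab

lemma cond' {b : G} (hb : b ∈ B) (hb1 : b ≠ 1) : ∃ a ∈ A, a ≠ 1 ∧ conjBy A b = conjBy B a := by
  obtain ⟨a, ha, ha1, hab⟩ := h.cond_right b⁻¹ (B.inv_mem hb) (by simpa using hb1)
  refine ⟨a⁻¹, A.inv_mem ha, by simpa using ha1, ?_⟩
  simpa using hab.symm

lemma left_ne_bot : A ≠ ⊥ := by
  rintro rfl
  have hB : B = ⊥ := by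
    rw [eq_bot_iff]
    intro b hb
    by_contra hb1
    obtain ⟨a, ha, ha1, -⟩ := cond' h hb hb1
    exact ha1 (by simpa using ha)
  exact h.ne hB.symm

lemma right_ne_bot : B ≠ ⊥ := by
  rintro rfl
  have hA : A = ⊥ := by
    rw [eq_bot_iff]
    intro a ha
    by_contra ha1
    obtain ⟨b, hb, hb1, -⟩ := cond h ha ha1
    exact hb1 (by simpa using hb)
  exact h.ne hA

lemma exists_ne_one_left : ∃ a ∈ A, a ≠ 1 := by
  by_contra hc
  push Not at hc
  exact left_ne_bot h (eq_bot_iff.2 fun x hx => by simpa using hc x hx)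

lemma exists_ne_one_right : ∃ b ∈ B, b ≠ 1 := by
  by_contra hc
  push Not at hc
  exact right_ne_bot h (eq_bot_iff.2 fun x hx => by simpa using hc x hx)

/-- No non-identity element of `A` normalizes `B`. -/
lemma conjBy_right_ne {a : G} (ha : a ∈ A) (ha1 : a ≠ 1) : conjBy B a ≠ B := by
  intro hc
  obtain ⟨b, hb, -, hab⟩ := cond h ha ha1
  rw [hc] at hab
  apply h.ne
  rw [conjBy_eq_iff] at hab
  rw [hab, conjBy_eq_self (B.inv_mem hb)]

/-- No non-identity element of `B` normalizes `A`. -/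
lemma conjBy_left_ne {b : G} (hb : b ∈ B) (hb1 : b ≠ 1) : conjBy A b ≠ A := by
  intro hc
  obtain ⟨a, ha, -, hab⟩ := cond' h hb hb1
  rw [hc] at hab
  apply h.ne
  have h2 := conjBy_eq_iff.1 hab.symm
  rw [conjBy_eq_self (A.inv_mem ha)] at h2
  exact h2.symm

lemma inf_eq_bot : A ⊓ B = ⊥ := by
  rw [eq_bot_iff]
  rintro x ⟨hxA, hxB⟩
  by_contra hx
  exact conjBy_right_ne h hxA hx (conjBy_eq_self hxB)

/-- Injectivity of `a ↦ a B`. -/
lemma conjBy_right_inj {a a' : G} (ha : a ∈ A) (ha' : a' ∈ A) (hc : conjBy B a = conjBy B a') : a = a' := by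
  by_contra hne
  have h1 : a'⁻¹ * a ≠ 1 := by
    intro he
    exact hne (by rw [← mul_right_inj a'⁻¹, he]; simp)
  apply conjBy_right_ne h (A.mul_mem (A.inv_mem ha') ha) h1
  rw [← conjBy_conjBy, hc, conjBy_conjBy]
  simp

/-- Injectivity of `b ↦ b A`. -/
lemma conjBy_left_inj {b b' : G} (hb : b ∈ B) (hb' : b' ∈ B) (hc : conjBy A b = conjBy A b') : b = b' := by
  by_contra hne
  have h1 : b'⁻¹ * b ≠ 1 := by
    intro he
    exact hne (by rw [← mul_right_inj b'⁻¹, he]; simp)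
  apply conjBy_left_ne h (B.mul_mem (B.inv_mem hb') hb) h1
  rw [← conjBy_conjBy, hc, conjBy_conjBy]
  simp

end Pair

lemma rankOnePair_symm {A B : Subgroup G} (h : IsRankOnePair A B) : IsRankOnePair B A :=
  RankOnePair_symm h

/-- Conjugates of rank one pairs are rank one pairs. -/
lemma rankOnePair_conjBy {A B : Subgroup G} (h : IsRankOnePair A B) (g : G) :
    IsRankOnePair (conjBy A g) (conjBy B g) := by
  refine ⟨fun hc => h.ne (conjBy_injective g hc), isNilpotent_conjBy h.nilpotent_left g,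
    isNilpotent_conjBy h.nilpotent_right g, ?_, ?_⟩
  · intro a ha ha1
    rw [mem_conjBy] at ha
    have ha1' : g⁻¹ * a * g ≠ 1 := by
      intro he; apply ha1
      have : a = g * (g⁻¹ * a * g) * g⁻¹ := by group
      rw [this, he]; group
    obtain ⟨b, hb, hb1, hab⟩ := h.cond_left _ ha ha1'
    refine ⟨g * b * g⁻¹, conj_mem_conjBy hb, ?_, ?_⟩
    · intro he; apply hb1
      have : b = g⁻¹ * (g * b * g⁻¹) * g := by group
      rw [this, he]; group
    · rw [conjBy_conjBy, conjBy_conjBy]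
      have e1 : (g * b * g⁻¹)⁻¹ * g = g * b⁻¹ := by group
      have e2 : a⁻¹ * g = g * (g⁻¹ * a * g)⁻¹ := by group
      rw [e1, e2, ← conjBy_conjBy, ← conjBy_conjBy, hab]
  · intro a ha ha1
    rw [mem_conjBy] at ha
    have ha1' : g⁻¹ * a * g ≠ 1 := by
      intro he; apply ha1
      have : a = g * (g⁻¹ * a * g) * g⁻¹ := by group
      rw [this, he]; group
    obtain ⟨b, hb, hb1, hab⟩ := h.cond_right _ ha ha1'
    refine ⟨g * b * g⁻¹, conj_mem_conjBy hb, ?_, ?_⟩
    · intro he; apply hb1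
      have : b = g⁻¹ * (g * b * g⁻¹) * g := by group
      rw [this, he]; group
    · rw [conjBy_conjBy, conjBy_conjBy]
      have e1 : (g * b * g⁻¹)⁻¹ * g = g * b⁻¹ := by group
      have e2 : a⁻¹ * g = g * (g⁻¹ * a * g)⁻¹ := by group
      rw [e1, e2, ← conjBy_conjBy, ← conjBy_conjBy, hab]

/-- Conjugate pair with inverse direction. -/
lemma rankOnePair_of_conjBy {A B : Subgroup G} {g : G} (h : IsRankOnePair (conjBy A g) (conjBy B g)) :
    IsRankOnePair A B := by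
  have := rankOnePair_conjBy h g⁻¹
  rwa [conjBy_inv_conjBy, conjBy_inv_conjBy] at this


/-! ### The set Ω of unipotent subgroups -/

/-- Subgroups generated by two abelian subgroups with central commutators have class two. -/
lemma comm_central_of_gen {U V : Subgroup G} (hU : IsMulCommutative U) (hV : IsMulCommutative V)
    (hc : ∀ u ∈ U, ∀ v ∈ V, ∀ z ∈ U ⊔ V, (u * v * u⁻¹ * v⁻¹) * z = z * (u * v * u⁻¹ * v⁻¹)) :
    ∀ x ∈ U ⊔ V, ∀ y ∈ U ⊔ V, ∀ z ∈ U ⊔ V, (x * y * x⁻¹ * y⁻¹) * z = z * (x * y * x⁻¹ * y⁻¹) := by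
  set X := U ⊔ V with hX
  have hUX : U ≤ X := le_sup_left
  have hVX : V ≤ X := le_sup_right
  -- the centralizer of X
  let Zc : Subgroup G := Subgroup.centralizer (X : Set G)
  have hZ : ∀ g : G, g ∈ Zc ↔ ∀ z ∈ X, g * z = z * g := by
    intro g
    rw [Subgroup.mem_centralizer_iff]
    constructor
    · intro h z hz
      exact (h z hz).symm
    · intro h z hz
      exact (h z hz).symm
  -- for fixed x, the y in X with [x,y] central form a subgroup
  let T : G → Subgroup G := fun x =>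
    { carrier := {y | y ∈ X ∧ x * y * x⁻¹ * y⁻¹ ∈ Zc}
      mul_mem' := by
        rintro a b ⟨ha, ha'⟩ ⟨hb, hb'⟩
        refine ⟨X.mul_mem ha hb, ?_⟩
        have h1 : x * (a * b) * x⁻¹ * (a * b)⁻¹ =
            (x * a * x⁻¹ * a⁻¹) * (a * (x * b * x⁻¹ * b⁻¹) * a⁻¹) := by group
        have h2 : a * (x * b * x⁻¹ * b⁻¹) * a⁻¹ = x * b * x⁻¹ * b⁻¹ := by
          have := (hZ _).1 hb' a ha
          rw [← this]; group
        rw [h1, h2]
        exact Zc.mul_mem ha' hb'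
      one_mem' := by
        refine ⟨X.one_mem, ?_⟩
        have : x * 1 * x⁻¹ * 1⁻¹ = 1 := by group
        rw [this]; exact Zc.one_mem
      inv_mem' := by
        rintro a ⟨ha, ha'⟩
        refine ⟨X.inv_mem ha, ?_⟩
        have h1 : x * a⁻¹ * x⁻¹ * a⁻¹⁻¹ = a⁻¹ * (x * a * x⁻¹ * a⁻¹)⁻¹ * a := by group
        have h2 : a⁻¹ * (x * a * x⁻¹ * a⁻¹)⁻¹ * a = (x * a * x⁻¹ * a⁻¹)⁻¹ := by
          have := (hZ _).1 (Zc.inv_mem ha') a ha
          rw [mul_assoc, this]; group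
        rw [h1, h2]
        exact Zc.inv_mem ha' }
  have hswap : ∀ x y : G, x * y * x⁻¹ * y⁻¹ ∈ Zc → y * x * y⁻¹ * x⁻¹ ∈ Zc := by
    intro x y h
    have : y * x * y⁻¹ * x⁻¹ = (x * y * x⁻¹ * y⁻¹)⁻¹ := by group
    rw [this]; exact Zc.inv_mem h
  have h_uv : ∀ u ∈ U, ∀ v ∈ V, u * v * u⁻¹ * v⁻¹ ∈ Zc := fun u hu v hv => (hZ _).2 (hc u hu v hv)
  have hone : ∀ x y : G, x * y = y * x → x * y * x⁻¹ * y⁻¹ ∈ Zc := by
    intro x y h
    have : x * y * x⁻¹ * y⁻¹ = 1 := by rw [h]; group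
    rw [this]; exact Zc.one_mem
  -- step 1
  have h1 : ∀ u ∈ U, X ≤ T u := by
    intro u hu
    apply sup_le
    · intro y hy
      exact ⟨hUX hy, hone _ _ (comm_of_isMulCommutative hU hu hy)⟩
    · intro y hy
      exact ⟨hVX hy, h_uv u hu y hy⟩
  have h2 : ∀ v ∈ V, X ≤ T v := by
    intro v hv
    apply sup_le
    · intro y hy
      exact ⟨hUX hy, hswap _ _ (h_uv y hy v hv)⟩
    · intro y hy
      exact ⟨hVX hy, hone _ _ (comm_of_isMulCommutative hV hv hy)⟩
  have h3 : ∀ y ∈ X, X ≤ T y := by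
    intro y hy
    apply sup_le
    · intro u hu
      exact ⟨hUX hu, hswap _ _ (h1 u hu hy).2⟩
    · intro v hv
      exact ⟨hVX hv, hswap _ _ (h2 v hv hy).2⟩
  intro x hx y hy z hz
  exact (hZ _).1 (h3 x hx hy).2 z hz

/-- A family stable under the conjugation by `A` and `B` is stable under `A ⊔ B`. -/
lemma stable_sup {A B : Subgroup G} {T : Set (Subgroup G)}
    (hA : ∀ a ∈ A, ∀ C ∈ T, conjBy C a ∈ T) (hB : ∀ b ∈ B, ∀ C ∈ T, conjBy C b ∈ T) :
    ∀ x ∈ A ⊔ B, ∀ C ∈ T, conjBy C x ∈ T := by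
  let K : Subgroup G :=
    { carrier := {x | ∀ C, C ∈ T ↔ conjBy C x ∈ T}
      mul_mem' := by
        intro x y hx hy C
        rw [← conjBy_conjBy]
        exact (hy C).trans (hx _)
      one_mem' := by
        intro C
        simp
      inv_mem' := by
        intro x hx C
        have := hx (conjBy C x⁻¹)
        rw [conjBy_conjBy] at this
        simpa using this.symm }
  have hAK : A ≤ K := by
    intro a ha C
    refine ⟨hA a ha C, fun hC => ?_⟩
    have := hA a⁻¹ (A.inv_mem ha) _ hC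
    rwa [conjBy_inv_conjBy] at this
  have hBK : B ≤ K := by
    intro a ha C
    refine ⟨hB a ha C, fun hC => ?_⟩
    have := hB a⁻¹ (B.inv_mem ha) _ hC
    rwa [conjBy_inv_conjBy] at this
  intro x hx C hC
  exact (sup_le hAK hBK hx C).1 hC

section Omega

variable {A B : Subgroup G} (h : IsRankOnePair A B)

lemma left_mem_unipotent : A ∈ unipotentSubgroups A B :=
  ⟨1, Subgroup.one_mem _, by simp⟩

include h

/-- `{A} ∪ {a B a⁻¹}` is stable under `A ⊔ B`. -/
lemma stable_aux : ∀ x ∈ A ⊔ B, ∀ C ∈ {C : Subgroup G | C = A ∨ ∃ a ∈ A, C = conjBy B a},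
    conjBy C x ∈ {C : Subgroup G | C = A ∨ ∃ a ∈ A, C = conjBy B a} := by
  have hbA : ∀ b ∈ B, conjBy A b ∈ {C : Subgroup G | C = A ∨ ∃ a ∈ A, C = conjBy B a} := by
    intro b hb
    by_cases hb1 : b = 1
    · left; simp [hb1]
    · right
      obtain ⟨a, ha, -, hab⟩ := cond' h hb hb1
      exact ⟨a, ha, hab⟩
  apply stable_sup
  · rintro a ha C (rfl | ⟨a₁, ha₁, rfl⟩)
    · left; exact conjBy_eq_self ha
    · right; exact ⟨a * a₁, A.mul_mem ha ha₁, conjBy_conjBy _ _ _⟩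
  · rintro b hb C (rfl | ⟨a₁, ha₁, rfl⟩)
    · exact hbA b hb
    · by_cases ha1 : a₁ = 1
      · right
        refine ⟨1, A.one_mem, ?_⟩
        rw [ha1, conjBy_one]
        simpa using conjBy_eq_self hb
      · obtain ⟨b₁, hb₁, -, hab⟩ := cond h ha₁ ha1
        rw [← hab, conjBy_conjBy]
        exact hbA _ (B.mul_mem hb hb₁)

lemma exists_mul_conj : ∃ y ∈ A ⊔ B, conjBy A y = B := by
  obtain ⟨a, ha, ha1⟩ := exists_ne_one_left h
  obtain ⟨b, hb, -, hab⟩ := cond h ha ha1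
  refine ⟨a⁻¹ * b, (A ⊔ B).mul_mem ((le_sup_left : A ≤ A ⊔ B) (A.inv_mem ha)) ((le_sup_right : B ≤ A ⊔ B) hb), ?_⟩
  rw [← conjBy_conjBy, hab, conjBy_inv_conjBy]

lemma right_mem_unipotent : B ∈ unipotentSubgroups A B := by
  obtain ⟨y, hy, hyc⟩ := exists_mul_conj h
  exact ⟨y, hy, hyc.symm⟩

lemma mem_unipotent_iff {C : Subgroup G} :
    C ∈ unipotentSubgroups A B ↔ C = A ∨ ∃ a ∈ A, C = conjBy B a := by
  constructor
  · rintro ⟨x, hx, rfl⟩
    exact stable_aux h x hx A (Or.inl rfl)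
  · rintro (rfl | ⟨a, ha, rfl⟩)
    · exact left_mem_unipotent
    · obtain ⟨y, hy, hyc⟩ := exists_mul_conj h
      refine ⟨a * y, (A ⊔ B).mul_mem ((le_sup_left : A ≤ A ⊔ B) ha) hy, ?_⟩
      rw [← conjBy_conjBy, hyc]

lemma mem_unipotent_iff' {C : Subgroup G} :
    C ∈ unipotentSubgroups A B ↔ C = B ∨ ∃ b ∈ B, C = conjBy A b := by
  constructor
  · intro hC
    rw [mem_unipotent_iff h] at hC
    rcases hC with rfl | ⟨a, ha, rfl⟩
    · right; exact ⟨1, B.one_mem, by simp⟩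
    · by_cases ha1 : a = 1
      · left; simp [ha1]
      · right
        obtain ⟨b, hb, -, hab⟩ := cond h ha ha1
        exact ⟨b, hb, hab.symm⟩
  · rintro (rfl | ⟨b, hb, rfl⟩)
    · exact right_mem_unipotent h
    · exact ⟨b, (le_sup_right : B ≤ A ⊔ B) hb, rfl⟩

omit h in
lemma conj_mem_unipotent {x : G} (hx : x ∈ A ⊔ B) {C : Subgroup G} (hC : C ∈ unipotentSubgroups A B) :
    conjBy C x ∈ unipotentSubgroups A B := by
  obtain ⟨y, hy, rfl⟩ := hC
  exact ⟨x * y, (A ⊔ B).mul_mem hx hy, conjBy_conjBy _ _ _⟩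

/-- Any pair of different members of Ω can be carried to `(A, B)` by an element of `A ⊔ B`. -/
lemma exists_conj_to_pair {C₁ C₂ : Subgroup G} (h₁ : C₁ ∈ unipotentSubgroups A B)
    (h₂ : C₂ ∈ unipotentSubgroups A B) (hne : C₁ ≠ C₂) :
    ∃ x ∈ A ⊔ B, conjBy C₁ x = A ∧ conjBy C₂ x = B := by
  obtain ⟨y, hy, rfl⟩ := h₁
  have h₃ : conjBy C₂ y⁻¹ ∈ unipotentSubgroups A B := conj_mem_unipotent ((A ⊔ B).inv_mem hy) h₂
  rw [mem_unipotent_iff h] at h₃
  rcases h₃ with h₃ | ⟨a, ha, h₃⟩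
  · exfalso
    apply hne
    rw [conjBy_eq_iff] at h₃
    simpa using h₃.symm
  · refine ⟨a⁻¹ * y⁻¹, (A ⊔ B).mul_mem ((le_sup_left : A ≤ A ⊔ B) (A.inv_mem ha)) ((A ⊔ B).inv_mem hy), ?_, ?_⟩
    · rw [conjBy_conjBy]
      have : a⁻¹ * y⁻¹ * y = a⁻¹ := by group
      rw [this]
      exact conjBy_eq_self (A.inv_mem ha)
    · rw [← conjBy_conjBy, h₃, conjBy_inv_conjBy]

/-- Double transitivity on Ω. -/
lemma doubly_transitive {C₁ C₂ D₁ D₂ : Subgroup G} (h₁ : C₁ ∈ unipotentSubgroups A B)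
    (h₂ : C₂ ∈ unipotentSubgroups A B) (h₃ : D₁ ∈ unipotentSubgroups A B)
    (h₄ : D₂ ∈ unipotentSubgroups A B) (hC : C₁ ≠ C₂) (hD : D₁ ≠ D₂) :
    ∃ x ∈ A ⊔ B, conjBy C₁ x = D₁ ∧ conjBy C₂ x = D₂ := by
  obtain ⟨x, hx, hx1, hx2⟩ := exists_conj_to_pair h h₁ h₂ hC
  obtain ⟨y, hy, hy1, hy2⟩ := exists_conj_to_pair h h₃ h₄ hD
  refine ⟨y⁻¹ * x, (A ⊔ B).mul_mem ((A ⊔ B).inv_mem hy) hx, ?_, ?_⟩
  · rw [← conjBy_conjBy, hx1, ← hy1, conjBy_inv_conjBy]
  · rw [← conjBy_conjBy, hx2, ← hy2, conjBy_inv_conjBy]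

/-- Two different members of Ω form a rank one pair. -/
lemma rankOne_of_mem_ne {C₁ C₂ : Subgroup G} (h₁ : C₁ ∈ unipotentSubgroups A B)
    (h₂ : C₂ ∈ unipotentSubgroups A B) (hne : C₁ ≠ C₂) : IsRankOnePair C₁ C₂ := by
  obtain ⟨x, -, hx1, hx2⟩ := exists_conj_to_pair h h₁ h₂ hne
  apply rankOnePair_of_conjBy (g := x)
  rw [hx1, hx2]
  exact h

/-- Two different members of Ω generate the same group. -/
lemma sup_eq_of_mem_ne {C₁ C₂ : Subgroup G} (h₁ : C₁ ∈ unipotentSubgroups A B)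
    (h₂ : C₂ ∈ unipotentSubgroups A B) (hne : C₁ ≠ C₂) : C₁ ⊔ C₂ = A ⊔ B := by
  obtain ⟨x, hx, hx1, hx2⟩ := exists_conj_to_pair h h₁ h₂ hne
  have h3 : conjBy (C₁ ⊔ C₂) x = A ⊔ B := by rw [conjBy_sup, hx1, hx2]
  rw [conjBy_eq_iff] at h3
  rw [h3]
  exact conjBy_eq_self ((A ⊔ B).inv_mem hx)

/-- Different members of Ω intersect trivially. -/
lemma inf_eq_bot_of_mem_ne {C₁ C₂ : Subgroup G} (h₁ : C₁ ∈ unipotentSubgroups A B)
    (h₂ : C₂ ∈ unipotentSubgroups A B) (hne : C₁ ≠ C₂) : C₁ ⊓ C₂ = ⊥ :=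
  inf_eq_bot (rankOne_of_mem_ne h h₁ h₂ hne)

/-- In a rank one pair, a non-identity element of `A` commutes with no non-identity element of `B`. -/
lemma eq_one_of_comm {a b : G} (ha : a ∈ A) (hb : b ∈ B) (hb1 : b ≠ 1) (hc : a * b = b * a) : a = 1 := by
  have hA : A ∈ unipotentSubgroups A B := left_mem_unipotent
  have hbA : conjBy A b ∈ unipotentSubgroups A B := conj_mem_unipotent ((le_sup_right : B ≤ A ⊔ B) hb) hA
  have hne : A ≠ conjBy A b := (conjBy_left_ne h hb hb1).symm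
  have hinf := inf_eq_bot_of_mem_ne h hA hbA hne
  have h2 : a ∈ conjBy A b := by
    rw [mem_conjBy]
    have : b⁻¹ * a * b = a := by
      rw [mul_assoc, hc]; group
    rwa [this]
  have h3 : a ∈ A ⊓ conjBy A b := ⟨ha, h2⟩
  rw [hinf] at h3
  simpa using h3

lemma eq_one_of_comm' {a b : G} (ha : a ∈ A) (hb : b ∈ B) (ha1 : a ≠ 1) (hc : a * b = b * a) : b = 1 := by
  by_contra hb1
  exact ha1 (eq_one_of_comm h ha hb hb1 hc)

/-- Elements of different members of Ω commute only if one of them is trivial. -/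
lemma eq_one_of_comm_of_mem_ne {C₁ C₂ : Subgroup G} (h₁ : C₁ ∈ unipotentSubgroups A B)
    (h₂ : C₂ ∈ unipotentSubgroups A B) (hne : C₁ ≠ C₂) {a b : G} (ha : a ∈ C₁) (hb : b ∈ C₂) (hb1 : b ≠ 1)
    (hc : a * b = b * a) : a = 1 :=
  eq_one_of_comm (rankOne_of_mem_ne h h₁ h₂ hne) ha hb hb1 hc

/-- A non-trivial element of `A` fixes no member of Ω other than `A`. -/
lemma conjBy_ne_of_ne {a : G} (ha : a ∈ A) (ha1 : a ≠ 1) {C : Subgroup G} (hC : C ∈ unipotentSubgroups A B)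
    (hCA : C ≠ A) : conjBy C a ≠ C := by
  rw [mem_unipotent_iff h] at hC
  rcases hC with rfl | ⟨a₁, ha₁, rfl⟩
  · exact absurd rfl hCA
  · rw [conjBy_conjBy]
    intro hc
    have := conjBy_right_inj h (A.mul_mem ha ha₁) ha₁ hc
    apply ha1
    simpa using this

/-- The centralizer lemma used everywhere: an element of `A ⊔ B` all of whose commutators with
`A ⊔ B` are central in `A ⊔ B` is central in `A ⊔ B`. -/
lemma central_of_comm_central {z : G} (hz : z ∈ A ⊔ B)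
    (hc : ∀ x ∈ A ⊔ B, ∀ y ∈ A ⊔ B, (z * x * z⁻¹ * x⁻¹) * y = y * (z * x * z⁻¹ * x⁻¹)) :
    ∀ y ∈ A ⊔ B, z * y = y * z := by
  -- `z` fixes every member of Ω
  have hfix : ∀ C ∈ unipotentSubgroups A B, conjBy C z = C := by
    intro C hC
    by_contra hne
    have hzC : conjBy C z ∈ unipotentSubgroups A B := conj_mem_unipotent hz hC
    obtain ⟨x, hx, hx1, hx2⟩ := exists_conj_to_pair h hC hzC (Ne.symm hne)
    set z' := x * z * x⁻¹ with hz'
    have hz'1 : conjBy A z' = B := by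
      rw [← hx2, conjBy_conjBy, ← hx1, conjBy_conjBy]
      congr 1
      rw [hz']; group
    have hz'X : z' ∈ A ⊔ B := (A ⊔ B).mul_mem ((A ⊔ B).mul_mem hx hz) ((A ⊔ B).inv_mem hx)
    have hc' : ∀ w ∈ A ⊔ B, ∀ y ∈ A ⊔ B, (z' * w * z'⁻¹ * w⁻¹) * y = y * (z' * w * z'⁻¹ * w⁻¹) := by
      intro w hw y hy
      have hw' : x⁻¹ * w * x ∈ A ⊔ B :=
        (A ⊔ B).mul_mem ((A ⊔ B).mul_mem ((A ⊔ B).inv_mem hx) hw) hx
      have hy' : x⁻¹ * y * x ∈ A ⊔ B :=
        (A ⊔ B).mul_mem ((A ⊔ B).mul_mem ((A ⊔ B).inv_mem hx) hy) hx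
      have h1 := hc _ hw' _ hy'
      have h2 : z' * w * z'⁻¹ * w⁻¹ = x * (z * (x⁻¹ * w * x) * z⁻¹ * (x⁻¹ * w * x)⁻¹) * x⁻¹ := by
        rw [hz']; group
      have h3 : x * ((z * (x⁻¹ * w * x) * z⁻¹ * (x⁻¹ * w * x)⁻¹) * (x⁻¹ * y * x)) * x⁻¹ =
          x * ((x⁻¹ * y * x) * (z * (x⁻¹ * w * x) * z⁻¹ * (x⁻¹ * w * x)⁻¹)) * x⁻¹ := by rw [h1]
      rw [h2]
      calc _ = x * ((z * (x⁻¹ * w * x) * z⁻¹ * (x⁻¹ * w * x)⁻¹) * (x⁻¹ * y * x)) * x⁻¹ := by group
        _ = _ := h3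
        _ = _ := by group
    obtain ⟨b, hb, hb1⟩ := exists_ne_one_right h
    have hb' : b ∈ conjBy A z' := by rw [hz'1]; exact hb
    rw [mem_conjBy] at hb'
    set a := z'⁻¹ * b * z' with ha
    have hbval : b = (z' * a * z'⁻¹ * a⁻¹) * a := by rw [ha]; group
    have hc2 : conjBy A b = A := by
      have hcomm : ∀ u ∈ A, (z' * a * z'⁻¹ * a⁻¹) * u = u * (z' * a * z'⁻¹ * a⁻¹) := fun u hu =>
        hc' a ((le_sup_left : A ≤ A ⊔ B) hb') u ((le_sup_left : A ≤ A ⊔ B) hu)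
      rw [hbval, ← conjBy_conjBy, conjBy_eq_self hb', conjBy_eq_self_of_comm hcomm]
    exact conjBy_left_ne h hb hb1 hc2
  -- now `z` commutes with `A` and `B`
  have hzA : ∀ a ∈ A, z * a = a * z := by
    intro a ha
    have hA' := hfix A left_mem_unipotent
    have hB' := hfix B (right_mem_unipotent h)
    set c := z * a * z⁻¹ * a⁻¹ with hcdef
    have hcA : c ∈ A := by
      have h1 : z * a * z⁻¹ ∈ conjBy A z := conj_mem_conjBy ha
      rw [hA'] at h1
      exact A.mul_mem h1 (A.inv_mem ha)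
    have hcc : ∀ y ∈ B, c * y = y * c := fun y hy =>
      hc a ((le_sup_left : A ≤ A ⊔ B) ha) y ((le_sup_right : B ≤ A ⊔ B) hy)
    have hcB : conjBy B c = B := conjBy_eq_self_of_comm hcc
    by_cases hc1 : c = 1
    · rw [hcdef] at hc1
      exact comm_of_commutator_eq_one hc1
    · exact absurd hcB (conjBy_right_ne h hcA hc1)
  have hzB : ∀ b ∈ B, z * b = b * z := by
    intro b hb
    have hA' := hfix A left_mem_unipotent
    have hB' := hfix B (right_mem_unipotent h)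
    set c := z * b * z⁻¹ * b⁻¹ with hcdef
    have hcB : c ∈ B := by
      have h1 : z * b * z⁻¹ ∈ conjBy B z := conj_mem_conjBy hb
      rw [hB'] at h1
      exact B.mul_mem h1 (B.inv_mem hb)
    have hcc : ∀ y ∈ A, c * y = y * c := fun y hy =>
      hc b ((le_sup_right : B ≤ A ⊔ B) hb) y ((le_sup_left : A ≤ A ⊔ B) hy)
    have hcA : conjBy A c = A := conjBy_eq_self_of_comm hcc
    by_cases hc1 : c = 1
    · rw [hcdef] at hc1
      exact comm_of_commutator_eq_one hc1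
    · exact absurd hcA (conjBy_left_ne h hcB hc1)
  intro y hy
  have hle : A ⊔ B ≤ Subgroup.centralizer {z} := by
    apply sup_le
    · intro a ha
      rw [Subgroup.mem_centralizer_singleton_iff]
      exact (hzA a ha).symm
    · intro b hb
      rw [Subgroup.mem_centralizer_singleton_iff]
      exact (hzB b hb).symm
  have := hle hy
  rw [Subgroup.mem_centralizer_singleton_iff] at this
  exact this.symm

/-- `A ⊔ B` is not abelian: indeed not of class at most two. -/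
lemma not_class_two
    (hc : ∀ x ∈ A ⊔ B, ∀ y ∈ A ⊔ B, ∀ z ∈ A ⊔ B, (x * y * x⁻¹ * y⁻¹) * z = z * (x * y * x⁻¹ * y⁻¹)) : False := by
  obtain ⟨a, ha, ha1⟩ := exists_ne_one_left h
  obtain ⟨b, hb, hb1⟩ := exists_ne_one_right h
  have haX := (le_sup_left : A ≤ A ⊔ B) ha
  have hbX := (le_sup_right : B ≤ A ⊔ B) hb
  exact ha1 (eq_one_of_comm h ha hb hb1 (central_of_comm_central h haX (fun x hx y hy => hc a haX x hx y hy) b hbX))

/-- A normal subgroup acting trivially on `A, B` is central. -/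
lemma central_of_fixes {N : Subgroup G} (hN : ∀ x ∈ A ⊔ B, ∀ n ∈ N, x * n * x⁻¹ ∈ N)
    {n : G} (hn : n ∈ N) (hfix : ∀ m ∈ N, conjBy A m = A ∧ conjBy B m = B) :
    ∀ x ∈ A ⊔ B, n * x = x * n := by
  have hA' : ∀ a ∈ A, n * a = a * n := by
    intro a ha
    set c := n * a * n⁻¹ * a⁻¹ with hcdef
    have hcA : c ∈ A := by
      have h1 : n * a * n⁻¹ ∈ conjBy A n := conj_mem_conjBy ha
      rw [(hfix n hn).1] at h1
      exact A.mul_mem h1 (A.inv_mem ha)
    have hcN : c ∈ N := by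
      have h1 : a * n⁻¹ * a⁻¹ ∈ N := hN a ((le_sup_left : A ≤ A ⊔ B) ha) _ (N.inv_mem hn)
      have h2 : c = n * (a * n⁻¹ * a⁻¹) := by rw [hcdef]; group
      rw [h2]; exact N.mul_mem hn h1
    by_cases hc1 : c = 1
    · rw [hcdef] at hc1
      exact comm_of_commutator_eq_one hc1
    · exact absurd (hfix c hcN).2 (conjBy_right_ne h hcA hc1)
  have hB' : ∀ b ∈ B, n * b = b * n := by
    intro b hb
    set c := n * b * n⁻¹ * b⁻¹ with hcdef
    have hcB : c ∈ B := by
      have h1 : n * b * n⁻¹ ∈ conjBy B n := conj_mem_conjBy hb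
      rw [(hfix n hn).2] at h1
      exact B.mul_mem h1 (B.inv_mem hb)
    have hcN : c ∈ N := by
      have h1 : b * n⁻¹ * b⁻¹ ∈ N := hN b ((le_sup_right : B ≤ A ⊔ B) hb) _ (N.inv_mem hn)
      have h2 : c = n * (b * n⁻¹ * b⁻¹) := by rw [hcdef]; group
      rw [h2]; exact N.mul_mem hn h1
    by_cases hc1 : c = 1
    · rw [hcdef] at hc1
      exact comm_of_commutator_eq_one hc1
    · exact absurd (hfix c hcN).1 (conjBy_left_ne h hcB hc1)
  intro x hx
  have hle : A ⊔ B ≤ Subgroup.centralizer {n} := by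
    apply sup_le
    · intro a ha
      rw [Subgroup.mem_centralizer_singleton_iff]
      exact (hA' a ha).symm
    · intro b hb
      rw [Subgroup.mem_centralizer_singleton_iff]
      exact (hB' b hb).symm
  have := hle hx
  rw [Subgroup.mem_centralizer_singleton_iff] at this
  exact this.symm

/-- The normal subgroup dichotomy. -/
lemma normal_dichotomy {N : Subgroup G} (hNX : N ≤ A ⊔ B) (hN : ∀ x ∈ A ⊔ B, ∀ n ∈ N, x * n * x⁻¹ ∈ N) :
    N ⊔ A = A ⊔ B ∨ ∀ n ∈ N, ∀ x ∈ A ⊔ B, n * x = x * n := by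
  by_cases hfix : ∀ m ∈ N, conjBy A m = A ∧ conjBy B m = B
  · right
    intro n hn
    exact central_of_fixes h hN hn hfix
  · left
    push Not at hfix
    -- some element of N moves a member of Ω
    obtain ⟨m, hm, hmove⟩ := hfix
    have hex : ∃ C ∈ unipotentSubgroups A B, conjBy C m ≠ C := by
      by_cases h1 : conjBy A m = A
      · exact ⟨B, right_mem_unipotent h, hmove h1⟩
      · exact ⟨A, left_mem_unipotent, h1⟩
    obtain ⟨C, hC, hCm⟩ := hex
    have hmX := hNX hm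
    have hCm' : conjBy C m ∈ unipotentSubgroups A B := conj_mem_unipotent hmX hC
    -- every member of Ω other than A is an N-conjugate of A
    have htrans : ∀ D ∈ unipotentSubgroups A B, ∃ n ∈ N, conjBy A n = D := by
      intro D hD
      by_cases hDA : D = A
      · exact ⟨1, N.one_mem, by simp [hDA]⟩
      · obtain ⟨x, hx, hx1, hx2⟩ := doubly_transitive h hC hCm' left_mem_unipotent hD (Ne.symm hCm) (Ne.symm hDA)
        refine ⟨x * m * x⁻¹, hN x hx m hm, ?_⟩
        rw [← hx1, conjBy_conjBy, ← hx2, conjBy_conjBy]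
        congr 1
        group
    apply le_antisymm
    · exact sup_le hNX le_sup_left
    · apply sup_le le_sup_right
      obtain ⟨n, hn, hnB⟩ := htrans B (right_mem_unipotent h)
      rw [← hnB]
      intro u hu
      rw [mem_conjBy] at hu
      have h1 : n⁻¹ * u * n ∈ N ⊔ A := (le_sup_right : A ≤ N ⊔ A) hu
      have hnn := (le_sup_left : N ≤ N ⊔ A) hn
      have : u = n * (n⁻¹ * u * n) * n⁻¹ := by group
      rw [this]
      exact (N ⊔ A).mul_mem ((N ⊔ A).mul_mem hnn h1) ((N ⊔ A).inv_mem hnn)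

/-- A rank one pair does not generate a nilpotent group. -/
lemma not_isNilpotent_sup : ¬ Group.IsNilpotent ↥(A ⊔ B) := by
  intro hnil
  have hcond : NormalizerCondition ↥(A ⊔ B) := Group.normalizerCondition_of_isNilpotent
  let H : Subgroup ↥(A ⊔ B) :=
    { carrier := {x | conjBy A (x : G) = A}
      mul_mem' := by
        intro x y hx hy
        show conjBy A ((x : G) * (y : G)) = A
        rw [← conjBy_conjBy, show conjBy A (y : G) = A from hy, show conjBy A (x : G) = A from hx]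
      one_mem' := by
        show conjBy A ((1 : G)) = A
        simp
      inv_mem' := by
        intro x hx
        show conjBy A ((x : G)⁻¹) = A
        have hx' : conjBy A (x : G) = A := hx
        rw [conjBy_eq_iff] at hx'
        exact hx'.symm }
  have hne : H ≠ ⊤ := by
    intro htop
    obtain ⟨b, hb, hb1⟩ := exists_ne_one_right h
    have hbX := (le_sup_right : B ≤ A ⊔ B) hb
    have : (⟨b, hbX⟩ : ↥(A ⊔ B)) ∈ H := by rw [htop]; trivial
    exact conjBy_left_ne h hb hb1 this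
  have hlt := hcond H (lt_top_iff_ne_top.2 hne)
  obtain ⟨y, hy, hyH⟩ := SetLike.exists_of_lt hlt
  obtain ⟨a, ha, ha1⟩ := exists_ne_one_left h
  have haX := (le_sup_left : A ≤ A ⊔ B) ha
  have hmem : (y⁻¹ * ⟨a, haX⟩ * y : ↥(A ⊔ B)) ∈ H := by
    rw [Subgroup.mem_normalizer_iff] at hy
    rw [hy]
    have e : y * (y⁻¹ * ⟨a, haX⟩ * y) * y⁻¹ = (⟨a, haX⟩ : ↥(A ⊔ B)) := by group
    rw [e]
    exact conjBy_eq_self ha
  have hmem' : conjBy A ((y : G)⁻¹ * a * (y : G)) = A := hmem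
  have hC : conjBy A (y : G) ∈ unipotentSubgroups A B := ⟨y, y.2, rfl⟩
  have hCA : conjBy A (y : G) ≠ A := hyH
  apply conjBy_ne_of_ne h ha ha1 hC hCA
  rw [conjBy_conjBy]
  have e : a * (y : G) = (y : G) * ((y : G)⁻¹ * a * (y : G)) := by group
  rw [e, ← conjBy_conjBy, hmem']

end Omega

end Cfsg.Agent.Lib.Amalgam.RankOne
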