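import Mathlib
import Cfsg.Prelude.Def_RootSubgroups
import Cfsg.Agent.S0199
import Cfsg.Agent.Lib.Basic.PCore

/-!
# Root involutions: basic calculus

`D` a set of root involutions.  For a *line* `(a, b, a * b)` (commuting members with product a member) and a member `x`:

* `no_odd`: if `x` commutes with `b` then `a * x` does not have odd order `> 1`;
* `not_odd_four_four`: `a * x` of odd order, `b * x`, `(a * b) * x` of order `4` is impossible.
-/

set_option autoImplicit false

namespace Cfsg.Agent.Lib.Amalgam.RootInv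

open Cfsg
open scoped commutatorElement

variable {G : Type*} [Group G] {D : Set G}

/-- `a * b` has odd order greater than `1`. -/
def Od (a b : G) : Prop := Odd (orderOf (a * b)) ∧ a * b ≠ 1

section Basic

variable (hD : IsRootInvolutionSet D)
include hD

lemma mem_mul_self {a : G} (ha : a ∈ D) : a * a = 1 := by
  have := pow_orderOf_eq_one a
  rw [hD.orderOf_eq a ha, pow_two] at this
  exact this

lemma mem_inv {a : G} (ha : a ∈ D) : a⁻¹ = a :=
  inv_eq_of_mul_eq_one_left (mem_mul_self hD ha)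

lemma mem_ne_one {a : G} (ha : a ∈ D) : a ≠ 1 := by
  intro h
  have := hD.orderOf_eq a ha
  rw [h, orderOf_one] at this
  omega

lemma cancel_left {a : G} (ha : a ∈ D) (x : G) : a * (a * x) = x := by
  rw [← mul_assoc, mem_mul_self hD ha, one_mul]

lemma cancel_right {a : G} (ha : a ∈ D) (x : G) : x * a * a = x := by
  rw [mul_assoc, mem_mul_self hD ha, mul_one]

lemma conj_mem' {a g : G} (ha : a ∈ D) (hg : g ∈ D) : g * a * g ∈ D := by
  have := hD.conj_mem a ha g
  rwa [mem_inv hD hg] at this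

lemma mem_conj_left {a b : G} (ha : a ∈ D) (hb : b ∈ D) : a * b * a ∈ D := conj_mem' hD hb ha

/-- Inverse of a product of two members. -/
lemma mul_inv_mem {a b : G} (ha : a ∈ D) (hb : b ∈ D) : (a * b)⁻¹ = b * a := by
  rw [mul_inv_rev, mem_inv hD ha, mem_inv hD hb]

lemma orderOf_swap {a b : G} (ha : a ∈ D) (hb : b ∈ D) : orderOf (b * a) = orderOf (a * b) := by
  rw [← mul_inv_mem hD ha hb, orderOf_inv]

lemma Od_symm {a b : G} (ha : a ∈ D) (hb : b ∈ D) (h : Od a b) : Od b a := by
  refine ⟨by rw [orderOf_swap hD ha hb]; exact h.1, ?_⟩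
  intro h1
  apply h.2
  have := mul_inv_mem hD ha hb
  rw [h1] at this
  rw [← inv_inv (a * b), this, inv_one]

lemma ne_of_Od {a b : G} (ha : a ∈ D) (h : Od a b) : a ≠ b := by
  rintro rfl
  exact h.2 (mem_mul_self hD ha)

lemma Od_of_ne {a b : G} (ha : a ∈ D) (hb : b ∈ D) (hne : a ≠ b) (h : Odd (orderOf (a * b))) : Od a b := by
  refine ⟨h, fun h1 => hne ?_⟩
  have : a = b⁻¹ := eq_inv_of_mul_eq_one_left h1
  rw [this, mem_inv hD hb]

/-- The basic trichotomy. -/
lemma trichotomy {a b : G} (ha : a ∈ D) (hb : b ∈ D) :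
    a * b = b * a ∨ Od a b ∨ (orderOf (a * b) = 4 ∧ (a * b) ^ 2 ∈ D) := by
  rcases hD.pair a ha b hb with h | h | h
  · exact Or.inl h
  · by_cases h1 : a * b = 1
    · left
      have : a = b⁻¹ := eq_inv_of_mul_eq_one_left h1
      rw [this, mem_inv hD hb]
    · exact Or.inr (Or.inl ⟨h, h1⟩)
  · exact Or.inr (Or.inr h)

end Basic

/-- Conjugation by an involution preserves the order. -/
lemma orderOf_conj_invol {w : G} (h : w * w = 1) (y : G) : orderOf (w * y * w) = orderOf y := by
  have : SemiconjBy w y (w * y * w) := by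
    show w * y = w * y * w * w
    rw [mul_assoc, h, mul_one]
  exact this.orderOf_eq.symm

/-- An odd order element squaring to one is trivial. -/
lemma eq_one_of_odd_of_pow {g : G} (h : Odd (orderOf g)) {k : ℕ} (hk : g ^ (2 ^ k) = 1) : g = 1 := by
  have h1 : orderOf g ∣ 2 ^ k := orderOf_dvd_of_pow_eq_one hk
  have hc : Nat.Coprime (orderOf g) (2 ^ k) := Nat.Coprime.pow_right _ (Nat.coprime_two_right.2 h)
  have h3 : orderOf g = 1 := Nat.Coprime.eq_one_of_dvd hc h1
  exact orderOf_eq_one_iff.1 h3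

/-- Two elements of odd order with the same square are equal. -/
lemma eq_of_sq_eq {p q : G} (hp : Odd (orderOf p)) (hq : Odd (orderOf q)) (h : p ^ 2 = q ^ 2) : p = q := by
  obtain ⟨k, hk⟩ : ∃ k, orderOf p * orderOf q = 2 * k + 1 := by
    have := hp.mul hq
    exact this
  have hp' : p ^ (2 * k + 1) = 1 := by
    rw [← hk, pow_mul, pow_orderOf_eq_one, one_pow]
  have hq' : q ^ (2 * k + 1) = 1 := by
    rw [← hk, mul_comm, pow_mul, pow_orderOf_eq_one, one_pow]
  have e1 : p = (p ^ 2) ^ (k + 1) := by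
    rw [← pow_mul]
    have : 2 * (k + 1) = (2 * k + 1) + 1 := by ring
    rw [this, pow_succ, hp', one_mul]
  have e2 : q = (q ^ 2) ^ (k + 1) := by
    rw [← pow_mul]
    have : 2 * (k + 1) = (2 * k + 1) + 1 := by ring
    rw [this, pow_succ, hq', one_mul]
  rw [e1, e2, h]

/-- `g ^ 2` of an element of odd order `> 1` has odd order `> 1`. -/
lemma odd_sq {g : G} (h : Odd (orderOf g)) : Odd (orderOf (g ^ 2)) := by
  have : orderOf (g ^ 2) = orderOf g := Nat.Coprime.orderOf_pow (Nat.coprime_two_right.2 h)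
  rw [this]
  exact h

lemma sq_ne_one {g : G} (h : Odd (orderOf g)) (h1 : g ≠ 1) : g ^ 2 ≠ 1 := by
  intro h2
  exact h1 (eq_one_of_odd_of_pow (k := 1) h (by simpa using h2))

section Line

variable (hD : IsRootInvolutionSet D)
include hD

/-- **The line rule.** If `b` commutes with `a, y` and `a * b ∈ D` then `a * y` does not have odd order `> 1`. -/
theorem no_odd {a y b : G} (ha : a ∈ D) (hy : y ∈ D) (hab : a * b ∈ D) (hb : b * b = 1) (hb1 : b ≠ 1)
    (c1 : b * a = a * b) (c2 : b * y = y * b) (h : Od a y) : False := by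
  obtain ⟨hodd, hne⟩ := h
  have hcr : Commute (a * y) b := by
    show a * y * b = b * (a * y)
    rw [mul_assoc, ← c2, ← mul_assoc, ← mul_assoc, c1]
  have e : a * b * y = a * y * b := by
    rw [mul_assoc, c2, mul_assoc]
  rcases trichotomy hD hab hy with h1 | h1 | h1
  · -- commuting
    have h2 : (a * y) ^ 2 = 1 := by
      have h3 : (a * b * y) * (a * b * y) = 1 := by
        have e3 : (a * b * y) * (a * b * y) = (a * b * y) * (y * (a * b)) := by rw [h1]
        rw [e3]
        have hyy := mem_mul_self hD hy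
        have habab := mem_mul_self hD hab
        calc a * b * y * (y * (a * b)) = a * b * (y * y) * (a * b) := by group
          _ = 1 := by rw [hyy, mul_one, habab]
      rw [e] at h3
      have h4 : (a * y * b) ^ 2 = 1 := by rw [pow_two]; exact h3
      rw [hcr.mul_pow, pow_two b, hb, mul_one] at h4
      exact h4
    exact hne (eq_one_of_odd_of_pow (k := 1) hodd (by simpa using h2))
  · have h1' := h1.1
    rw [e] at h1'
    obtain ⟨k, hk⟩ := h1'
    have h2 := pow_orderOf_eq_one (a * y * b)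
    rw [hk, hcr.mul_pow, pow_succ b, pow_mul b, pow_two b, hb, one_pow, one_mul] at h2
    -- `b` is an odd power
    have h3 : b = ((a * y) ^ (2 * k + 1))⁻¹ := eq_inv_of_mul_eq_one_right h2
    have h4 : b ^ orderOf (a * y) = 1 := by
      rw [h3, inv_pow, ← pow_mul, mul_comm, pow_mul, pow_orderOf_eq_one, one_pow, inv_one]
    have h5 : orderOf b ∣ orderOf (a * y) := orderOf_dvd_of_pow_eq_one h4
    have h6 : orderOf b ∣ 2 := orderOf_dvd_of_pow_eq_one (by rw [pow_two]; exact hb)
    have hc : Nat.Coprime (orderOf (a * y)) 2 := Nat.coprime_two_right.2 hodd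
    have h7 : orderOf b = 1 := Nat.eq_one_of_dvd_coprimes hc h5 h6
    exact hb1 (orderOf_eq_one_iff.1 h7)
  · have h2 : (a * y) ^ 4 = 1 := by
      have h3 := pow_orderOf_eq_one (a * b * y)
      rw [h1.1, e, hcr.mul_pow] at h3
      have h4 : b ^ 4 = 1 := by
        have : b ^ 4 = (b * b) * (b * b) := by simp only [pow_succ, pow_zero, one_mul, mul_assoc]
        rw [this, hb, one_mul]
      rwa [h4, mul_one] at h3
    exact hne (eq_one_of_odd_of_pow (k := 2) hodd (by simpa using h2))

/-- Data of a pair with product of order `4`. -/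
lemma sq_mem {a b : G} (ha : a ∈ D) (hb : b ∈ D) (h : orderOf (a * b) = 4) : (a * b) ^ 2 ∈ D := by
  rcases trichotomy hD ha hb with h1 | h1 | h1
  · exfalso
    have h2 : (a * b) ^ 2 = 1 := by
      rw [pow_two]
      nth_rewrite 2 [h1]
      calc a * b * (b * a) = a * (b * b) * a := by group
        _ = 1 := by rw [mem_mul_self hD hb, mul_one, mem_mul_self hD ha]
    have := orderOf_dvd_of_pow_eq_one h2
    rw [h] at this
    omega
  · have h1' := h1.1
    rw [h] at h1'
    exact absurd h1' (by decide)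
  · exact h1.2

omit hD in
lemma sq_eq {a b : G} : (a * b) ^ 2 = a * b * a * b := by
  rw [pow_two]; group

omit hD in
lemma sq_ne {a b : G} (h : orderOf (a * b) = 4) : (a * b) ^ 2 ≠ 1 := by
  intro h2
  have := orderOf_dvd_of_pow_eq_one h2
  rw [h] at this
  omega

omit hD in
/-- Recognition of order `4`. -/
lemma orderOf_eq_four {g : G} (h1 : g ^ 2 ≠ 1) (h2 : (g ^ 2) * (g ^ 2) = 1) : orderOf g = 4 := by
  have := orderOf_eq_prime_pow (p := 2) (n := 1) (x := g) (by simpa using h1)
    (by
      have e : g ^ 2 ^ (1 + 1) = g ^ 2 * g ^ 2 := by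
        rw [← pow_add]; norm_num
      rw [e]; exact h2)
  simpa using this

/-- The data of a pair with product of order `4`. -/
structure IsFour (D : Set G) (a b z : G) : Prop where
  mem : z ∈ D
  ne : z ≠ 1
  sq : z * z = 1
  left : z * a = a * z
  right : z * b = b * z
  ba : b * a * b = a * z
  ab : a * b * a = b * z
  eq : (a * b) ^ 2 = z
  ord : orderOf (a * b) = 4

lemma isFour {a b : G} (ha : a ∈ D) (hb : b ∈ D) (h : orderOf (a * b) = 4) : IsFour D a b ((a * b) ^ 2) := by
  have hs := sq_mem hD ha hb h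
  have hss := mem_mul_self hD hs
  have haa := mem_mul_self hD ha
  have hbb := mem_mul_self hD hb
  have h1 : (a * b) ^ 2 = b * a * b * a := by
    have : ((a * b) ^ 2)⁻¹ = (a * b) ^ 2 := mem_inv hD hs
    rw [← this, sq_eq, mul_inv_rev, mul_inv_rev, mul_inv_rev, mem_inv hD ha, mem_inv hD hb]
    group
  have hl : (a * b) ^ 2 * a = a * (a * b) ^ 2 := by
    calc (a * b) ^ 2 * a = a * b * a * b * a := by rw [sq_eq]
      _ = a * (b * a * b * a) := by group
      _ = a * (a * b) ^ 2 := by rw [h1]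
  have hr : (a * b) ^ 2 * b = b * (a * b) ^ 2 := by
    calc (a * b) ^ 2 * b = a * b * a * b * b := by rw [sq_eq]
      _ = a * b * a := by rw [cancel_right hD hb]
      _ = b * b * (a * b * a) := by rw [hbb, one_mul]
      _ = b * (b * a * b * a) := by group
      _ = b * (a * b) ^ 2 := by rw [h1]
  refine ⟨hs, sq_ne h, hss, hl, hr, ?_, ?_, rfl, h⟩
  · rw [sq_eq]
    calc b * a * b = (a * a) * (b * a * b) := by rw [haa, one_mul]
      _ = a * (a * b * a * b) := by group
  · rw [← hr, sq_eq]
    calc a * b * a = a * b * a * (b * b) := by rw [hbb, mul_one]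
      _ = a * b * a * b * b := by group

omit hD in
/-- `z` commutes with `w` if each is an involution and `z w` has square `1`. -/
lemma comm_of_sq {u v : G} (hu : u * u = 1) (hv : v * v = 1) (h : (u * v) * (u * v) = 1) : u * v = v * u := by
  have h1 : (u * v)⁻¹ = u * v := inv_eq_of_mul_eq_one_left h
  rw [mul_inv_rev, inv_eq_of_mul_eq_one_left hu, inv_eq_of_mul_eq_one_left hv] at h1
  exact h1.symm

/-- **Claim A**. -/
theorem four_of {p t x q : G} (hp : p ∈ D) (ht : t ∈ D) (hx : x ∈ D) (hq : q ∈ D) (hpq : p * q ∈ D)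
    (c1 : q * p = p * q) (c2 : q * t = t * q) (c3 : t * x = x * t) (hxt : x * t ∈ D) (hO : Od x p) :
    orderOf (p * t) = 4 := by
  rcases trichotomy hD hp ht with h | h | h
  · exact (no_odd hD hx hp hxt (mem_mul_self hD ht) (mem_ne_one hD ht) c3 h.symm hO).elim
  · exact (no_odd hD hp ht hpq (mem_mul_self hD hq) (mem_ne_one hD hq) c1 c2 h).elim
  · exact h.1

omit hD in
lemma slide {a b : G} (h : a * b = b * a) (t : G) : a * (b * t) = b * (a * t) := by
  rw [← mul_assoc, h, mul_assoc]

omit hD in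
lemma cancel {a : G} (h : a * a = 1) (t : G) : a * (a * t) = t := by
  rw [← mul_assoc, h, one_mul]

omit hD in
lemma conj_mul {g x y : G} (hg : g * g = 1) : g * (x * y) * g = (g * x * g) * (g * y * g) := by
  calc g * (x * y) * g = g * x * 1 * y * g := by group
    _ = g * x * (g * g) * y * g := by rw [hg]
    _ = _ := by group

omit hD in
lemma comm_pow_two {a z b : G} (h1 : b * a = a * b) (h2 : b * z = z * b) : (a * z) ^ 2 * b = b * (a * z) ^ 2 := by
  have h : Commute ((a * z) ^ 2) b :=
    (Commute.pow_left (Commute.mul_left (Commute.symm h1) (Commute.symm h2)) 2)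
  exact h

/-- **The `(O, F, F)` exclusion.** -/
theorem no_OFF {b c x : G} (hb : b ∈ D) (hc : c ∈ D) (hx : x ∈ D) (hcb : c * b = b * c) (hbc : b * c ∈ D)
    (h1 : orderOf (b * x) = 4) (h2 : orderOf (c * x) = 4) (h3 : Od (b * c) x) : False := by
  obtain ⟨a, hadef⟩ : ∃ a, a = b * c := ⟨_, rfl⟩
  rw [← hadef] at hbc h3
  have ha : a ∈ D := hbc
  have hbb := mem_mul_self hD hb
  have hcc := mem_mul_self hD hc
  have hxx := mem_mul_self hD hx
  have haa := mem_mul_self hD ha
  have hab : a * b = c := by rw [hadef, mul_assoc, hcb, cancel hbb]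
  have hac : a * c = b := by rw [hadef, mul_assoc, hcc, mul_one]
  have hba : b * a = a * b := by rw [hab, hadef, cancel hbb]
  have hca : c * a = a * c := by rw [hac, hadef, ← hcb, cancel hcc]
  have Oxa : Od x a := Od_symm hD ha hx h3
  obtain ⟨z, hz⟩ : ∃ z, IsFour D b x z := ⟨_, isFour hD hb hx h1⟩
  obtain ⟨z', hz'⟩ : ∃ z, IsFour D c x z := ⟨_, isFour hD hc hx h2⟩
  have hxz : x * z ∈ D := by rw [← hz.ab]; exact conj_mem' hD hx hb
  have hxz' : x * z' ∈ D := by rw [← hz'.ab]; exact conj_mem' hD hx hc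
  have F1 : orderOf (a * z) = 4 :=
    four_of hD ha hz.mem hx hb (by rw [hab]; exact hc) hba hz.left.symm hz.right hxz Oxa
  have F2 : orderOf (a * z') = 4 :=
    four_of hD ha hz'.mem hx hc (by rw [hac]; exact hb) hca hz'.left.symm hz'.right hxz' Oxa
  obtain ⟨w, hw⟩ : ∃ w, IsFour D a z w := ⟨_, isFour hD ha hz.mem F1⟩
  obtain ⟨w', hw'⟩ : ∃ w, IsFour D a z' w := ⟨_, isFour hD ha hz'.mem F2⟩
  have hzI : z⁻¹ = z := inv_eq_of_mul_eq_one_left hz.sq
  have hz'I : z'⁻¹ = z' := inv_eq_of_mul_eq_one_left hz'.sq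
  have hwI : w⁻¹ = w := inv_eq_of_mul_eq_one_left hw.sq
  have hw'I : w'⁻¹ = w' := inv_eq_of_mul_eq_one_left hw'.sq
  have haI : a⁻¹ = a := inv_eq_of_mul_eq_one_left haa
  have hxI : x⁻¹ = x := inv_eq_of_mul_eq_one_left hxx
  have ezc : c * z * c = z * w := by
    rw [← hw.ab, hadef]
    simp only [mul_assoc, hcb, slide hcb, hz.left, slide hz.left, cancel hbb]
  have e1 : x * a * x = b * z * (c * z') := by
    rw [hadef, conj_mul hxx, hz.ba, hz'.ba]
  have e2 : a * x * a * x = z * w * z' := by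
    calc a * x * a * x = a * (x * a * x) := by group
      _ = a * b * z * c * z' := by rw [e1]; group
      _ = c * z * c * z' := by rw [hab]
      _ = z * w * z' := by rw [ezc]
  have einv : x * a * x * a = z' * w * z := by
    have := congrArg (·⁻¹) e2
    simp only [mul_inv_rev, haI, hxI, hzI, hwI, hz'I] at this
    simpa only [mul_assoc] using this
  have hw1 : a * w * a = w := by rw [← hw.left, mul_assoc, haa, mul_one]
  have hw'1 : a * w' * a = w' := by rw [← hw'.left, mul_assoc, haa, mul_one]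
  have E1 : z * z' * w' = z' * w * z := by
    calc z * z' * w' = (z * w) * w * (z' * w') := by simp only [mul_assoc, cancel hw.sq]
      _ = (a * z * a) * (a * w * a) * (a * z' * a) := by rw [hw.ab, hw1, hw'.ab]
      _ = a * (z * w * z') * a := by rw [conj_mul haa, conj_mul haa]
      _ = a * (a * x * a * x) * a := by rw [e2]
      _ = x * a * x * a := by simp only [mul_assoc, cancel haa]
      _ = z' * w * z := einv
  have E2 : x * w * x = z * z' * w * (z * z') := by
    have e3 : z * (x * w * x) * z' = z' * w * z := by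
      calc z * (x * w * x) * z' = (x * z * x) * (x * w * x) * (x * z' * x) := by
            rw [← hz.right, ← hz'.right]
            simp only [mul_assoc, hxx, mul_one]
        _ = x * (z * w * z') * x := by rw [conj_mul hxx, conj_mul hxx]
        _ = x * (a * x * a * x) * x := by rw [e2]
        _ = x * a * x * a := by simp only [mul_assoc, hxx, mul_one]
        _ = z' * w * z := einv
    calc x * w * x = z * (z * (x * w * x) * z') * z' := by
          simp only [mul_assoc, cancel hz.sq, hz'.sq, mul_one]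
      _ = z * (z' * w * z) * z' := by rw [e3]
      _ = z * z' * w * (z * z') := by group
  have E1' : z * (z' * w') = z' * (z * w) := by
    have := E1
    rw [mul_assoc, mul_assoc, hw.right] at this
    exact this
  have hy : z * z' * (z * z') = w * w' := by
    calc z * z' * (z * z') = z * (z' * (z * (z' * (w' * w')))) := by
          simp only [hw'.sq, mul_one, mul_assoc]
      _ = z * (z' * (z * (z' * w'))) * w' := by simp only [mul_assoc]
      _ = z * (z' * (z' * (z * w))) * w' := by rw [E1']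
      _ = w * w' := by simp only [cancel hz'.sq, cancel hz.sq]
  have hww : w * w' = w' * w := by
    rcases trichotomy hD hz.mem hz'.mem with h | h | h
    · apply comm_of_sq hw.sq hw'.sq
      have : w * w' = 1 := by
        rw [← hy]
        nth_rewrite 2 [h]
        simp only [mul_assoc, cancel hz'.sq, hz.sq]
      rw [this, one_mul]
    · exfalso
      have hu : w * (z * z') * w = (z * z')⁻¹ := by
        apply eq_of_sq_eq
        · rw [orderOf_conj_invol hw.sq]; exact h.1
        · rw [orderOf_inv]; exact h.1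
        · rw [inv_pow, pow_two, pow_two]
          have e6 : w * (z * z') * w * (w * (z * z') * w) = w * (z * z' * (z * z')) * w := by
            simp only [mul_assoc, cancel hw.sq]
          rw [e6, hy, ← inv_eq_iff_eq_inv]
          simp only [mul_inv_rev, hwI, hw'I, inv_inv, mul_assoc, cancel hw.sq]
      have hu2 : z * z' * w * (z * z') = w := by
        have h7 : z * z' * (w * (z * z') * w) = 1 := by rw [hu]; group
        calc z * z' * w * (z * z') = z * z' * (w * (z * z') * w) * w := by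
              simp only [mul_assoc, hw.sq, mul_one]
          _ = w := by rw [h7, one_mul]
      have hxw : w * x = x * w := by
        have h8 : x * w * x = w := by rw [E2, hu2]
        calc w * x = x * w * x * x := by rw [h8]
          _ = x * w := by rw [mul_assoc, hxx, mul_one]
      have haw : a * w ∈ D := by rw [← hw.ba]; exact conj_mem' hD ha hz.mem
      exact no_odd hD ha hx haw hw.sq hw.ne hw.left hxw (Od_symm hD hx ha Oxa)
    · apply comm_of_sq hw.sq hw'.sq
      have h4 := pow_orderOf_eq_one (z * z')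
      rw [h.1] at h4
      rw [← hy]
      rw [← h4]
      simp only [pow_succ, pow_zero, one_mul, mul_assoc]
  have hx1 : x * a * x ∈ D := conj_mem' hD ha hx
  obtain ⟨x₁, hx₁def⟩ : ∃ t, t = x * a * x := ⟨_, rfl⟩
  rw [← hx₁def] at hx1 e1
  have hbx : b * x₁ = z * (c * z') := by rw [e1]; simp only [mul_assoc, cancel hbb]
  have E1i : z * w * z' = w' * z' * z := by
    have := congrArg (·⁻¹) E1
    simp only [mul_inv_rev, hzI, hz'I, hwI, hw'I] at this
    simpa only [mul_assoc] using this.symm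
  have hcz' : c * z' * c = z' := by
    rw [← hz'.left, mul_assoc, hcc, mul_one]
  have hsq : (b * x₁) ^ 2 = z * w' * z := by
    calc (b * x₁) ^ 2 = (z * (c * z')) * (z * (c * z')) := by rw [pow_two, hbx]
      _ = z * (c * z' * c) * (c * z * c) * z' := by simp only [mul_assoc, cancel hcc]
      _ = z * z' * (z * w) * z' := by rw [hcz', ezc]
      _ = z * z' * (z * w * z') := by simp only [mul_assoc]
      _ = z * z' * (w' * z' * z) := by rw [E1i]
      _ = z * w' * z := by
        simp only [mul_assoc, ← hw'.right, slide hw'.right.symm, cancel hz'.sq]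
  have hz1mem : z * w' * z ∈ D := conj_mem' hD hw'.mem hz.mem
  have hz1ne : z * w' * z ≠ 1 := mem_ne_one hD hz1mem
  have hF : orderOf (b * x₁) = 4 := by
    apply orderOf_eq_four
    · rw [hsq]; exact hz1ne
    · rw [hsq]; exact mem_mul_self hD hz1mem
  obtain ⟨z₁, hz₁⟩ : ∃ z, IsFour D b x₁ z := ⟨_, isFour hD hb hx1 hF⟩
  have hz1eq : z₁ = z * w' * z := by rw [← hz₁.eq, hsq]
  have hz1a : z₁ * a = a * z₁ := by
    have h9 : a * z₁ * a = z₁ := by
      rw [hz1eq]
      calc a * (z * w' * z) * a = (a * z * a) * (a * w' * a) * (a * z * a) := by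
            rw [conj_mul haa, conj_mul haa]
        _ = z * w * w' * (z * w) := by rw [hw.ab, hw'1]
        _ = z * w' * z := by
          simp only [mul_assoc, hww, slide hww, hw.right, slide hw.right, cancel hw.sq, hw.sq, mul_one]
    calc z₁ * a = a * z₁ * a * a := by rw [h9]
      _ = a * z₁ := by rw [mul_assoc, haa, mul_one]
  have hx₁z₁ : x₁ * z₁ ∈ D := by rw [← hz₁.ab]; exact conj_mem' hD hx1 hb
  have hO : Od x₁ a := by
    have e4 : x₁ * a = (x * a) ^ 2 := by rw [hx₁def, sq_eq]
    refine ⟨?_, ?_⟩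
    · rw [e4]; exact odd_sq Oxa.1
    · rw [e4]; exact sq_ne_one Oxa.1 Oxa.2
  exact no_odd hD hx1 ha hx₁z₁ hz₁.sq hz₁.ne hz₁.right hz1a hO

end Line

/-- Mid element of two involutions with product of odd order. -/
lemma exists_mid {a x : G} (haa : a * a = 1) (hxx : x * x = 1) (h : Odd (orderOf (a * x))) :
    ∃ t, t * t = 1 ∧ t * a * t = x ∧ t * x * t = a := by
  obtain ⟨m, hm⟩ := h
  obtain ⟨r, hr⟩ : ∃ r, r = a * x := ⟨_, rfl⟩
  rw [← hr] at hm
  have hr1 : r ^ (2 * m + 1) = 1 := by rw [← hm]; exact pow_orderOf_eq_one r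
  obtain ⟨s, hs⟩ : ∃ s, s = r ^ (m + 1) := ⟨_, rfl⟩
  have hss : s * s = r := by
    rw [hs, ← pow_add]
    have : m + 1 + (m + 1) = (2 * m + 1) + 1 := by ring
    rw [this, pow_succ, hr1, one_mul]
  have hai : a⁻¹ = a := inv_eq_of_mul_eq_one_left haa
  have hxi : x⁻¹ = x := inv_eq_of_mul_eq_one_left hxx
  have hra : a * r * a = r⁻¹ := by
    rw [hr, mul_inv_rev, hai, hxi]
    simp only [mul_assoc, cancel haa]
  have hsa : a * s * a = s⁻¹ := by
    rw [hs]
    have := conj_pow (a := a) (b := r) (i := m + 1)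
    rw [hai] at this
    rw [← this, hra, inv_pow]
  have hsa2 : s * a * s = a := by
    have h1 : a * s * a * s = 1 := by rw [hsa]; group
    calc s * a * s = a * a * s * a * s := by rw [haa, one_mul]
      _ = a * (a * s * a * s) := by group
      _ = a := by rw [h1, mul_one]
  have hx : x = a * (s * s) := by rw [hss, hr, cancel haa]
  refine ⟨a * s, ?_, ?_, ?_⟩
  · calc a * s * (a * s) = a * s * a * s := by group
      _ = 1 := by rw [hsa]; group
  · calc a * s * a * (a * s) = a * s * (a * a) * s := by group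
      _ = a * (s * s) := by rw [haa, mul_one, mul_assoc]
      _ = x := hx.symm
  · rw [hx]
    calc a * s * (a * (s * s)) * (a * s) = (a * s * a) * s * (s * a * s) := by group
      _ = a := by rw [hsa, hsa2]; group

section Line2

variable (hD : IsRootInvolutionSet D)
include hD

lemma conj_invol_mem {a t : G} (ha : a ∈ D) (ht : t * t = 1) : t * a * t ∈ D := by
  have := hD.conj_mem a ha t
  rwa [inv_eq_of_mul_eq_one_left ht] at this

omit hD in
lemma conj_invol_mul {t x y : G} (ht : t * t = 1) : (t * x * t) * (t * y * t) = t * (x * y) * t := by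
  rw [conj_mul ht]

/-- If `b` commutes with `a` and `a * b ∈ D`, `a` has odd order with `x` and `b` has order `4` with `x` then `a * b` has
odd order with `x`. -/
theorem Od_of_line {a b x : G} (ha : a ∈ D) (hb : b ∈ D) (hx : x ∈ D) (c : b * a = a * b) (hab : a * b ∈ D)
    (hO : Od a x) (hF : orderOf (b * x) = 4) : Od (a * b) x := by
  have haa := mem_mul_self hD ha
  have hbb := mem_mul_self hD hb
  have h1 : a * (a * b) = b := cancel haa b
  rcases trichotomy hD hab hx with h | h | h
  · exact (no_odd hD ha hx (by rw [h1]; exact hb) (mem_mul_self hD hab) (mem_ne_one hD hab)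
      (by rw [mul_assoc, c, cancel haa]) h hO).elim
  · exact h
  · exfalso
    refine no_OFF hD hb hab hx ?_ ?_ hF h.1 ?_
    · rw [mul_assoc, hbb, mul_one, ← mul_assoc, c, mul_assoc, hbb, mul_one]
    · rw [← mul_assoc, c, mul_assoc, hbb, mul_one]; exact ha
    · have : b * (a * b) = a := by rw [← mul_assoc, c, mul_assoc, hbb, mul_one]
      rw [this]; exact hO

/-- **Injectivity.** -/
theorem four_inj {a x u u' : G} (ha : a ∈ D) (hx : x ∈ D) (hu : u ∈ D) (hu' : u' ∈ D) (hO : Od a x)
    (c1 : u * x = x * u) (c2 : u' * x = x * u') (hxu : x * u ∈ D) (hxu' : x * u' ∈ D)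
    (F1 : orderOf (a * u) = 4) (F2 : orderOf (a * u') = 4) (hsq : (a * u) ^ 2 = (a * u') ^ 2) : u = u' := by
  have haa := mem_mul_self hD ha
  have hxx := mem_mul_self hD hx
  have huu := mem_mul_self hD hu
  have hu'u' := mem_mul_self hD hu'
  obtain ⟨w, hw⟩ : ∃ w, IsFour D a u w := ⟨_, isFour hD ha hu F1⟩
  have hw' : IsFour D a u' w := by
    have := isFour hD ha hu' F2
    rw [← hsq, hw.eq] at this
    exact this
  have hxO : Od x a := Od_symm hD ha hx hO
  have hF' : orderOf (u * a) = 4 := by rw [orderOf_swap hD ha hu]; exact F1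
  have hOd : Od (x * u) a := Od_of_line hD hx hu ha c1 hxu hxO hF'
  have hca : (u * u') * a = a * (u * u') := by
    have h1 : a * (u * u') * a = u * u' := by
      rw [conj_mul haa, hw.ab, hw'.ab]
      simp only [mul_assoc, slide hw.right, hw'.right, slide hw'.right, cancel hw.sq, hw.sq, mul_one]
    calc u * u' * a = a * (u * u') * a * a := by rw [h1]
      _ = a * (u * u') := by rw [mul_assoc, haa, mul_one]
  rcases trichotomy hD hu hu' with h | h | h
  · by_contra hne
    have hrr : (u * u') * (u * u') = 1 := by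
      nth_rewrite 2 [h]
      simp only [mul_assoc, cancel hu'u', huu]
    have hr1 : u * u' ≠ 1 := by
      intro h1
      apply hne
      have := eq_inv_of_mul_eq_one_left h1
      rwa [mem_inv hD hu'] at this
    refine no_odd hD hxu ha ?_ hrr hr1 ?_ hca hOd
    · have : x * u * (u * u') = x * u' := by simp only [mul_assoc, cancel huu]
      rw [this]; exact hxu'
    · have h3 : Commute (u * u') (x * u) := by
        have h4 : Commute u x := c1
        have h5 : Commute u' x := c2
        have h6 : Commute u u' := h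
        exact Commute.mul_left (Commute.mul_right h4 (Commute.refl u)) (Commute.mul_right h5 h6.symm)
      exact h3
  · exact (no_odd hD hu hu' (by rw [← hw.ab]; exact mem_conj_left hD ha hu) hw.sq hw.ne hw.right hw'.right h).elim
  · exfalso
    obtain ⟨u₀, hu₀⟩ : ∃ z, IsFour D u u' z := ⟨_, isFour hD hu hu' h.1⟩
    have hu0a : u₀ * a = a * u₀ := by
      rw [← hu₀.eq]
      have : Commute ((u * u') ^ 2) a := Commute.pow_left hca 2
      exact this
    have hu0x : u₀ * x = x * u₀ := by
      rw [← hu₀.eq]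
      have h4 : Commute u x := c1
      have h5 : Commute u' x := c2
      have : Commute ((u * u') ^ 2) x := Commute.pow_left (Commute.mul_left h4 h5) 2
      exact this
    refine no_odd hD hxu ha ?_ hu₀.sq hu₀.ne ?_ hu0a hOd
    · have : x * u * u₀ = u' * (x * u) * u' := by
        rw [mul_assoc x u u₀, ← hu₀.ba]
        simp only [mul_assoc, ← c2, slide c2.symm]
      rw [this]; exact conj_mem' hD hxu hu'
    · rw [← mul_assoc, hu0x, mul_assoc, hu₀.left, mul_assoc]

/-- **Square root.** -/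
theorem exists_root [Finite G] {a x b : G} (ha : a ∈ D) (hx : x ∈ D) (hb : b ∈ D) (hO : Od a x)
    (c : b * a = a * b) (hab : a * b ∈ D) (hF : orderOf (b * x) = 4) :
    ∃ u ∈ D, u * x = x * u ∧ x * u ∈ D ∧ orderOf (a * u) = 4 ∧ (a * u) ^ 2 = b := by
  have haa := mem_mul_self hD ha
  have hxx := mem_mul_self hD hx
  obtain ⟨t, htt, hta, htx⟩ := exists_mid haa hxx hO.1
  -- the image of a member of `Ω`
  have key : ∀ y : G, y ∈ D → y * a = a * y → a * y ∈ D → orderOf (y * x) = 4 →
      (t * y * t) ∈ D ∧ (t * y * t) * x = x * (t * y * t) ∧ x * (t * y * t) ∈ D ∧ orderOf (a * (t * y * t)) = 4 := by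
    intro y hy c1 hay hF1
    have e1 : x * (t * y * t) = t * (a * y) * t := by
      rw [← hta, conj_invol_mul htt]
    have e2 : (t * y * t) * x = t * (y * a) * t := by
      rw [← hta, conj_invol_mul htt]
    refine ⟨conj_invol_mem hD hy htt, ?_, ?_, ?_⟩
    · rw [e1, e2, c1]
    · rw [e1]; exact conj_invol_mem hD hay htt
    · have e3 : a * (t * y * t) = t * (x * y) * t := by
        nth_rewrite 1 [← htx]
        rw [conj_invol_mul htt]
      rw [e3, orderOf_conj_invol htt, orderOf_swap hD hy hx]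
      exact hF1
  have key2 : ∀ u : G, u ∈ D → u * x = x * u → x * u ∈ D → orderOf (a * u) = 4 →
      (a * u) ^ 2 ∈ D ∧ (a * u) ^ 2 * a = a * (a * u) ^ 2 ∧ a * (a * u) ^ 2 ∈ D ∧ orderOf ((a * u) ^ 2 * x) = 4 := by
    intro u hu c1 hxu hF1
    obtain ⟨w, hw⟩ : ∃ w, IsFour D a u w := ⟨_, isFour hD ha hu hF1⟩
    rw [hw.eq]
    have haw : a * w ∈ D := by rw [← hw.ba]; exact mem_conj_left hD hu ha
    refine ⟨hw.mem, hw.left, haw, ?_⟩
    have hwu : u * w = w * u := hw.right.symm
    have : orderOf (x * w) = 4 :=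
      four_of hD hx hw.mem ha hu hxu c1 hwu hw.left haw hO
    rw [orderOf_swap hD hx hw.mem]
    exact this
  let Ω : Type _ := {y : G // y ∈ D ∧ y * a = a * y ∧ a * y ∈ D ∧ orderOf (y * x) = 4}
  have hmk : ∀ y : Ω, (a * (t * y.1 * t)) ^ 2 ∈ D ∧ (a * (t * y.1 * t)) ^ 2 * a = a * (a * (t * y.1 * t)) ^ 2 ∧
      a * (a * (t * y.1 * t)) ^ 2 ∈ D ∧ orderOf ((a * (t * y.1 * t)) ^ 2 * x) = 4 := by
    intro y
    obtain ⟨h1, h2, h3, h4⟩ := key y.1 y.2.1 y.2.2.1 y.2.2.2.1 y.2.2.2.2
    exact key2 _ h1 h2 h3 h4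
  let f : Ω → Ω := fun y => ⟨(a * (t * y.1 * t)) ^ 2, hmk y⟩
  have hinj : Function.Injective f := by
    intro y₁ y₂ h
    have h1 : (a * (t * y₁.1 * t)) ^ 2 = (a * (t * y₂.1 * t)) ^ 2 := congrArg Subtype.val h
    obtain ⟨m1, m2, m3, m4⟩ := key y₁.1 y₁.2.1 y₁.2.2.1 y₁.2.2.2.1 y₁.2.2.2.2
    obtain ⟨n1, n2, n3, n4⟩ := key y₂.1 y₂.2.1 y₂.2.2.1 y₂.2.2.2.1 y₂.2.2.2.2
    have h2 := four_inj hD ha hx m1 n1 hO m2 n2 m3 n3 m4 n4 h1
    apply Subtype.ext
    calc y₁.1 = t * (t * y₁.1 * t) * t := by simp only [mul_assoc, cancel htt, htt, mul_one]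
      _ = t * (t * y₂.1 * t) * t := by rw [h2]
      _ = y₂.1 := by simp only [mul_assoc, cancel htt, htt, mul_one]
  have hsurj : Function.Surjective f := Finite.injective_iff_surjective.1 hinj
  obtain ⟨y, hy⟩ := hsurj ⟨b, hb, c, hab, hF⟩
  obtain ⟨m1, m2, m3, m4⟩ := key y.1 y.2.1 y.2.2.1 y.2.2.2.1 y.2.2.2.2
  refine ⟨_, m1, m2, m3, m4, ?_⟩
  exact congrArg Subtype.val hy

/-- **A three-cycle.** -/
theorem Od_of_cycle {a v p q r : G} (ha : a ∈ D) (hv : v ∈ D) (h1 : a * p * a = p) (h2 : a * q * a = r)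
    (h3 : a * r * a = q) (h4 : v * r * v = r) (h5 : v * p * v = q) (h6 : v * q * v = p) (hpr : p ≠ r) : Od a v := by
  have haa := mem_mul_self hD ha
  have hvv := mem_mul_self hD hv
  -- the action of `a * v`
  have e1 : ∀ y y', v * y * v = y' → SemiconjBy (a * v) y (a * y' * a) := by
    intro y y' h
    rw [← h]
    show a * v * y = a * (v * y * v) * a * (a * v)
    simp only [mul_assoc, cancel haa, hvv, mul_one]
  have hp : SemiconjBy (a * v) p r := by have := e1 p q h5; rwa [h2] at this
  have hr : SemiconjBy (a * v) r q := by have := e1 r r h4; rwa [h3] at this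
  have hq : SemiconjBy (a * v) q p := by have := e1 q p h6; rwa [h1] at this
  have s2 := hr.mul_left hp
  have s3 := hq.mul_left s2
  have s4 := hp.mul_left s3
  rcases trichotomy hD ha hv with h | h | h
  · exfalso
    have hg : (a * v) * (a * v) = 1 := by
      nth_rewrite 2 [h]
      simp only [mul_assoc, cancel hvv, haa]
    have h7 : p = q := by
      have : a * v * (a * v) * p = q * (a * v * (a * v)) := s2
      rwa [hg, one_mul, mul_one] at this
    have h8 : r * (a * v) = p * (a * v) := by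
      have e5 : a * v * p = r * (a * v) := hp
      have e6 : a * v * q = p * (a * v) := hq
      rw [← e5, ← e6, ← h7]
    exact hpr (mul_right_cancel h8).symm
  · exact h
  · exfalso
    have hg : (a * v) * ((a * v) * ((a * v) * (a * v))) = 1 := by
      have := pow_orderOf_eq_one (a * v)
      rw [h.1] at this
      rw [← this]
      simp only [pow_succ, pow_zero, one_mul, mul_assoc]
    have : (a * v) * ((a * v) * ((a * v) * (a * v))) * p = r * ((a * v) * ((a * v) * ((a * v) * (a * v)))) := s4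
    rw [hg, one_mul, mul_one] at this
    exact hpr this

/-- **A three-cycle with a line.** -/
theorem order_three_of_cycle {a v p q r : G} (ha : a ∈ D) (hv : v ∈ D) (hp : p ∈ D) (hap : a * p ∈ D)
    (h1 : a * p * a = p) (h2 : a * q * a = r)
    (h3 : a * r * a = q) (h4 : v * r * v = r) (h5 : v * p * v = q) (h6 : v * q * v = p) (hpr : p ≠ r) :
    orderOf (a * v) = 3 := by
  have hO := Od_of_cycle hD ha hv h1 h2 h3 h4 h5 h6 hpr
  have haa := mem_mul_self hD ha
  have hvv := mem_mul_self hD hv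
  have e1 : ∀ y y', v * y * v = y' → SemiconjBy (a * v) y (a * y' * a) := by
    intro y y' h
    rw [← h]
    show a * v * y = a * (v * y * v) * a * (a * v)
    simp only [mul_assoc, cancel haa, hvv, mul_one]
  have hsp : SemiconjBy (a * v) p r := by have := e1 p q h5; rwa [h2] at this
  have hsr : SemiconjBy (a * v) r q := by have := e1 r r h4; rwa [h3] at this
  have hsq : SemiconjBy (a * v) q p := by have := e1 q p h6; rwa [h1] at this
  have s3 := (hsq.mul_left (hsr.mul_left hsp))
  obtain ⟨g, hgdef⟩ : ∃ g, g = a * v := ⟨_, rfl⟩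
  rw [← hgdef] at s3
  obtain ⟨ρ, hρ⟩ : ∃ ρ, ρ = g * (g * g) := ⟨_, rfl⟩
  rw [← hρ] at s3
  have hρ3 : ρ = g ^ 3 := by rw [hρ]; simp only [pow_succ, pow_zero, one_mul, mul_assoc]
  have hgodd : Odd (orderOf g) := by rw [hgdef]; exact hO.1
  have hρodd : Odd (orderOf ρ) := by
    rw [hρ3]
    exact Odd.of_dvd_nat hgodd (orderOf_pow_dvd 3)
  have hag : a * g * a = g⁻¹ := by
    rw [hgdef, mul_inv_rev, mem_inv hD ha, mem_inv hD hv]
    simp only [mul_assoc, cancel haa]
  have haρ : a * ρ * a = ρ⁻¹ := by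
    have := conj_pow (a := a) (b := g) (i := 3)
    rw [mem_inv hD ha, hag, inv_pow, ← hρ3] at this
    exact this.symm
  have hpa : p * a = a * p := by
    calc p * a = a * p * a * a := by rw [h1]
      _ = a * p := by rw [mul_assoc, haa, mul_one]
  have hρ1 : ρ = 1 := by
    by_contra hne
    have hρ2 : ρ⁻¹ ^ 2 ≠ 1 := by
      intro h7
      apply hne
      have h8 : ρ ^ 2 = 1 := by
        rw [inv_pow] at h7
        exact inv_eq_one.1 h7
      exact eq_one_of_odd_of_pow (k := 1) hρodd (by simpa using h8)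
    have hmem : ρ * a * ρ⁻¹ ∈ D := hD.conj_mem a ha ρ
    have e3 : a * (ρ * a * ρ⁻¹) = ρ⁻¹ ^ 2 := by
      rw [pow_two, ← haρ]
      simp only [mul_assoc]
    have hOd : Od a (ρ * a * ρ⁻¹) := by
      refine ⟨?_, ?_⟩
      · rw [e3]
        apply odd_sq
        rw [orderOf_inv]
        exact hρodd
      · rw [e3]; exact hρ2
    refine no_odd hD ha hmem hap (mem_mul_self hD hp) (mem_ne_one hD hp) hpa ?_ hOd
    have c1 : Commute p ρ := Commute.symm s3
    have c2 : Commute p a := hpa
    have c3 : Commute p ρ⁻¹ := c1.inv_right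
    have : Commute p (ρ * a * ρ⁻¹) := (c1.mul_right c2).mul_right c3
    exact this
  have hg3 : g ^ 3 = 1 := by rw [← hρ3]; exact hρ1
  have : Fact (Nat.Prime 3) := ⟨by norm_num⟩
  rw [← hgdef]
  apply orderOf_eq_prime hg3
  rw [hgdef]; exact hO.2

end Line2

section Class

variable (hD : IsRootInvolutionSet D)
include hD

/-- The set `A_d` of odd partners. -/
lemma mem_A {d e : G} (hd : d ∈ D) : e ∈ oddPartners D d ↔ e ∈ D ∧ Od d e := by
  constructor
  · rintro ⟨h1, h2, h3⟩
    exact ⟨h1, Od_of_ne hD hd h1 (Ne.symm h2) h3⟩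
  · rintro ⟨h1, h2⟩
    exact ⟨h1, Ne.symm (ne_of_Od hD hd h2), h2.1⟩

omit hD in
lemma orderOf_conj' (g y : G) : orderOf (g * y * g⁻¹) = orderOf y := by
  have : SemiconjBy g y (g * y * g⁻¹) := by
    show g * y = g * y * g⁻¹ * g
    group
  exact this.orderOf_eq.symm

omit hD in
lemma Od_conj {a b : G} (g : G) (h : Od a b) : Od (g * a * g⁻¹) (g * b * g⁻¹) := by
  have e : g * a * g⁻¹ * (g * b * g⁻¹) = g * (a * b) * g⁻¹ := by group
  refine ⟨by rw [e, orderOf_conj']; exact h.1, ?_⟩
  rw [e]
  intro h1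
  apply h.2
  have : g⁻¹ * (g * (a * b) * g⁻¹) * g = a * b := by group
  rw [← this, h1]
  simp

lemma mem_A_conj {d e : G} (hd : d ∈ D) (g : G) (h : e ∈ oddPartners D d) :
    g * e * g⁻¹ ∈ oddPartners D (g * d * g⁻¹) := by
  have hd' := hD.conj_mem d hd g
  rw [mem_A hD hd] at h
  rw [mem_A hD hd']
  exact ⟨hD.conj_mem e h.1 g, Od_conj g h.2⟩

lemma A_conj {d : G} (hd : d ∈ D) (g : G) :
    oddPartners D (g * d * g⁻¹) = (fun y => g * y * g⁻¹) '' oddPartners D d := by
  ext e
  constructor
  · intro h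
    refine ⟨g⁻¹ * e * g, ?_, by group⟩
    have hd' := hD.conj_mem d hd g
    have := mem_A_conj hD hd' g⁻¹ h
    have e1 : g⁻¹ * (g * d * g⁻¹) * g⁻¹⁻¹ = d := by group
    have e2 : g⁻¹ * e * g⁻¹⁻¹ = g⁻¹ * e * g := by group
    rwa [e1, e2] at this
  · rintro ⟨y, hy, rfl⟩
    exact mem_A_conj hD hd g hy

/-- Conjugate of `A`-equal elements. -/
lemma A_congr {x y : G} (hx : x ∈ D) (hy : y ∈ D) (h : oddPartners D x = oddPartners D y) (g : G) :
    oddPartners D (g * x * g⁻¹) = oddPartners D (g * y * g⁻¹) := by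
  rw [A_conj hD hx, A_conj hD hy, h]

lemma ncard_A_conj [Finite G] {d : G} (hd : d ∈ D) (g : G) :
    (oddPartners D (g * d * g⁻¹)).ncard = (oddPartners D d).ncard := by
  rw [A_conj hD hd]
  apply Set.ncard_image_of_injective
  intro a b h
  simpa using h

lemma A_eq_of_subset [Finite G] (hcl : ∀ a ∈ D, ∀ b ∈ D, ∃ g : G, b = g * a * g⁻¹) {a b : G} (ha : a ∈ D) (hb : b ∈ D)
    (h : oddPartners D a ⊆ oddPartners D b) : oddPartners D a = oddPartners D b := by
  obtain ⟨g, rfl⟩ := hcl a ha b hb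
  apply Set.eq_of_subset_of_ncard_le h
  rw [ncard_A_conj hD ha]

lemma class_of_connected (hc : IsConnectedSet (OddAdj D) D) : ∀ a ∈ D, ∀ b ∈ D, ∃ g : G, b = g * a * g⁻¹ := by
  intro a ha b hb
  have := hc a ha b hb
  induction this with
  | refl => exact ⟨1, by group⟩
  | @tail c d h1 h2 ih =>
    obtain ⟨g, rfl⟩ := ih h2.1
    obtain ⟨t, htt, hta, -⟩ := exists_mid (mem_mul_self hD h2.1) (mem_mul_self hD h2.2.1) h2.2.2.2
    refine ⟨t * g, ?_⟩
    have hti := inv_eq_of_mul_eq_one_left htt
    rw [← hta, mul_inv_rev, hti]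
    group

lemma A_nonempty_of_connected (hc : IsConnectedSet (OddAdj D) D) {a b : G} (ha : a ∈ D) (hb : b ∈ D) (hne : a ≠ b) :
    (oddPartners D a).Nonempty := by
  rcases Relation.ReflTransGen.cases_head (hc a ha b hb) with h | ⟨c, h1, -⟩
  · exact (hne h).elim
  · exact ⟨c, h1.2.1, Ne.symm h1.2.2.1, h1.2.2.2⟩

end Class

/-! ### Groups generated by two involutions with product of order dividing `4` -/

lemma dihedral_form {u v : G} (hu : u * u = 1) (hv : v * v = 1) {y : G} (hy : y ∈ Subgroup.closure {u, v}) :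
    ∃ k : ℤ, y = (u * v) ^ k ∨ y = (u * v) ^ k * u := by
  have hui : u⁻¹ = u := inv_eq_of_mul_eq_one_left hu
  have hvi : v⁻¹ = v := inv_eq_of_mul_eq_one_left hv
  have hconj : ∀ k : ℤ, u * (u * v) ^ k * u = (u * v) ^ (-k) := by
    intro k
    have := conj_zpow (a := u) (b := u * v) (i := k)
    rw [hui] at this
    rw [← this, zpow_neg, ← inv_zpow]
    congr 1
    rw [mul_inv_rev, hui, hvi]
    simp only [mul_assoc, cancel hu, hu, mul_one]
  have hcomm : ∀ k : ℤ, u * (u * v) ^ k = (u * v) ^ (-k) * u := by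
    intro k
    rw [← hconj k, mul_assoc, mul_assoc, hu, mul_one]
  induction hy using Subgroup.closure_induction with
  | mem x hx =>
    rcases hx with rfl | rfl
    · exact ⟨0, Or.inr (by simp)⟩
    · refine ⟨-1, Or.inr ?_⟩
      rw [zpow_neg, zpow_one, mul_inv_rev, hui, hvi, mul_assoc, hu, mul_one]
  | one => exact ⟨0, Or.inl (by simp)⟩
  | mul x y _ _ hx hy =>
    obtain ⟨k, hk⟩ := hx
    obtain ⟨l, hl⟩ := hy
    rcases hk with rfl | rfl <;> rcases hl with rfl | rfl
    · exact ⟨k + l, Or.inl (by rw [zpow_add])⟩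
    · exact ⟨k + l, Or.inr (by rw [zpow_add, mul_assoc])⟩
    · refine ⟨k + (-l), Or.inr ?_⟩
      rw [zpow_add, mul_assoc, hcomm, mul_assoc]
    · refine ⟨k + (-l), Or.inl ?_⟩
      rw [zpow_add]
      calc (u * v) ^ k * u * ((u * v) ^ l * u) = (u * v) ^ k * (u * (u * v) ^ l * u) := by group
        _ = _ := by rw [hconj]
  | inv x _ hx =>
    obtain ⟨k, hk⟩ := hx
    rcases hk with rfl | rfl
    · exact ⟨-k, Or.inl (by rw [zpow_neg])⟩
    · refine ⟨k, Or.inr ?_⟩
      rw [mul_inv_rev, hui, ← zpow_neg, hcomm, neg_neg]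

lemma dihedral_pGroup {u v : G} (hu : u * u = 1) (hv : v * v = 1) (h4 : (u * v) ^ 4 = 1) :
    IsPGroup 2 ↥(Subgroup.closure {u, v}) := by
  rintro ⟨y, hy⟩
  refine ⟨2, ?_⟩
  apply Subtype.ext
  show y ^ 2 ^ 2 = 1
  have hui : u⁻¹ = u := inv_eq_of_mul_eq_one_left hu
  have hvi : v⁻¹ = v := inv_eq_of_mul_eq_one_left hv
  obtain ⟨k, hk⟩ := dihedral_form hu hv hy
  rcases hk with rfl | rfl
  · have : ((u * v) ^ k) ^ 2 ^ 2 = ((u * v) ^ 4) ^ k := by
      rw [← zpow_natCast, ← zpow_mul, ← zpow_natCast, ← zpow_mul]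
      congr 1
      push_cast
      ring
    rw [this, h4, one_zpow]
  · have hconj : u * (u * v) ^ k * u = (u * v) ^ (-k) := by
      have := conj_zpow (a := u) (b := u * v) (i := k)
      rw [hui] at this
      rw [← this, zpow_neg, ← inv_zpow]
      congr 1
      rw [mul_inv_rev, hui, hvi]
      simp only [cancel hu, hu, mul_one]
    have h2 : ((u * v) ^ k * u) * ((u * v) ^ k * u) = 1 := by
      calc ((u * v) ^ k * u) * ((u * v) ^ k * u) = (u * v) ^ k * (u * (u * v) ^ k * u) := by group
        _ = 1 := by rw [hconj]; group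
    have h3 : ((u * v) ^ k * u) ^ 2 = 1 := by rw [pow_two]; exact h2
    show ((u * v) ^ k * u) ^ (2 * 2) = 1
    rw [pow_mul, h3, one_pow]

/-- **Abstract central element**: a nonempty finite set of involutions closed under conjugation by its members and such that
commutators of members are members, contains a member commuting with all others. -/
theorem exists_central_of_closed [Finite G] {X : Set G} (hne : X.Nonempty) (h1 : ∀ f ∈ X, f * f = 1)
    (h1' : ∀ f ∈ X, f ≠ 1) (h2 : ∀ f ∈ X, ∀ g ∈ X, g * f * g ∈ X)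
    (h3 : ∀ f ∈ X, ∀ g ∈ X, f * g ≠ g * f → (f * g) ^ 2 ∈ X ∧ (f * g) ^ 4 = 1) :
    ∃ e₀ ∈ X, ∀ g ∈ X, e₀ * g = g * e₀ := by
  by_contra hcon
  push Not at hcon
  have h4 : ∀ f ∈ X, ∀ g ∈ X, (f * g) ^ 4 = 1 := by
    intro f hf g hg
    by_cases hc : f * g = g * f
    · have h5 : (f * g) * (f * g) = 1 := by
        nth_rewrite 2 [hc]
        simp only [mul_assoc, cancel (h1 g hg), h1 f hf]
      calc (f * g) ^ 4 = ((f * g) * (f * g)) * ((f * g) * (f * g)) := by
            simp only [pow_succ, pow_zero, one_mul, mul_assoc]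
        _ = 1 := by rw [h5, one_mul]
    · exact (h3 f hf g hg hc).2
  -- the subgroup
  obtain ⟨M, hM⟩ : ∃ M, M = Subgroup.closure X := ⟨_, rfl⟩
  have hXM : ∀ f ∈ X, f ∈ M := fun f hf => by rw [hM]; exact Subgroup.subset_closure hf
  have hnorm : ∀ g ∈ M, (∀ f ∈ X, g * f * g⁻¹ ∈ X) ∧ (∀ f ∈ X, g⁻¹ * f * g ∈ X) := by
    intro g hg
    rw [hM] at hg
    induction hg using Subgroup.closure_induction with
    | mem x hx =>
      have hi : x⁻¹ = x := inv_eq_of_mul_eq_one_left (h1 x hx)
      rw [hi]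
      exact ⟨fun f hf => h2 f hf x hx, fun f hf => h2 f hf x hx⟩
    | one => simp
    | mul x y _ _ hx hy =>
      constructor
      · intro f hf
        have := hx.1 _ (hy.1 f hf)
        convert this using 1
        group
      · intro f hf
        have := hy.2 _ (hx.2 f hf)
        convert this using 1
        group
    | inv x _ hx =>
      rw [inv_inv]
      exact ⟨hx.2, hx.1⟩
  haveI : Fact (Nat.Prime 2) := ⟨Nat.prime_two⟩
  -- each member is in the `2`-core
  have hcore : ∀ f ∈ X, ∀ hf : f ∈ M, (⟨f, hf⟩ : ↥M) ∈ pCore 2 ↥M := by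
    intro f hf hfM
    obtain ⟨u, hu⟩ : ∃ u : ↥M, u = ⟨f, hfM⟩ := ⟨_, rfl⟩
    rw [← hu]
    have huv : u.1 = f := by rw [hu]
    have huu : u * u = 1 := by
      apply Subtype.ext
      show u.1 * u.1 = 1
      rw [huv]; exact h1 f hf
    have hp : IsPGroup 2 ↥(Subgroup.zpowers u) := by
      have h5 : (u * u) ^ 4 = 1 := by rw [huu, one_pow]
      refine IsPGroup.to_le (dihedral_pGroup huu huu h5) ?_
      rw [Subgroup.zpowers_le]
      exact Subgroup.subset_closure (by simp)
    obtain ⟨N, hN, hNp, hle⟩ := Cfsg.Agent.S0199.result (p := 2) (Subgroup.zpowers u) hp (by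
      intro g
      have hv : (g.1 * f * g.1⁻¹) ∈ X := (hnorm g.1 g.2).1 f hf
      have hvv : (g * u * g⁻¹) * (g * u * g⁻¹) = 1 := by
        apply Subtype.ext
        show (g.1 * u.1 * g.1⁻¹) * (g.1 * u.1 * g.1⁻¹) = 1
        rw [huv]
        exact h1 _ hv
      have h44 : (u * (g * u * g⁻¹)) ^ 4 = 1 := by
        apply Subtype.ext
        show (u.1 * (g.1 * u.1 * g.1⁻¹)) ^ 4 = 1
        rw [huv]
        exact h4 f hf _ hv
      refine IsPGroup.to_le (dihedral_pGroup huu hvv h44) ?_
      apply sup_le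
      · rw [Subgroup.zpowers_le]
        exact Subgroup.subset_closure (by simp)
      · rw [MonoidHom.map_zpowers, Subgroup.zpowers_le]
        exact Subgroup.subset_closure (by simp [MulAut.conj_apply]))
    exact Cfsg.Agent.Lib.Basic.PCore.le_pCore hN hNp (hle (Subgroup.mem_zpowers _))
  have htop : pCore 2 ↥M = ⊤ := by
    have h5 : Subgroup.closure (((↑) : ↥M → G) ⁻¹' X) = ⊤ := by
      rw [hM]
      exact Subgroup.closure_closure_coe_preimage
    rw [eq_top_iff, ← h5, Subgroup.closure_le]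
    intro y hy
    exact hcore y.1 hy y.2
  have hpg : IsPGroup 2 ↥M := by
    intro y
    obtain ⟨k, hk⟩ := Cfsg.Agent.Lib.Basic.PCore.pCore_isPGroup 2 (G := ↥M) ⟨y, by rw [htop]; trivial⟩
    exact ⟨k, congrArg Subtype.val hk⟩
  have hnil : Group.IsNilpotent ↥M := hpg.isNilpotent
  obtain ⟨n, hn⟩ := (Subgroup.isNilpotent_iff_lowerCentralSeries M).1 hnil
  have hdesc : ∀ n : ℕ, ∃ f ∈ X, f ∈ M.lowerCentralSeries n := by
    intro n
    induction n with
    | zero =>
      obtain ⟨e, he⟩ := hne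
      exact ⟨e, he, hXM e he⟩
    | succ n ih =>
      obtain ⟨f, hf, hfn⟩ := ih
      obtain ⟨g, hg, hfg⟩ := hcon f hf
      refine ⟨_, (h3 f hf g hg hfg).1, ?_⟩
      have e : (f * g) ^ 2 = ⁅f, g⁆ := by
        rw [commutatorElement_def, inv_eq_of_mul_eq_one_left (h1 f hf), inv_eq_of_mul_eq_one_left (h1 g hg), sq_eq]
      rw [e]
      exact Subgroup.commutator_mem_commutator hfn (hXM g hg)
  obtain ⟨f, hf, hfn⟩ := hdesc n
  rw [hn] at hfn
  exact h1' f hf (Subgroup.mem_bot.1 hfn)

/-! ### The key theorem `E1` -/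

section E1

variable (hD : IsRootInvolutionSet D)
include hD

/-- Partners of the square. -/
lemma A_sq_subset {f g : G} (hf : f ∈ D) (hg : g ∈ D) (F : orderOf (f * g) = 4) :
    oddPartners D ((f * g) ^ 2) ⊆ oddPartners D f ∪ oddPartners D (g * f * g) := by
  obtain ⟨z, hz⟩ : ∃ z, IsFour D f g z := ⟨_, isFour hD hf hg F⟩
  rw [hz.eq]
  intro x hx
  rw [mem_A hD hz.mem] at hx
  obtain ⟨hxD, hO⟩ := hx
  have hff := mem_mul_self hD hf
  have hfz : f * z ∈ D := by rw [← hz.ba]; exact conj_mem' hD hf hg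
  have hgfg : g * f * g = f * z := hz.ba
  rw [hgfg]
  have hzf : z * f ∈ D := by rw [hz.left]; exact hfz
  rcases trichotomy hD hf hxD with h | h | h
  · exact (no_odd hD hz.mem hxD hzf hff (mem_ne_one hD hf) hz.left.symm h hO).elim
  · left
    rw [mem_A hD hf]
    exact ⟨hxD, h⟩
  · rcases trichotomy hD hfz hxD with h2 | h2 | h2
    · exfalso
      refine no_odd hD hz.mem hxD ?_ (mem_mul_self hD hfz) (mem_ne_one hD hfz) ?_ h2 hO
      · have : z * (f * z) = f := by
          rw [← mul_assoc, hz.left, mul_assoc, hz.sq, mul_one]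
        rw [this]; exact hf
      · rw [← mul_assoc, hz.left]
    · right
      rw [mem_A hD hfz]
      exact ⟨hxD, h2⟩
    · exfalso
      refine no_OFF hD hf hfz hxD ?_ ?_ h.1 h2.1 ?_
      · rw [mul_assoc, hz.left]
      · rw [cancel hff]; exact hz.mem
      · rw [cancel hff]; exact hO

lemma A_self_conj {f g : G} (hf : f ∈ D) (hg : g ∈ D) (h : oddPartners D f = oddPartners D g) :
    oddPartners D (g * f * g) = oddPartners D g := by
  have := A_congr hD hf hg h g
  rw [mem_inv hD hg] at this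
  rw [this]
  have e : g * g * g = g := by rw [mem_mul_self hD hg, one_mul]
  rw [e]

lemma not_Od_of_comm {a b : G} (ha : a ∈ D) (hb : b ∈ D) (c : a * b = b * a) : ¬ Od a b := by
  intro h
  apply h.2
  apply eq_one_of_odd_of_pow (k := 1) h.1
  rw [pow_one, pow_two]
  nth_rewrite 2 [c]
  simp only [mul_assoc, cancel (mem_mul_self hD hb), mem_mul_self hD ha]

lemma not_comm_of_four {a b : G} (ha : a ∈ D) (hb : b ∈ D) (h : orderOf (a * b) = 4) : a * b ≠ b * a := by
  intro c
  have h1 : (a * b) ^ 2 = 1 := by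
    rw [pow_two]
    nth_rewrite 2 [c]
    simp only [mul_assoc, cancel (mem_mul_self hD hb), mem_mul_self hD ha]
  exact sq_ne h h1

omit hD in
lemma not_Od_of_four {a b : G} (h : orderOf (a * b) = 4) : ¬ Od a b := by
  intro h1
  have := h1.1
  rw [h] at this
  exact absurd this (by decide)

omit hD in
lemma not_mem_A_self {a : G} : a ∉ oddPartners D a := fun h => h.2.1 rfl

/-- **The key theorem**: members with the same odd partners commute. -/
theorem comm_of_A_eq [Finite G] (hcl : ∀ a ∈ D, ∀ b ∈ D, ∃ g : G, b = g * a * g⁻¹) {e f : G} (he : e ∈ D) (hf : f ∈ D)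
    (hA : oddPartners D e = oddPartners D f) (hne : (oddPartners D e).Nonempty) : e * f = f * e := by
  obtain ⟨e₀, he₀, hc₀⟩ := exists_central_of_closed (X := {y | y ∈ D ∧ oddPartners D y = oddPartners D e})
    ⟨e, he, rfl⟩ (fun y hy => mem_mul_self hD hy.1) (fun y hy => mem_ne_one hD hy.1)
    (fun y hy g hg => ⟨conj_mem' hD hy.1 hg.1, by
      rw [A_self_conj hD hy.1 hg.1 (hy.2.trans hg.2.symm), hg.2]⟩)
    (by
      intro y hy g hg hyg
      rcases trichotomy hD hy.1 hg.1 with h | h | h
      · exact (hyg h).elim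
      · exfalso
        have h1 : g ∈ oddPartners D y := (mem_A hD hy.1).2 ⟨hg.1, h⟩
        rw [hy.2, ← hg.2] at h1
        exact not_mem_A_self h1
      · refine ⟨⟨h.2, ?_⟩, ?_⟩
        · have h1 := A_sq_subset hD hy.1 hg.1 h.1
          have h2 : oddPartners D (g * y * g) = oddPartners D g :=
            A_self_conj hD hy.1 hg.1 (hy.2.trans hg.2.symm)
          rw [h2, hg.2, hy.2, Set.union_self] at h1
          exact A_eq_of_subset hD hcl h.2 he h1
        · have := pow_orderOf_eq_one (y * g)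
          rwa [h.1] at this)
  obtain ⟨x₀, hx₀⟩ := hne
  have hx1 : x₀ ∈ oddPartners D e₀ := by rw [he₀.2]; exact hx₀
  have hx2 : x₀ ∈ oddPartners D f := by rw [← hA]; exact hx₀
  rw [mem_A hD he₀.1] at hx1
  rw [mem_A hD hf] at hx2
  obtain ⟨t₁, ht₁, ht₁a, ht₁b⟩ := exists_mid (mem_mul_self hD hf) (mem_mul_self hD hx2.1) hx2.2.1
  obtain ⟨t₂, ht₂, ht₂a, ht₂b⟩ := exists_mid (mem_mul_self hD he₀.1) (mem_mul_self hD hx1.1) hx1.2.1
  have hti₁ := inv_eq_of_mul_eq_one_left ht₁
  have hti₂ := inv_eq_of_mul_eq_one_left ht₂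
  obtain ⟨t, htdef⟩ : ∃ t, t = t₁ * t₂ := ⟨_, rfl⟩
  have hf' : t * e₀ * t⁻¹ = f := by
    rw [htdef, mul_inv_rev, hti₁, hti₂]
    calc t₁ * t₂ * e₀ * (t₂ * t₁) = t₁ * (t₂ * e₀ * t₂) * t₁ := by group
      _ = f := by rw [ht₂a, ht₁b]
  have hf'' : t⁻¹ * f * t = e₀ := by
    rw [← hf']; group
  have hg'mem : t⁻¹ * e * t⁻¹⁻¹ ∈ D := hD.conj_mem e he t⁻¹
  have hg'A : oddPartners D (t⁻¹ * e * t⁻¹⁻¹) = oddPartners D e := by
    rw [A_congr hD he hf hA t⁻¹, inv_inv, hf'', he₀.2]
  have h1 := hc₀ _ ⟨hg'mem, hg'A⟩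
  have h2 : t * (e₀ * (t⁻¹ * e * t⁻¹⁻¹)) * t⁻¹ = f * e := by
    rw [← hf']; group
  have h3 : t * ((t⁻¹ * e * t⁻¹⁻¹) * e₀) * t⁻¹ = e * f := by
    rw [← hf']; group
  rw [← h3, ← h2, h1]

/-- **Transfer.** -/
theorem comm_transfer [Finite G] (hcl : ∀ a ∈ D, ∀ b ∈ D, ∃ g : G, b = g * a * g⁻¹)
    (hne : ∀ d ∈ D, (oddPartners D d).Nonempty) {a b y : G} (ha : a ∈ D) (hb : b ∈ D) (hy : y ∈ D)
    (hA : oddPartners D a = oddPartners D b) (c : y * a = a * y) : y * b = b * y := by
  rcases trichotomy hD hb hy with h | h | h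
  · exact h.symm
  · exfalso
    have h1 : y ∈ oddPartners D b := (mem_A hD hb).2 ⟨hy, h⟩
    rw [← hA, mem_A hD ha] at h1
    exact not_Od_of_comm hD ha hy c.symm h1.2
  · exfalso
    obtain ⟨z, hz⟩ : ∃ z, IsFour D b y z := ⟨_, isFour hD hb hy h.1⟩
    have hAb : oddPartners D (y * b * y) = oddPartners D b := by
      have h1 := A_congr hD ha hb hA y
      rw [mem_inv hD hy] at h1
      rw [← h1, ← hA]
      have : y * a * y = a := by rw [c, mul_assoc, mem_mul_self hD hy, mul_one]
      rw [this]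
    have hsub := A_sq_subset hD hb hy h.1
    rw [hAb, Set.union_self, hz.eq] at hsub
    have hzA : oddPartners D z = oddPartners D b := A_eq_of_subset hD hcl hz.mem hb hsub
    by_cases hs : oddPartners D z ⊆ oddPartners D y
    · have h1 := A_eq_of_subset hD hcl hz.mem hy hs
      have h2 : oddPartners D b = oddPartners D y := hzA.symm.trans h1
      exact not_comm_of_four hD hb hy h.1 (comm_of_A_eq hD hcl hb hy h2 (hne b hb))
    · obtain ⟨x, hx, hxy⟩ := Set.not_subset.1 hs
      have hx' := (mem_A hD hz.mem).1 hx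
      have hzy : z * y ∈ D := by
        rw [hz.right, ← hz.ab]
        exact conj_mem' hD hy hb
      have hF : orderOf (y * x) = 4 := by
        rcases trichotomy hD hy hx'.1 with h2 | h2 | h2
        · exact (no_odd hD hz.mem hx'.1 hzy (mem_mul_self hD hy) (mem_ne_one hD hy) hz.right.symm h2 hx'.2).elim
        · exact (hxy ((mem_A hD hy).2 ⟨hx'.1, h2⟩)).elim
        · exact h2.1
      obtain ⟨u, hu, hux, hxu, huF, husq⟩ := exists_root hD hz.mem hx'.1 hy hx'.2 hz.right.symm hzy hF
      have hu4 : IsFour D z u y := by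
        have := isFour hD hz.mem hu huF
        rwa [husq] at this
      have hzne : z ≠ y := by
        rintro rfl
        rw [mem_mul_self hD hy] at hzy
        exact mem_ne_one hD hzy rfl
      have hOd : Od b u := by
        have hbb := mem_mul_self hD hb
        have huu := mem_mul_self hD hu
        have h3 : b * z * b = z := by rw [← hz.left, mul_assoc, hbb, mul_one]
        have h4 : u * y * u = y := by rw [← hu4.right, mul_assoc, huu, mul_one]
        refine Od_of_cycle hD hb hu (p := z) (q := z * y) (r := y) h3 ?_ ?_ h4 hu4.ba ?_ hzne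
        · rw [conj_mul hbb, h3, hz.ab, ← hz.right, cancel hz.sq]
        · rw [hz.ab, hz.right]
        · rw [conj_mul huu, hu4.ba, h4, mul_assoc, mem_mul_self hD hy, mul_one]
      have h1 : u ∈ oddPartners D b := (mem_A hD hb).2 ⟨hu, hOd⟩
      rw [← hzA, mem_A hD hz.mem] at h1
      exact not_Od_of_four huF h1.2

/-- Members with the same commuting members have the same odd partners. -/
theorem A_subset_of_C_eq {d e : G} (hd : d ∈ D) (he : e ∈ D) (h : commutingMembers D d = commutingMembers D e) :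
    oddPartners D d ⊆ oddPartners D e := by
  intro x hx
  rw [mem_A hD hd] at hx
  rw [mem_A hD he]
  refine ⟨hx.1, ?_⟩
  rcases trichotomy hD he hx.1 with h1 | h1 | h1
  · exfalso
    have h2 : x ∈ commutingMembers D e := ⟨hx.1, h1.symm⟩
    rw [← h] at h2
    exact not_Od_of_comm hD hd hx.1 h2.2.symm hx.2
  · exact h1
  · exfalso
    obtain ⟨z, hz⟩ : ∃ z, IsFour D e x z := ⟨_, isFour hD he hx.1 h1.1⟩
    have h2 : z ∈ commutingMembers D e := ⟨hz.mem, hz.left⟩
    rw [← h] at h2
    have hxz : x * z ∈ D := by rw [← hz.ab]; exact conj_mem' hD hx.1 he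
    exact no_odd hD hx.1 hd hxz hz.sq hz.ne hz.right h2.2 (Od_symm hD hd hx.1 hx.2)

lemma C_union_V {d : G} (hd : d ∈ D) :
    commutingMembers D d ∪ fourPartners D d = D \ oddPartners D d := by
  ext x
  constructor
  · rintro (h | h)
    · refine ⟨h.1, fun h1 => ?_⟩
      rw [mem_A hD hd] at h1
      exact not_Od_of_comm hD hd h.1 h.2.symm h1.2
    · refine ⟨h.1, fun h1 => ?_⟩
      rw [mem_A hD hd] at h1
      exact not_Od_of_four h.2 h1.2
  · rintro ⟨h1, h2⟩
    rcases trichotomy hD hd h1 with h3 | h3 | h3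
    · exact Or.inl ⟨h1, h3.symm⟩
    · exact (h2 ((mem_A hD hd).2 ⟨h1, h3⟩)).elim
    · exact Or.inr ⟨h1, h3.1⟩

lemma A_subset (d : G) : oddPartners D d ⊆ D := fun _ h => h.1

lemma A_eq_of_compl {d e : G} (h : D \ oddPartners D d = D \ oddPartners D e) :
    oddPartners D d = oddPartners D e := by
  have h1 : D \ (D \ oddPartners D d) = oddPartners D d := Set.diff_diff_cancel_left (A_subset hD d)
  have h2 : D \ (D \ oddPartners D e) = oddPartners D e := Set.diff_diff_cancel_left (A_subset hD e)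
  rw [← h1, ← h2, h]

lemma A_nonempty_all (hc : IsConnectedSet (OddAdj D) D) {a b : G} (ha : a ∈ D) (hb : b ∈ D) (hne : a ≠ b) :
    ∀ d ∈ D, (oddPartners D d).Nonempty := by
  intro d hd
  by_cases h : d = a
  · exact A_nonempty_of_connected hD hc hd hb (by rw [h]; exact hne)
  · exact A_nonempty_of_connected hD hc hd ha h

/-- The characterization of `E_d`. -/
theorem same_class_iff [Finite G] (hc : IsConnectedSet (OddAdj D) D) {d e : G} (hd : d ∈ D) (he : e ∈ D) :
    commutingMembers D d = commutingMembers D e ↔ oddPartners D d = oddPartners D e := by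
  constructor
  · intro h
    exact Set.Subset.antisymm (A_subset_of_C_eq hD hd he h) (A_subset_of_C_eq hD he hd h.symm)
  · intro h
    by_cases hde : d = e
    · rw [hde]
    have hcl := class_of_connected hD hc
    have hne := A_nonempty_all hD hc hd he hde
    ext y
    constructor
    · rintro ⟨hy, c⟩
      exact ⟨hy, comm_transfer hD hcl hne hd he hy h c⟩
    · rintro ⟨hy, c⟩
      exact ⟨hy, comm_transfer hD hcl hne he hd hy h.symm c⟩

/-- The description of `E_d`. -/
theorem sameCommutingClass_eq [Finite G] (hc : IsConnectedSet (OddAdj D) D) {d : G} (hd : d ∈ D) :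
    sameCommutingClass D d =
      {e | e ∈ D ∧ commutingMembers D d ∪ fourPartners D d = commutingMembers D e ∪ fourPartners D e} := by
  ext e
  constructor
  · rintro ⟨he, h⟩
    refine ⟨he, ?_⟩
    rw [C_union_V hD hd, C_union_V hD he, (same_class_iff hD hc hd he).1 h]
  · rintro ⟨he, h⟩
    refine ⟨he, ?_⟩
    rw [C_union_V hD hd, C_union_V hD he] at h
    exact (same_class_iff hD hc hd he).2 (A_eq_of_compl hD h)

/-- One step towards the order three partner. -/
lemma exists_root_of_not_same [Finite G] (hc : IsConnectedSet (OddAdj D) D) {a b : G} (ha : a ∈ D) (hb : b ∈ D)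
    (c : b * a = a * b) (hab : a * b ∈ D) (hne : commutingMembers D a ≠ commutingMembers D b) :
    ∃ u ∈ D, orderOf (a * u) = 4 ∧ (a * u) ^ 2 = b := by
  have hcl := class_of_connected hD hc
  have h1 : oddPartners D a ≠ oddPartners D b := fun h => hne ((same_class_iff hD hc ha hb).2 h)
  have h2 : ¬ oddPartners D a ⊆ oddPartners D b := fun h => h1 (A_eq_of_subset hD hcl ha hb h)
  obtain ⟨x, hx, hxb⟩ := Set.not_subset.1 h2
  rw [mem_A hD ha] at hx
  have hF : orderOf (b * x) = 4 := by
    rcases trichotomy hD hb hx.1 with h3 | h3 | h3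
    · exact (no_odd hD ha hx.1 hab (mem_mul_self hD hb) (mem_ne_one hD hb) c h3 hx.2).elim
    · exact (hxb ((mem_A hD hb).2 ⟨hx.1, h3⟩)).elim
    · exact h3.1
  obtain ⟨u, hu, -, -, h4, h5⟩ := exists_root hD ha hx.1 hb hx.2 c hab hF
  exact ⟨u, hu, h4, h5⟩

/-- **Order three partner.** -/
theorem exists_order_three [Finite G] (hc : IsConnectedSet (OddAdj D) D) {a b : G} (ha : a ∈ D) (hb : b ∈ D)
    (c : b * a = a * b) (hab : a * b ∈ D) (hne : commutingMembers D a ≠ commutingMembers D b) :
    ∃ x ∈ fourPartners D b, orderOf (a * x) = 3 := by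
  obtain ⟨u, hu, hF, hsq⟩ := exists_root_of_not_same hD hc ha hb c hab hne
  have h4 : IsFour D a u b := by
    have := isFour hD ha hu hF
    rwa [hsq] at this
  have hbb := mem_mul_self hD hb
  have haa := mem_mul_self hD ha
  have huu := mem_mul_self hD hu
  have heD : u * b ∈ D := by rw [← h4.ab]; exact mem_conj_left hD ha hu
  obtain ⟨e, hedef⟩ : ∃ e, e = u * b := ⟨_, rfl⟩
  rw [← hedef] at heD
  have hub : u * b = b * u := h4.right.symm
  have heb : e * b = b * e := by rw [hedef, mul_assoc, hbb, mul_one, hub, ← mul_assoc, hbb, one_mul]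
  have hbe : b * e = u := by rw [hedef, hub, cancel hbb]
  have hbeD : b * e ∈ D := by rw [hbe]; exact hu
  have hae : a * e * a = u := by
    rw [hedef, ← h4.ab]
    simp only [mul_assoc, cancel haa, haa, mul_one]
  have hne2 : commutingMembers D b ≠ commutingMembers D e := by
    intro h
    have h1 : a ∈ commutingMembers D b := ⟨ha, c.symm⟩
    rw [h] at h1
    have h2 : u = e := by
      rw [← hae, h1.2, mul_assoc, haa, mul_one]
    have h3 : b = 1 := by
      rw [hedef] at h2
      have : u * 1 = u * b := by rw [mul_one]; exact h2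
      exact (mul_left_cancel this).symm
    exact mem_ne_one hD hb h3
  obtain ⟨v, hv, hF', hsq'⟩ := exists_root_of_not_same hD hc hb heD heb hbeD hne2
  have h5 : IsFour D b v e := by
    have := isFour hD hb hv hF'
    rwa [hsq'] at this
  have hvv := mem_mul_self hD hv
  have hbene : b ≠ e := by
    intro h
    have : u = 1 := by
      have h7 : u * b = 1 * b := by rw [one_mul, ← hedef, ← h]
      exact mul_right_cancel h7
    exact mem_ne_one hD hu this
  have hvbv : v * b * v = u := by rw [h5.ba, hbe]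
  refine ⟨v, ⟨hv, hF'⟩, ?_⟩
  refine order_three_of_cycle hD ha hv hb hab (q := u) (r := e) ?_ ?_ hae ?_ hvbv ?_ hbene
  · rw [← c, mul_assoc, haa, mul_one]
  · rw [h4.ab, hedef]
  · rw [← h5.right, mul_assoc, hvv, mul_one]
  · rw [← hvbv]
    simp only [mul_assoc, cancel hvv, hvv, mul_one]

end E1

end Cfsg.Agent.Lib.Amalgam.RootInv
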