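import Cfsg.Agent.Lib.Amalgam.RankOne

/-!
# Sets of abstract root subgroups: first calculus

TI property of non-isolated members and the structure in the commutator case.
-/

set_option autoImplicit false

namespace Cfsg.Agent.Lib.Amalgam.RootSet

open Cfsg Cfsg.Agent.Lib.Amalgam.RankOne
open scoped commutatorElement

variable {G : Type*} [Group G] {S : Set (Subgroup G)}

lemma comm_of_central_mul {z a b : G} (hz : ∀ u, z * u = u * z) (h : (z * a) * b = b * (z * a)) :
    a * b = b * a := by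
  apply mul_left_cancel (a := z)
  calc z * (a * b) = (z * a) * b := (mul_assoc _ _ _).symm
    _ = b * (z * a) := h
    _ = (b * z) * a := (mul_assoc _ _ _).symm
    _ = (z * b) * a := by rw [hz b]
    _ = z * (b * a) := mul_assoc _ _ _

lemma conj_central_mul {z a b : G} (hz : ∀ u, z * u = u * z) :
    (z * a) * b * (z * a)⁻¹ = a * b * a⁻¹ := by
  calc (z * a) * b * (z * a)⁻¹ = z * (a * b * a⁻¹) * z⁻¹ := by group
    _ = (a * b * a⁻¹) * z * z⁻¹ := by rw [hz]
    _ = a * b * a⁻¹ := by group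

lemma le_centralizer_zpowers_iff {C : Subgroup G} {x : G} :
    C ≤ Subgroup.centralizer ((Subgroup.zpowers x : Subgroup G) : Set G) ↔ ∀ c ∈ C, c * x = x * c := by
  constructor
  · intro h c hc
    have := Subgroup.mem_centralizer_iff.1 (h hc) x (Subgroup.mem_zpowers x)
    exact this.symm
  · intro h c hc
    rw [Subgroup.mem_centralizer_iff]
    rintro y hy
    obtain ⟨k, rfl⟩ := Subgroup.mem_zpowers_iff.1 hy
    have h1 : Commute c x := h c hc
    exact (h1.zpow_right k).eq.symm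

lemma comm_of_commutator_eq_bot {A B : Subgroup G} (h : ⁅A, B⁆ = ⊥) {a b : G} (ha : a ∈ A) (hb : b ∈ B) :
    a * b = b * a := by
  have h1 : ⁅a, b⁆ ∈ ⁅A, B⁆ := Subgroup.commutator_mem_commutator ha hb
  rw [h, Subgroup.mem_bot, commutatorElement_def] at h1
  exact comm_of_commutator_eq_one h1

lemma commutator_eq_bot_of_comm {A B : Subgroup G} (h : ∀ a ∈ A, ∀ b ∈ B, a * b = b * a) : ⁅A, B⁆ = ⊥ := by
  rw [eq_bot_iff, Subgroup.commutator_le]
  intro a ha b hb
  rw [commutatorElement_def, h a ha b hb]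
  simp

lemma exists_partner_of_not_isolated {A : Subgroup G} (hA : ¬ IsIsolatedIn (FAdj S) S A) (hAS : A ∈ S) :
    ∃ D ∈ S, IsRankOnePair A D := by
  unfold IsIsolatedIn at hA
  push Not at hA
  obtain ⟨B, hB⟩ := hA hAS
  by_cases h1 : FAdj S A B
  · exact ⟨B, h1.2.1, h1.2.2⟩
  · have h2 := hB h1
    exact ⟨B, h2.1, RankOnePair_symm h2.2.2⟩

lemma not_isolated_of_partner {A D : Subgroup G} (hD : D ∈ S) (hAS : A ∈ S) (h : IsRankOnePair A D) :
    ¬ IsIsolatedIn (FAdj S) S A := by
  rintro ⟨-, hi⟩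
  exact (hi D).1 ⟨hAS, hD, h⟩

/-- Trivial intersection property of a member with a rank one partner. -/
lemma ti (hS : IsRootSubgroupSet S) {A B D : Subgroup G} (hB : B ∈ S) (hD : D ∈ S)
    (hAD : IsRankOnePair A D) : A ⊓ B = ⊥ ∨ A = B := by
  by_contra hcon
  push Not at hcon
  obtain ⟨hne, hAB⟩ := hcon
  obtain ⟨x, hx, hx1⟩ : ∃ x ∈ A ⊓ B, x ≠ 1 := by
    by_contra hc
    push Not at hc
    exact hne (eq_bot_iff.2 fun y hy => by simpa using hc y hy)
  obtain ⟨hxA, hxB⟩ := hx
  have hDcomm := hS.commutative D hD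
  rcases hS.pair B hB D hD with h1 | h1 | h1
  · -- commuting
    apply conjBy_right_ne hAD hxA hx1
    apply conjBy_eq_self_of_comm
    intro d hd
    exact comm_of_commutator_eq_bot h1 hxB hd
  · -- rank one
    obtain ⟨d₀, hd₀, -, h₀⟩ := cond hAD hxA hx1
    obtain ⟨d₁, hd₁, -, h₂⟩ := cond h1 hxB hx1
    have h3 : conjBy A d₀ = conjBy B d₁ := h₀.trans h₂.symm
    have h4 : A = conjBy B (d₀⁻¹ * d₁) := by
      rw [← conjBy_conjBy, ← h3, conjBy_inv_conjBy]
    by_cases hy : d₀⁻¹ * d₁ = 1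
    · rw [hy, conjBy_one] at h4
      exact hAB h4
    · have hyD : d₀⁻¹ * d₁ ∈ D := D.mul_mem (D.inv_mem hd₀) hd₁
      have hBm : B ∈ unipotentSubgroups B D := left_mem_unipotent
      have hAm : A ∈ unipotentSubgroups B D := by
        rw [h4]
        exact ⟨_, (le_sup_right : D ≤ B ⊔ D) hyD, rfl⟩
      have := inf_eq_bot_of_mem_ne h1 hAm hBm hAB
      exact hne this
  · -- commutator case
    obtain ⟨hE, hEc, -, -⟩ := h1
    set E := ⁅B, D⁆ with hEdef
    have hEcomm : ∀ e ∈ E, ∀ d ∈ D, e * d = d * e := fun e he d hd =>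
      hEc e he d ((le_sup_right : D ≤ B ⊔ D) hd)
    have hle : D ⊔ E ≤ Subgroup.centralizer (D : Set G) := by
      apply sup_le
      · intro d hd
        rw [Subgroup.mem_centralizer_iff]
        intro d' hd'
        exact comm_of_isMulCommutative hDcomm hd' hd
      · intro e he
        rw [Subgroup.mem_centralizer_iff]
        intro d' hd'
        exact (hEcomm e he d' hd').symm
    -- conjugating D by x stays inside D ⊔ E
    have hconj : conjBy D x ≤ D ⊔ E := by
      intro u hu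
      rw [mem_conjBy] at hu
      set d := x⁻¹ * u * x with hd
      have e1 : u = (x * d * x⁻¹ * d⁻¹) * d := by rw [hd]; group
      rw [e1]
      refine (D ⊔ E).mul_mem ?_ ((le_sup_left : D ≤ D ⊔ E) hu)
      apply (le_sup_right : E ≤ D ⊔ E)
      exact Subgroup.commutator_mem_commutator hxB hu
    obtain ⟨d₀, hd₀, -, h₀⟩ := cond hAD hxA hx1
    have hA : A ≤ D ⊔ E := by
      have h2 : conjBy A d₀ ≤ D ⊔ E := by rw [h₀]; exact hconj
      have h3 := conjBy_le_conjBy h2 d₀⁻¹
      rw [conjBy_inv_conjBy, conjBy_eq_self ((le_sup_left : D ≤ D ⊔ E) (D.inv_mem hd₀))] at h3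
      exact h3
    have hxc := hle (hA hxA)
    apply conjBy_right_ne hAD hxA hx1
    apply conjBy_eq_self_of_comm
    intro d hd
    exact (Subgroup.mem_centralizer_iff.1 hxc d hd).symm

/-- A conjugate of a member with a partner has a partner. -/
lemma conj_partner (hS : IsRootSubgroupSet S) {A D : Subgroup G} (hD : D ∈ S) (hAD : IsRankOnePair A D) (g : G) :
    conjBy D g ∈ S ∧ IsRankOnePair (conjBy A g) (conjBy D g) :=
  ⟨hS.conj_mem D hD g, rankOnePair_conjBy hAD g⟩

/-- `X = A ⊔ B` normalizes `⁅A, B⁆`. -/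
lemma sup_le_normalizer_commutator (A B : Subgroup G) :
    A ⊔ B ≤ Subgroup.normalizer ((⁅A, B⁆ : Subgroup G) : Set G) := by
  have hA : ∀ a ∈ A, ∀ n ∈ ⁅A, B⁆, a * n * a⁻¹ ∈ ⁅A, B⁆ := by
    intro a ha n hn
    have : ⁅A, B⁆ ≤ (⁅A, B⁆).comap (MulAut.conj a).toMonoidHom := by
      rw [Subgroup.commutator_le]
      intro a₁ ha₁ b hb
      show a * ⁅a₁, b⁆ * a⁻¹ ∈ ⁅A, B⁆
      have e : a * ⁅a₁, b⁆ * a⁻¹ = ⁅a * a₁, b⁆ * ⁅a, b⁆⁻¹ := by
        simp only [commutatorElement_def]; group
      rw [e]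
      exact Subgroup.mul_mem _ (Subgroup.commutator_mem_commutator (A.mul_mem ha ha₁) hb)
        (Subgroup.inv_mem _ (Subgroup.commutator_mem_commutator ha hb))
    exact this hn
  have hB : ∀ b ∈ B, ∀ n ∈ ⁅A, B⁆, b * n * b⁻¹ ∈ ⁅A, B⁆ := by
    intro b hb n hn
    have : ⁅A, B⁆ ≤ (⁅A, B⁆).comap (MulAut.conj b).toMonoidHom := by
      rw [Subgroup.commutator_le]
      intro a ha b₁ hb₁
      show b * ⁅a, b₁⁆ * b⁻¹ ∈ ⁅A, B⁆
      have e : b * ⁅a, b₁⁆ * b⁻¹ = ⁅a, b⁆⁻¹ * ⁅a, b * b₁⁆ := by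
        simp only [commutatorElement_def]; group
      rw [e]
      exact Subgroup.mul_mem _ (Subgroup.inv_mem _ (Subgroup.commutator_mem_commutator ha hb))
        (Subgroup.commutator_mem_commutator ha (B.mul_mem hb hb₁))
    exact this hn
  apply sup_le
  · intro a ha
    rw [mem_normalizer_iff_conjBy]
    ext u
    rw [mem_conjBy]
    constructor
    · intro hu
      have := hA a ha _ hu
      have e : a * (a⁻¹ * u * a) * a⁻¹ = u := by group
      rwa [e] at this
    · intro hu
      have := hA a⁻¹ (A.inv_mem ha) _ hu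
      simpa using this
  · intro a ha
    rw [mem_normalizer_iff_conjBy]
    ext u
    rw [mem_conjBy]
    constructor
    · intro hu
      have := hB a ha _ hu
      have e : a * (a⁻¹ * u * a) * a⁻¹ = u := by group
      rwa [e] at this
    · intro hu
      have := hB a⁻¹ (B.inv_mem ha) _ hu
      simpa using this

lemma conj_mem_commutator {A B : Subgroup G} {x n : G} (hx : x ∈ A ⊔ B) (hn : n ∈ ⁅A, B⁆) :
    x * n * x⁻¹ ∈ ⁅A, B⁆ := by
  have h1 := sup_le_normalizer_commutator A B hx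
  rw [mem_normalizer_iff_conjBy] at h1
  have := conj_mem_conjBy (g := x) hn
  rwa [h1] at this

lemma commutator_le_sup (A B : Subgroup G) : ⁅A, B⁆ ≤ A ⊔ B := by
  rw [Subgroup.commutator_le]
  intro a ha b hb
  rw [commutatorElement_def]
  have ha' := (le_sup_left : A ≤ A ⊔ B) ha
  have hb' := (le_sup_right : B ≤ A ⊔ B) hb
  exact (A ⊔ B).mul_mem ((A ⊔ B).mul_mem ((A ⊔ B).mul_mem ha' hb') ((A ⊔ B).inv_mem ha')) ((A ⊔ B).inv_mem hb')

/-- A rank one pair of members never has its commutator in `S`. -/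
lemma not_rankOne_of_commutator_mem (hS : IsRootSubgroupSet S) {A B : Subgroup G} (hA : A ∈ S) (hB : B ∈ S)
    (hC : ⁅A, B⁆ ∈ S) (h : IsRankOnePair A B) : False := by
  set N := ⁅A, B⁆ with hNdef
  have hNX : N ≤ A ⊔ B := commutator_le_sup A B
  have hnorm : ∀ x ∈ A ⊔ B, ∀ n ∈ N, x * n * x⁻¹ ∈ N := fun x hx n hn => conj_mem_commutator hx hn
  have hAc := hS.commutative A hA
  have hBc := hS.commutative B hB
  have hNc := hS.commutative N hC
  rcases normal_dichotomy h hNX hnorm with hd | hd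
  · -- N ⊔ A = X
    have hclass : (∀ u ∈ N, ∀ v ∈ A, ∀ z ∈ N ⊔ A, (u * v * u⁻¹ * v⁻¹) * z = z * (u * v * u⁻¹ * v⁻¹)) → False := by
      intro hcentral
      have := comm_central_of_gen hNc hAc hcentral
      rw [hd] at this
      exact not_class_two h this
    rcases hS.pair N hC A hA with h1 | h1 | h1
    · apply hclass
      intro u hu v hv z _
      rw [comm_of_commutator_eq_bot h1 hu hv]
      simp
    · obtain ⟨a, ha, ha1⟩ := exists_ne_one_left h
      obtain ⟨n, hn, -, hna⟩ := cond' h1 ha ha1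
      have h2 : conjBy N a = N := by
        have := sup_le_normalizer_commutator A B ((le_sup_left : A ≤ A ⊔ B) ha)
        rwa [mem_normalizer_iff_conjBy] at this
      rw [h2] at hna
      have h3 := conjBy_eq_iff.1 hna.symm
      rw [conjBy_eq_self (N.inv_mem hn)] at h3
      exact h1.ne h3.symm
    · obtain ⟨-, h2, -, -⟩ := h1
      apply hclass
      intro u hu v hv z hz
      exact h2 _ (Subgroup.commutator_mem_commutator hu hv) z hz
  · -- N central
    apply not_class_two h
    apply comm_central_of_gen hAc hBc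
    intro u hu v hv z hz
    exact hd _ (Subgroup.commutator_mem_commutator hu hv) z hz

/-- If the commutator belongs to `S`, we are in the commutator case. -/
lemma commCase_of_mem (hS : IsRootSubgroupSet S) {A B : Subgroup G} (hA : A ∈ S) (hB : B ∈ S)
    (hC : ⁅A, B⁆ ∈ S) : RootCommutatorCase S A B := by
  rcases hS.pair A hA B hB with h1 | h1 | h1
  · exact absurd h1 (hS.ne_bot _ hC)
  · exact (not_rankOne_of_commutator_mem hS hA hB hC h1).elim
  · exact h1

end Cfsg.Agent.Lib.Amalgam.RootSet
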