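import Mathlib
import Cfsg.Agent.Lib.Amalgam.Sims3Main

/-!
# Sims' theorem in local form: a maximal subgroup with dihedral quotient
-/

set_option autoImplicit false
set_option linter.unusedSectionVars false
set_option linter.style.haveILetI false

namespace Cfsg.Agent.Lib.Amalgam.SimsLocal

open Cfsg Cfsg.Agent.Lib.Amalgam.Gold Cfsg.Agent.Lib.Amalgam.Strad

section Abstract

variable {A : Type*} [Group A] [Finite A]

/-- An automorphism of an elementary abelian group with small commutator space has order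
dividing twelve. -/
theorem pow12 (hA : ∀ a : A, a * a = 1) (ψ : A →* A) (U : Subgroup A) (hU : Nat.card U ≤ 4)
    (hψU : ∀ u ∈ U, ψ u ∈ U) (hinj : Function.Injective ψ) (hr : ∀ a, ψ a * a⁻¹ ∈ U) (a : A) :
    (ψ^[12]) a = a := by
  classical
  have hcomm : ∀ a b : A, a * b = b * a := by
    intro a b
    have h1 := hA (a * b)
    have h2 : a * b = (b * a)⁻¹⁻¹ := by
      rw [inv_inv]
      have h3 : a * b * (a * b) = 1 := h1
      have h4 : b * a = (b * a) * (a * b * (a * b)) := by rw [h3, mul_one]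
      have h5 : (b * a) * (a * b * (a * b)) = b * (a * a) * b * (a * b) := by group
      rw [hA a, mul_one, hA b, one_mul] at h5
      rw [h4, h5]
    rw [inv_inv] at h2
    exact h2
  have hinv : ∀ a : A, a⁻¹ = a := fun a => inv_eq_of_mul_eq_one_left (hA a)
  have hmem : ∀ n, ∀ u ∈ U, (ψ^[n]) u ∈ U := by
    intro n u hu
    induction n with
    | zero => simpa using hu
    | succ n ih =>
      rw [Function.iterate_succ_apply']
      exact hψU _ ih
  have h6 : ∀ u ∈ U, (ψ^[6]) u = u := by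
    intro u hu
    by_cases h1 : u = 1
    · rw [h1]
      exact iterate_map_one ψ 6
    by_contra h6ne
    have e1 : ψ u ≠ u := by
      intro e
      apply h6ne
      simp only [Function.iterate_succ, Function.iterate_zero, Function.comp_apply, id, e]
    have e2 : ψ (ψ u) ≠ u := by
      intro e
      apply h6ne
      simp only [Function.iterate_succ, Function.iterate_zero, Function.comp_apply, id, e]
    have e3 : ψ (ψ (ψ u)) ≠ u := by
      intro e
      apply h6ne
      simp only [Function.iterate_succ, Function.iterate_zero, Function.comp_apply, id, e]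
    have hm1 : ψ u ∈ U := hψU _ hu
    have hm2 : ψ (ψ u) ∈ U := hψU _ hm1
    have hm3 : ψ (ψ (ψ u)) ∈ U := hψU _ hm2
    have n1 : ψ u ≠ 1 := fun e => h1 (hinj (by rw [e, map_one]))
    have n2 : ψ (ψ u) ≠ 1 := fun e => n1 (hinj (by rw [e, map_one]))
    have n3 : ψ (ψ (ψ u)) ≠ 1 := fun e => n2 (hinj (by rw [e, map_one]))
    have e12 : ψ (ψ u) ≠ ψ u := fun e => e1 (hinj e)
    have e13 : ψ (ψ (ψ u)) ≠ ψ u := fun e => e2 (hinj e)
    have e23 : ψ (ψ (ψ u)) ≠ ψ (ψ u) := fun e => e12 (hinj e)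
    haveI : Fintype U := Fintype.ofFinite _
    let s : Finset U := {⟨1, U.one_mem⟩, ⟨u, hu⟩, ⟨ψ u, hm1⟩, ⟨ψ (ψ u), hm2⟩, ⟨ψ (ψ (ψ u)), hm3⟩}
    have hs : s.card = 5 := by
      simp only [s]
      rw [Finset.card_insert_of_notMem, Finset.card_insert_of_notMem, Finset.card_insert_of_notMem,
        Finset.card_insert_of_notMem, Finset.card_singleton]
      · simp only [Finset.mem_singleton, Subtype.mk.injEq]
        exact fun e => e23 e.symm
      · simp only [Finset.mem_insert, Finset.mem_singleton, Subtype.mk.injEq, not_or]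
        exact ⟨fun e => e12 e.symm, fun e => e13 e.symm⟩
      · simp only [Finset.mem_insert, Finset.mem_singleton, Subtype.mk.injEq, not_or]
        exact ⟨fun e => e1 e.symm, fun e => e2 e.symm, fun e => e3 e.symm⟩
      · simp only [Finset.mem_insert, Finset.mem_singleton, Subtype.mk.injEq, not_or]
        exact ⟨fun e => h1 e.symm, fun e => n1 e.symm, fun e => n2 e.symm, fun e => n3 e.symm⟩
    have hle := Finset.card_le_univ s
    rw [hs, ← Nat.card_eq_fintype_card] at hle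
    omega
  have hit : ∀ n a, (ψ^[n]) a * a⁻¹ ∈ U := by
    intro n a
    induction n with
    | zero => simp [U.one_mem]
    | succ n ih =>
      rw [Function.iterate_succ_apply']
      have := U.mul_mem (hr ((ψ^[n]) a)) ih
      simpa [mul_assoc] using this
  set w := (ψ^[6]) a * a⁻¹ with hw
  have hwU : w ∈ U := hit 6 a
  have e : (ψ^[6]) a = w * a := by rw [hw]; group
  have : (ψ^[12]) a = (ψ^[6]) ((ψ^[6]) a) := Function.iterate_add_apply ψ 6 6 a
  rw [this, e, iterate_map_mul, h6 w hwU, e, ← mul_assoc, hA w, one_mul]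

end Abstract

section Inner

variable {H : Type*} [Group H] [Finite H]

/-- Twelfth powers centralise when the commutator space has at most four elements. -/
theorem pow12_centralizes {V : Subgroup H} (hV2 : ∀ v ∈ V, v * v = 1) {x : H}
    (hxV : ∀ v ∈ V, x * v * x⁻¹ ∈ V) (C : Subgroup V) (hC : C.index ≤ 4)
    (hCx : ∀ v : V, v ∈ C → x * (v : H) = (v : H) * x) {v : H} (hv : v ∈ V) :
    x ^ 12 * v = v * x ^ 12 := by
  have hA : ∀ a : V, a * a = 1 := fun a => Subtype.ext (hV2 a a.2)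
  have hcomm : ∀ a b : V, a * b = b * a := by
    intro a b
    have h2 : (a * b) * (a * b) = 1 := hA _
    have hinv : ∀ a : V, a⁻¹ = a := fun a => inv_eq_of_mul_eq_one_left (hA a)
    have h3 : a * b = (a * b)⁻¹ := (inv_eq_of_mul_eq_one_left h2).symm
    rw [h3, mul_inv_rev, hinv, hinv]
  let ψ : V →* V :=
    { toFun := fun v => ⟨x * v * x⁻¹, hxV v v.2⟩
      map_one' := by ext; simp
      map_mul' := by intro a b; ext; simp [mul_assoc] }
  have hψ : ∀ a : V, ((ψ a : V) : H) = x * a * x⁻¹ := fun _ => rfl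
  let f : V →* V :=
    { toFun := fun v => ψ v * v⁻¹
      map_one' := by simp
      map_mul' := by
        intro a b
        simp only [map_mul, mul_inv_rev]
        have h1 := hcomm b⁻¹ a⁻¹
        rw [h1]
        have h2 := hcomm (ψ b) a⁻¹
        calc ψ a * ψ b * (a⁻¹ * b⁻¹) = ψ a * (ψ b * a⁻¹) * b⁻¹ := by group
          _ = ψ a * (a⁻¹ * ψ b) * b⁻¹ := by rw [h2]
          _ = _ := by group }
  have hf : ∀ a : V, f a = ψ a * a⁻¹ := fun _ => rfl
  have hCf : C ≤ f.ker := by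
    intro a ha
    rw [MonoidHom.mem_ker, hf]
    apply Subtype.ext
    have := hCx a ha
    simp only [Subgroup.coe_mul, hψ, InvMemClass.coe_inv, Subgroup.coe_one]
    rw [this]
    group
  have hU : Nat.card f.range ≤ 4 := by
    rw [← Subgroup.index_ker]
    exact (Nat.le_of_dvd (Nat.pos_of_ne_zero Subgroup.FiniteIndex.index_ne_zero)
      (Subgroup.index_dvd_of_le hCf)).trans hC
  have hψU : ∀ u ∈ f.range, ψ u ∈ f.range := by
    rintro _ ⟨a, rfl⟩
    refine ⟨ψ a, ?_⟩
    rw [hf, hf, map_mul, map_inv]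
  have hinj : Function.Injective ψ := by
    intro a b e
    have : ((ψ a : V) : H) = ψ b := congrArg Subtype.val e
    rw [hψ, hψ] at this
    exact Subtype.ext (by simpa using this)
  have h12 := pow12 hA ψ f.range hU hψU hinj (fun a => ⟨a, rfl⟩) ⟨v, hv⟩
  have hit : ∀ n (a : V), (((ψ^[n]) a : V) : H) = x ^ n * a * (x ^ n)⁻¹ := by
    intro n a
    induction n with
    | zero => simp
    | succ n ih =>
      rw [Function.iterate_succ_apply', hψ, ih]
      group
  have h := hit 12 ⟨v, hv⟩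
  rw [h12] at h
  have h' : v = x ^ 12 * v * (x ^ 12)⁻¹ := h
  calc x ^ 12 * v = (x ^ 12 * v * (x ^ 12)⁻¹) * x ^ 12 := by group
    _ = v * x ^ 12 := by rw [← h']

/-- If two elements outside a subgroup always have product in it then the index is at most `2`. -/
theorem index_le_two_of {A : Type*} [Group A] (C : Subgroup A)
    (h : ∀ a b, a ∉ C → b ∉ C → a * b ∈ C) : C.index ≤ 2 := by
  by_cases hall : ∀ a, a ∈ C
  · have : C = ⊤ := by ext a; simp [hall a]
    rw [this, Subgroup.index_top]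
    omega
  push Not at hall
  obtain ⟨a, ha⟩ := hall
  have : C.index = 2 := by
    rw [Subgroup.index_eq_two_iff]
    refine ⟨a, fun b => ?_⟩
    by_cases hb : b ∈ C
    · refine Or.inr ⟨hb, fun hh => ha ?_⟩
      have := C.mul_mem (C.inv_mem hb) hh
      simpa using this
    · exact Or.inl ⟨h b a hb ha, hb⟩
  omega

end Inner


section Words

variable {H : Type*} [Group H]

/-- Words of length `n` in `g^{±1}` with coefficients in `G`. -/
def B (G : Subgroup H) (g : H) : ℕ → Set H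
  | 0 => (G : Set H)
  | n + 1 => {b | ∃ c ∈ B G g n, ∃ s, (s = g ∨ s = g⁻¹) ∧ ∃ d ∈ G, b = c * s * d}

variable {G : Subgroup H} {g : H}

theorem B_left {n : ℕ} {c u : H} (hc : c ∈ B G g n) (hu : u ∈ G) : u * c ∈ B G g n := by
  induction n generalizing c with
  | zero => exact G.mul_mem hu hc
  | succ n ih =>
    obtain ⟨c', hc', s, hs, d, hd, rfl⟩ := hc
    exact ⟨u * c', ih hc', s, hs, d, hd, by group⟩

theorem B_s_left {n : ℕ} {c s : H} (hc : c ∈ B G g n) (hs : s = g ∨ s = g⁻¹) :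
    s * c ∈ B G g (n + 1) := by
  induction n generalizing c with
  | zero => exact ⟨1, G.one_mem, s, hs, c, hc, by simp⟩
  | succ n ih =>
    obtain ⟨c', hc', t, ht, d, hd, rfl⟩ := hc
    exact ⟨s * c', ih hc', t, ht, d, hd, by group⟩

theorem B_inv {n : ℕ} {c : H} (hc : c ∈ B G g n) : c⁻¹ ∈ B G g n := by
  induction n generalizing c with
  | zero => exact G.inv_mem hc
  | succ n ih =>
    obtain ⟨c', hc', s, hs, d, hd, rfl⟩ := hc
    have hs' : s⁻¹ = g ∨ s⁻¹ = g⁻¹ := by
      rcases hs with rfl | rfl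
      · exact Or.inr rfl
      · exact Or.inl (inv_inv _)
    have := B_left (B_s_left (ih hc') hs') (G.inv_mem hd)
    simpa [mul_assoc] using this

theorem exists_B (hG : IsCoatom G) (hg : g ∉ G) (h : H) : ∃ n, h ∈ B G g n := by
  have htop : Subgroup.closure ((G : Set H) ∪ {g}) = ⊤ := by
    apply hG.2
    refine lt_of_le_of_ne ?_ ?_
    · exact fun x hx => Subgroup.subset_closure (Or.inl hx)
    · intro e
      apply hg
      rw [e]
      exact Subgroup.subset_closure (Or.inr rfl)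
  have hh : h ∈ Subgroup.closure ((G : Set H) ∪ {g}) := by rw [htop]; trivial
  induction hh using Subgroup.closure_induction_left with
  | one => exact ⟨0, G.one_mem⟩
  | mul_left x hx y hy ih =>
    obtain ⟨n, hn⟩ := ih
    rcases hx with hx | rfl
    · exact ⟨n, B_left hn hx⟩
    · exact ⟨n + 1, B_s_left hn (Or.inl rfl)⟩
  | inv_mul_cancel x hx y hy ih =>
    obtain ⟨n, hn⟩ := ih
    rcases hx with hx | rfl
    · exact ⟨n, B_left hn (G.inv_mem hx)⟩
    · exact ⟨n + 1, B_s_left hn (Or.inr rfl)⟩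

variable {T Q V : Subgroup H}

/-- If all conjugates of `V` along the words are inside `Q` up to length `n`, the next
  ones are inside `G`. -/
theorem step_word (hTG : T ≤ G) (hQT : Q ≤ T) (hgT : ∀ t ∈ T, g * t * g⁻¹ ∈ T)
    (hgT' : ∀ t ∈ T, g⁻¹ * t * g ∈ T) {c s d : H} (hs : s = g ∨ s = g⁻¹) (hd : d ∈ G)
    (hc : ∀ v ∈ V, c⁻¹ * v * c ∈ Q) : ∀ v ∈ V, (c * s * d)⁻¹ * v * (c * s * d) ∈ G := by
  intro v hv
  have h1 : c⁻¹ * v * c ∈ T := hQT (hc v hv)
  have h2 : s⁻¹ * (c⁻¹ * v * c) * s ∈ T := by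
    rcases hs with rfl | rfl
    · exact hgT' _ h1
    · simpa using hgT _ h1
  have h3 := G.mul_mem (G.mul_mem (G.inv_mem hd) (hTG h2)) hd
  have e : (c * s * d)⁻¹ * v * (c * s * d) = d⁻¹ * (s⁻¹ * (c⁻¹ * v * c) * s) * d := by group
  rw [e]
  exact h3

/-- If no `b` is critical then all conjugates of `V` are in `Q`. -/
theorem all_conj_mem (hTG : T ≤ G) (hQT : Q ≤ T) (hgT : ∀ t ∈ T, g * t * g⁻¹ ∈ T)
    (hgT' : ∀ t ∈ T, g⁻¹ * t * g ∈ T) (hVQ : V ≤ Q) (hVn : ∀ v ∈ V, ∀ c ∈ G, c * v * c⁻¹ ∈ V)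
    (hno : ∀ b : H, (∀ v ∈ V, b * v * b⁻¹ ∈ G) → (∀ v ∈ V, b⁻¹ * v * b ∈ G) →
      ∀ v ∈ V, b⁻¹ * v * b ∈ Q) (n : ℕ) {b : H} (hb : b ∈ B G g n) :
    ∀ v ∈ V, b⁻¹ * v * b ∈ Q := by
  induction n generalizing b with
  | zero =>
    intro v hv
    have := hVn v hv b⁻¹ (G.inv_mem hb)
    exact hVQ (by simpa using this)
  | succ n ih =>
    apply hno
    · obtain ⟨c, hc, s, hs, d, hd, e⟩ := B_inv hb
      have := step_word hTG hQT hgT hgT' hs hd (ih hc)
      rw [← e] at this
      simpa using this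
    · obtain ⟨c, hc, s, hs, d, hd, rfl⟩ := hb
      exact step_word hTG hQT hgT hgT' hs hd (ih hc)

/-- **Existence of a critical element.** -/
theorem exists_critical [IsSimpleGroup H] (hG : IsCoatom G) (hg : g ∉ G) (hTG : T ≤ G) (hQT : Q ≤ T)
    (hgT : ∀ t ∈ T, g * t * g⁻¹ ∈ T) (hgT' : ∀ t ∈ T, g⁻¹ * t * g ∈ T) (hVQ : V ≤ Q)
    (hVn : ∀ v ∈ V, ∀ c ∈ G, c * v * c⁻¹ ∈ V) (hVne : V ≠ ⊥) :
    ∃ b : H, (∀ v ∈ V, b * v * b⁻¹ ∈ G) ∧ (∀ v ∈ V, b⁻¹ * v * b ∈ G) ∧
      ∃ v ∈ V, b⁻¹ * v * b ∉ Q := by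
  by_contra hcon
  push Not at hcon
  have hall : ∀ b : H, ∀ v ∈ V, b⁻¹ * v * b ∈ Q := by
    intro b
    obtain ⟨n, hn⟩ := exists_B hG hg b
    exact all_conj_mem hTG hQT hgT hgT' hVQ hVn hcon n hn
  have hcore : V ≤ Q.normalCore := by
    intro v hv b
    have := hall b⁻¹ v hv
    simpa using this
  rcases (Subgroup.normalCore_normal Q).eq_bot_or_eq_top with h | h
  · rw [h] at hcore
    exact hVne (le_bot_iff.mp hcore)
  · have hQ : Q = ⊤ := by
      have := Subgroup.normalCore_le Q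
      rw [h] at this
      exact top_le_iff.mp this
    apply hG.1
    rw [eq_top_iff, ← hQ]
    exact hQT.trans hTG

end Words

section Dihedral

variable {q : ℕ} [hfq : Fact q.Prime]

open DihedralGroup

theorem r_sq (hq2 : q ≠ 2) {k : ZMod q} (h : (r k : DihedralGroup q) * r k = 1) : k = 0 := by
  rw [r_mul_r, one_def] at h
  have h1 : k + k = 0 := r.inj h
  have h2 : (2 : ZMod q) * k = 0 := by rw [two_mul]; exact h1
  have h3 : (2 : ZMod q) ≠ 0 := by
    intro h0
    have : ((2 : ℕ) : ZMod q) = 0 := by exact_mod_cast h0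
    rw [ZMod.natCast_eq_zero_iff] at this
    rcases (Nat.dvd_prime Nat.prime_two).mp this with h | h
    · exact hfq.out.one_lt.ne' h
    · exact hq2 h
  exact (mul_eq_zero.mp h2).resolve_left h3

theorem exists_sr (hq2 : q ≠ 2) {u : DihedralGroup q} (h : u * u = 1) (hu : u ≠ 1) :
    ∃ i, u = sr i := by
  rcases u with k | i
  · exact absurd (by rw [r_sq hq2 h, one_def]) hu
  · exact ⟨i, rfl⟩

/-- A power of the element `r (-2)`. -/
theorem r_pow_ne (hq2 : q ≠ 2) (hq3 : q ≠ 3) (n : ℕ) :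
    (r (-2) : DihedralGroup q) ^ (12 * 2 ^ n) ≠ 1 := by
  intro h
  rw [r_pow, one_def] at h
  have h1 := r.inj h
  have h2 : ((2 * (12 * 2 ^ n) : ℕ) : ZMod q) = 0 := by
    push_cast at h1 ⊢
    have : (-2 : ZMod q) * (12 * 2 ^ n) = -(2 * (12 * 2 ^ n)) := by ring
    rw [this, neg_eq_zero] at h1
    exact h1
  rw [ZMod.natCast_eq_zero_iff] at h2
  have hp := hfq.out
  have h3 : (2 * (12 * 2 ^ n) : ℕ) = 2 ^ (n + 3) * 3 := by ring
  rw [h3] at h2
  rcases (Nat.Prime.dvd_mul hp).mp h2 with h4 | h4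
  · exact hq2 ((Nat.prime_dvd_prime_iff_eq hp Nat.prime_two).mp (hp.dvd_of_dvd_pow h4))
  · exact hq3 ((Nat.prime_dvd_prime_iff_eq hp Nat.prime_three).mp h4)

end Dihedral


section Dat

variable {H : Type*} [Group H]

/-- The elements of order at most two in the centre of `Q`. -/
def OmZ (Q : Subgroup H) : Subgroup H where
  carrier := {v | v ∈ Q ∧ (∀ u ∈ Q, v * u = u * v) ∧ v * v = 1}
  mul_mem' := by
    rintro a b ⟨ha, hac, ha2⟩ ⟨hb, hbc, hb2⟩
    refine ⟨Q.mul_mem ha hb, fun u hu => ?_, ?_⟩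
    · rw [mul_assoc, hbc u hu, ← mul_assoc, hac u hu, mul_assoc]
    · calc a * b * (a * b) = a * (b * a) * b := by group
        _ = a * (a * b) * b := by rw [hbc a ha]
        _ = (a * a) * (b * b) := by group
        _ = 1 := by rw [ha2, hb2, one_mul]
  one_mem' := ⟨Q.one_mem, by simp, by simp⟩
  inv_mem' := by
    rintro a ⟨ha, hac, ha2⟩
    have : a⁻¹ = a := inv_eq_of_mul_eq_one_left ha2
    rw [this]
    exact ⟨ha, hac, ha2⟩

theorem mem_OmZ {Q : Subgroup H} {v : H} :
    v ∈ OmZ Q ↔ v ∈ Q ∧ (∀ u ∈ Q, v * u = u * v) ∧ v * v = 1 := Iff.rfl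

/-- Data on the maximal subgroup. -/
structure Dat (G T Q : Subgroup H) (q : ℕ) (π : G →* DihedralGroup q) : Prop where
  ker : ∀ x : G, π x = 1 ↔ (x : H) ∈ Q
  surj : Function.Surjective π
  ne2 : q ≠ 2
  QT : Q ≤ T
  TG : T ≤ G
  T2 : IsPGroup 2 T
  idx : T.relIndex G = q
  Qn : ∀ u ∈ Q, ∀ c ∈ G, c * u * c⁻¹ ∈ Q

variable {G T Q : Subgroup H} {q : ℕ} {π : G →* DihedralGroup q}

theorem OmZ_conj (d : Dat G T Q q π) {v c : H} (hv : v ∈ OmZ Q) (hc : c ∈ G) :
    c * v * c⁻¹ ∈ OmZ Q := by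
  obtain ⟨h1, h2, h3⟩ := hv
  refine ⟨d.Qn v h1 c hc, fun u hu => ?_, ?_⟩
  · have hu' : c⁻¹ * u * c ∈ Q := by simpa using d.Qn u hu c⁻¹ (G.inv_mem hc)
    have := h2 _ hu'
    calc c * v * c⁻¹ * u = c * (v * (c⁻¹ * u * c)) * c⁻¹ := by group
      _ = c * ((c⁻¹ * u * c) * v) * c⁻¹ := by rw [this]
      _ = u * (c * v * c⁻¹) := by group
  · calc c * v * c⁻¹ * (c * v * c⁻¹) = c * (v * v) * c⁻¹ := by group
      _ = 1 := by rw [h3]; group

variable [Fact q.Prime]

open DihedralGroup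

/-- The key index bound: an element of `V^b` has a centraliser of index at most two in `V`. -/
theorem index_cent [Finite H] (d : Dat G T Q q π) {b z : H} (hb : ∀ v ∈ OmZ Q, b * v * b⁻¹ ∈ G)
    (hz : z ∈ OmZ Q) :
    ((Subgroup.centralizer {b⁻¹ * z * b}).subgroupOf (OmZ Q)).index ≤ 2 := by
  apply index_le_two_of
  let φ : OmZ Q →* G :=
    { toFun := fun v => ⟨b * v * b⁻¹, hb v v.2⟩
      map_one' := by ext; simp
      map_mul' := by intro a c; ext; simp [mul_assoc] }
  have hφ : ∀ v : OmZ Q, ((φ v : G) : H) = b * v * b⁻¹ := fun _ => rfl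
  have hsq : ∀ v : OmZ Q, π (φ v) * π (φ v) = 1 := by
    intro v
    rw [← map_mul, ← map_mul]
    have : v * v = 1 := Subtype.ext v.2.2.2
    rw [this, map_one, map_one]
  have hmem : ∀ v : OmZ Q, π (φ v) = 1 →
      (v ∈ (Subgroup.centralizer {b⁻¹ * z * b}).subgroupOf (OmZ Q)) := by
    intro v hv
    rw [d.ker, hφ] at hv
    have hc := hz.2.1 _ hv
    rw [Subgroup.mem_subgroupOf, Subgroup.mem_centralizer_singleton_iff]
    calc (v : H) * (b⁻¹ * z * b) = b⁻¹ * ((b * v * b⁻¹) * z) * b := by group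
      _ = b⁻¹ * (z * (b * v * b⁻¹)) * b := by rw [hc]
      _ = b⁻¹ * z * b * v := by group
  intro v₁ v₂ h₁ h₂
  have n₁ : π (φ v₁) ≠ 1 := fun e => h₁ (hmem v₁ e)
  have n₂ : π (φ v₂) ≠ 1 := fun e => h₂ (hmem v₂ e)
  obtain ⟨i, hi⟩ := exists_sr d.ne2 (hsq v₁) n₁
  obtain ⟨j, hj⟩ := exists_sr d.ne2 (hsq v₂) n₂
  apply hmem
  have e : π (φ (v₁ * v₂)) = r (j - i) := by
    rw [map_mul, map_mul, hi, hj, sr_mul_sr]
  have h0 := hsq (v₁ * v₂)
  rw [e] at h0
  rw [e, r_sq d.ne2 h0, one_def]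

/-- From a critical element we obtain an element mapping to `r (-2)` whose twelfth power
centralises `V`. -/
theorem exists_x [Finite H] (d : Dat G T Q q π) {b z : H} (hb : ∀ v ∈ OmZ Q, b * v * b⁻¹ ∈ G)
    (hb' : ∀ v ∈ OmZ Q, b⁻¹ * v * b ∈ G) (hz : z ∈ OmZ Q) (hzb : b⁻¹ * z * b ∉ Q) :
    ∃ x : G, π x = r (-2) ∧ ∀ v ∈ OmZ Q, (x : H) ^ 12 * v = v * (x : H) ^ 12 := by
  set y : G := ⟨b⁻¹ * z * b, hb' z hz⟩ with hy
  have hyy : (y : H) = b⁻¹ * z * b := rfl
  have hy2 : y * y = 1 := by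
    ext
    simp only [Subgroup.coe_mul, hyy, Subgroup.coe_one]
    calc b⁻¹ * z * b * (b⁻¹ * z * b) = b⁻¹ * (z * z) * b := by group
      _ = 1 := by rw [hz.2.2]; group
  have hy1 : π y ≠ 1 := fun e => hzb ((d.ker y).mp e)
  have hsq : π y * π y = 1 := by rw [← map_mul, hy2, map_one]
  obtain ⟨i, hi⟩ := exists_sr d.ne2 hsq hy1
  obtain ⟨c, hc⟩ := d.surj (r 1)
  set y' : G := c * y * c⁻¹ with hy'
  have hb2 : ∀ v ∈ OmZ Q, (b * (c : H)⁻¹) * v * (b * (c : H)⁻¹)⁻¹ ∈ G := by
    intro v hv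
    have h1 := OmZ_conj d hv (G.inv_mem c.2)
    have h2 := hb _ h1
    have e : (b * (c : H)⁻¹) * v * (b * (c : H)⁻¹)⁻¹ = b * ((c : H)⁻¹ * v * ((c : H)⁻¹)⁻¹) * b⁻¹ := by
      group
    rw [e]
    exact h2
  have hyy' : (y' : H) = (b * (c : H)⁻¹)⁻¹ * z * (b * (c : H)⁻¹) := by
    simp only [hy', Subgroup.coe_mul, InvMemClass.coe_inv, hyy]
    group
  have hi1 := index_cent d hb hz
  have hi2 := index_cent d hb2 hz
  refine ⟨y * y', ?_, ?_⟩
  · rw [map_mul, hy', map_mul, map_mul, map_inv, hi, hc, inv_r, r_mul_sr, sr_mul_r, sr_mul_sr]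
    congr 1
    ring
  · intro v hv
    set C₁ := (Subgroup.centralizer {b⁻¹ * z * b}).subgroupOf (OmZ Q) with hC₁
    set C₂ := (Subgroup.centralizer {(b * (c : H)⁻¹)⁻¹ * z * (b * (c : H)⁻¹)}).subgroupOf (OmZ Q)
      with hC₂
    have hC : (C₁ ⊓ C₂).index ≤ 4 := by
      have := Subgroup.index_inf_le (H := C₁) (K := C₂)
      nlinarith
    apply pow12_centralizes (V := OmZ Q) (fun w hw => (mem_OmZ.mp hw).2.2) (fun w hw => OmZ_conj d hw (y * y').2) (C₁ ⊓ C₂) hC _ hv
    intro w hw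
    have hw1 : w ∈ C₁ := hw.1
    have hw2 : w ∈ C₂ := hw.2
    rw [hC₁, Subgroup.mem_subgroupOf, Subgroup.mem_centralizer_singleton_iff] at hw1
    rw [hC₂, Subgroup.mem_subgroupOf, Subgroup.mem_centralizer_singleton_iff] at hw2
    have key : ∀ {a a' w : H}, w * a = a * w → w * a' = a' * w → (a * a') * w = w * (a * a') := by
      intro a a' w h1 h2
      rw [mul_assoc, ← h2, ← mul_assoc, ← h1, mul_assoc]
    rw [Subgroup.coe_mul, hyy', hyy]
    exact key hw1 hw2

/-- Maximality of a subgroup of prime index. -/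
theorem le_of_idx_prime {T A N : Subgroup H} {q : ℕ} (hq : q.Prime) (hTA : T ≤ A) (h3 : T.relIndex A = q)
    (hTN : T ≤ N) {y : H} (hyA : y ∈ A) (hyT : y ∉ T) (hyN : y ∈ N) : A ≤ N := by
  have h1 : T ≤ A ⊓ N := le_inf hTA hTN
  have hmul := Subgroup.relIndex_mul_relIndex T (A ⊓ N) A h1 inf_le_left
  rw [h3] at hmul
  have hd : T.relIndex (A ⊓ N) ∣ q := ⟨_, hmul.symm⟩
  rcases (Nat.dvd_prime hq).mp hd with h | h
  · rw [Subgroup.relIndex_eq_one] at h
    exact absurd (h ⟨hyA, hyN⟩) hyT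
  · rw [h] at hmul
    have hq0 := hq.pos
    have h2 : (A ⊓ N).relIndex A = 1 := by nlinarith
    rw [Subgroup.relIndex_eq_one] at h2
    exact fun x hx => (h2 hx).2

/-- **The prime `q` is three.** -/
theorem eq_three [Finite H] [IsSimpleGroup H] (d : Dat G T Q q π) (hG : IsCoatom G) {g : H} (hg : g ∉ G)
    (hgT : ∀ t ∈ T, g * t * g⁻¹ ∈ T) (hgT' : ∀ t ∈ T, g⁻¹ * t * g ∈ T) {u z : H} (hu : u ∈ G)
    (hzc : ∀ t ∈ T, t * z = z * t) (hzz : z * z = 1) (hzQ : z ∈ Q) (hne : u * z ≠ z * u)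
    : q = 3 := by
  by_contra hq3
  have hp : q.Prime := Fact.out
  have hzV : z ∈ OmZ Q := ⟨hzQ, fun w hw => (hzc w (d.QT hw)).symm, hzz⟩
  have hVne : OmZ Q ≠ ⊥ := by
    intro h0
    rw [h0, Subgroup.mem_bot] at hzV
    apply hne
    rw [hzV, mul_one, one_mul]
  obtain ⟨b, hb, hb', v, hv, hvb⟩ := exists_critical (T := T) (Q := Q) (V := OmZ Q) hG hg d.TG d.QT hgT hgT'
    (fun _ h => h.1) (fun v hv c hc => OmZ_conj d hv hc) hVne
  obtain ⟨x, hx, hxV⟩ := exists_x d hb hb' hv hvb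
  have hxT : (x : H) ^ 12 ∉ T := by
    intro hT
    obtain ⟨n, hn⟩ := d.T2 ⟨_, hT⟩
    have h1 : ((x : H) ^ 12) ^ 2 ^ n = 1 := congrArg Subtype.val hn
    have h2 : x ^ (12 * 2 ^ n) = 1 := by
      ext
      simp only [Subgroup.coe_pow, Subgroup.coe_one, pow_mul]
      exact h1
    have h3 := congrArg π h2
    rw [map_pow, hx, map_one] at h3
    exact r_pow_ne d.ne2 hq3 n h3
  have hle : G ≤ Subgroup.centralizer {z} := by
    refine le_of_idx_prime hp d.TG d.idx ?_ (G.pow_mem x.2 12) hxT ?_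
    · intro t ht
      rw [Subgroup.mem_centralizer_singleton_iff]
      exact hzc t ht
    · rw [Subgroup.mem_centralizer_singleton_iff]
      exact hxV z hzV
  have := hle hu
  rw [Subgroup.mem_centralizer_singleton_iff] at this
  exact hne this

end Dat


section Assembly

variable {H : Type*} [Group H]

/-- Transport of the hypothesis along a conjugation normalising `T`. -/
theorem HypQ.conj {T P Q : Subgroup H} (h : HypQ T P Q) {g : H} (hgT : ∀ t ∈ T, g * t * g⁻¹ ∈ T)
    (hgT' : ∀ t ∈ T, g⁻¹ * t * g ∈ T) :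
    HypQ T (P.map (MulAut.conj g).toMonoidHom) (Q.map (MulAut.conj g).toMonoidHom) := by
  have capp : ∀ u, (MulAut.conj g).toMonoidHom u = g * u * g⁻¹ := fun _ => rfl
  have hTm : T.map (MulAut.conj g).toMonoidHom = T := by
    ext x
    constructor
    · rintro ⟨t, ht, rfl⟩
      exact hgT t ht
    · intro hx
      exact ⟨g⁻¹ * x * g, hgT' x hx, by rw [capp]; group⟩
  have hinj : Function.Injective (MulAut.conj g).toMonoidHom := (MulAut.conj g).injective
  have hTiff : ∀ u, g * u * g⁻¹ ∈ T → u ∈ T := by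
    intro u hu
    have := hgT' _ hu
    simpa [mul_assoc] using this
  refine ⟨?_, ?_, ?_, ?_, ?_, ?_, ?_, ?_⟩
  · rw [← hTm]
    exact Subgroup.map_mono h.le
  · rw [← hTm]
    exact Subgroup.map_mono h.qle
  · have := Subgroup.relIndex_map_map_of_injective T P hinj
    rw [hTm] at this
    rw [this]
    exact h.idx3
  · have := Subgroup.relIndex_map_map_of_injective Q T hinj
    rw [hTm] at this
    rw [this]
    exact h.idx2
  · rintro _ ⟨u, hu, rfl⟩ hc
    refine ⟨u, h.core u hu fun p hp => ?_, rfl⟩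
    apply hTiff
    have := hc _ ⟨p, hp, rfl⟩
    rw [capp, capp] at this
    have e : g * (p⁻¹ * u * p) * g⁻¹ = (g * p * g⁻¹)⁻¹ * (g * u * g⁻¹) * (g * p * g⁻¹) := by group
    rw [e]
    exact this
  · rintro _ ⟨u, hu, rfl⟩ _ ⟨p, hp, rfl⟩
    refine ⟨_, h.qcore u hu p hp, ?_⟩
    rw [capp, capp, capp]
    group
  · rintro _ ⟨u, hu, rfl⟩ hc
    refine ⟨u, h.cen u hu fun w hw => ?_, rfl⟩
    have := hc _ ⟨w, hw, rfl⟩
    rw [capp, capp] at this
    have e : g * (u * w) * g⁻¹ = g * (w * u) * g⁻¹ := by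
      calc g * (u * w) * g⁻¹ = g * u * g⁻¹ * (g * w * g⁻¹) := by group
        _ = g * w * g⁻¹ * (g * u * g⁻¹) := this
        _ = _ := by group
    simpa using e
  · obtain ⟨u, hu, z, hz, hzc, hzz, hne⟩ := h.nc
    refine ⟨g * u * g⁻¹, ⟨u, hu, rfl⟩, g * z * g⁻¹, hgT z hz, fun t ht => ?_, ?_, fun e => hne ?_⟩
    · have := hzc _ (hgT' t ht)
      calc t * (g * z * g⁻¹) = g * ((g⁻¹ * t * g) * z) * g⁻¹ := by group
        _ = g * (z * (g⁻¹ * t * g)) * g⁻¹ := by rw [this]
        _ = _ := by group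
    · calc g * z * g⁻¹ * (g * z * g⁻¹) = g * (z * z) * g⁻¹ := by group
        _ = 1 := by rw [hzz]; group
    · have e' : g * (u * z) * g⁻¹ = g * (z * u) * g⁻¹ := by
        calc g * (u * z) * g⁻¹ = g * u * g⁻¹ * (g * z * g⁻¹) := by group
          _ = g * z * g⁻¹ * (g * u * g⁻¹) := e
          _ = _ := by group
      simpa using e'

variable [Finite H] [IsSimpleGroup H]

open Cfsg.Agent.Lib.Amalgam.Vertex Cfsg.Agent.Lib.Amalgam.Sims3

/-- **Sims' theorem in local form.** -/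
theorem local_main (hna : ¬ IsMulCommutative H) (G : Subgroup H) (hG : IsCoatom G)
    (hchar : Subgroup.centralizer (Cfsg.pCore 2 ↥G : Set ↥G) ≤ Cfsg.pCore 2 ↥G) (S : Sylow 2 ↥G)
    (hN : ¬ Subgroup.normalizer (((S : Subgroup ↥G).map G.subtype : Subgroup H) : Set H) ≤ G)
    (q : ℕ) (hq : q.Prime) (hD : Nonempty (↥G ⧸ Cfsg.pCore 2 ↥G ≃* DihedralGroup q)) :
    Nonempty (↥G ≃* Equiv.Perm (Fin 4)) ∨ Nonempty (↥G ≃* Multiplicative (ZMod 2) × Equiv.Perm (Fin 4)) := by
  haveI : Fact q.Prime := ⟨hq⟩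
  haveI : Fact (Nat.Prime 2) := ⟨Nat.prime_two⟩
  obtain ⟨e⟩ := hD
  set N := Cfsg.pCore 2 ↥G with hNdef
  set π : G →* DihedralGroup q := e.toMonoidHom.comp (QuotientGroup.mk' N) with hπ
  set Q : Subgroup H := pCoreOf 2 G with hQ
  set T : Subgroup H := (S : Subgroup ↥G).map G.subtype with hT
  have hQT : Q ≤ T := pCoreOf_le_map_sylow S
  have hTG : T ≤ G := by
    rintro _ ⟨y, -, rfl⟩
    exact y.2
  have hT2 : IsPGroup 2 T :=
    S.isPGroup'.map G.subtype
  obtain ⟨g, hgN, hg⟩ := SetLike.not_le_iff_exists.mp hN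
  rw [Subgroup.mem_normalizer_iff] at hgN
  have hgT : ∀ t ∈ T, g * t * g⁻¹ ∈ T := fun t ht => (hgN t).mp ht
  have hgT' : ∀ t ∈ T, g⁻¹ * t * g ∈ T := by
    intro t ht
    rw [hgN]
    have e1 : g * (g⁻¹ * t * g) * g⁻¹ = t := by group
    rw [e1]
    exact ht
  have hker : ∀ x : G, π x = 1 ↔ (x : H) ∈ Q := by
    intro x
    have h1 : π x = 1 ↔ x ∈ N := by
      simp only [hπ, MonoidHom.comp_apply]
      constructor
      · intro h
        have : (QuotientGroup.mk' N) x = 1 := e.injective (by simpa using h)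
        simpa using this
      · intro h
        have : (QuotientGroup.mk' N) x = 1 := by simpa using h
        rw [this]
        simp
    rw [h1]
    constructor
    · intro h
      exact ⟨x, h, rfl⟩
    · rintro ⟨y, hy, hyx⟩
      rwa [← Subtype.ext hyx]
  have hsurj : Function.Surjective π :=
    e.surjective.comp (QuotientGroup.mk'_surjective N)
  have hidxQ : Q.relIndex G = 2 * q := by
    have h1 : Q.relIndex G = N.index := by
      show (Q.subgroupOf G).index = _
      congr 1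
      ext x
      simp only [Subgroup.mem_subgroupOf, hQ, pCoreOf, Subgroup.mem_map, Subgroup.coe_subtype]
      constructor
      · rintro ⟨y, hy, e⟩
        rwa [← Subtype.ext e]
      · intro hx
        exact ⟨x, hx, rfl⟩
    rw [h1, Subgroup.index_eq_card, Nat.card_congr e.toEquiv, DihedralGroup.nat_card]
  have hidxT : T.relIndex G = (S : Subgroup ↥G).index := by
    show (T.subgroupOf G).index = _
    congr 1
    exact Subgroup.comap_map_eq_self_of_injective G.subtype_injective _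
  have hodd : ¬ 2 ∣ T.relIndex G := by
    rw [hidxT]
    exact S.not_dvd_index
  have hmul := Subgroup.relIndex_mul_relIndex Q T G hQT hTG
  rw [hidxQ] at hmul
  have hcop : Nat.Coprime (T.relIndex G) 2 :=
    Nat.Coprime.symm ((Nat.Prime.coprime_iff_not_dvd Nat.prime_two).mpr hodd)
  have hdq : T.relIndex G ∣ q :=
    Nat.Coprime.dvd_of_dvd_mul_left hcop ⟨Q.relIndex T, by rw [← hmul, mul_comm]⟩
  have hnorm : ∀ {A : Subgroup H}, A ≠ ⊤ → A.Normal → A = ⊥ := by
    intro A hA hn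
    exact hn.eq_bot_or_eq_top.resolve_right hA
  have hbotG : G ≠ ⊥ := by
    intro h0
    have h1 : Q.relIndex G = 1 := by
      rw [h0]
      exact Subgroup.relIndex_bot_right Q
    have := hq.two_le
    omega
  have hidx : T.relIndex G = q := by
    rcases (Nat.dvd_prime hq).mp hdq with h1 | h1
    · exfalso
      have hGT : G ≤ T := Subgroup.relIndex_eq_one.mp h1
      have hTe : T = G := le_antisymm hTG hGT
      have hgG : g ∈ Subgroup.normalizer (G : Set H) := by
        rw [Subgroup.mem_normalizer_iff, ← hTe]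
        exact hgN
      have hGle : G ≤ Subgroup.normalizer (G : Set H) := Subgroup.le_normalizer
      have htop : Subgroup.normalizer (G : Set H) = ⊤ :=
        hG.2 _ (lt_of_le_of_ne hGle fun e => hg (by rw [e]; exact hgG))
      have hnn : G.Normal := Subgroup.normalizer_eq_top_iff.mp htop
      exact hbotG (hnorm hG.1 hnn)
    · exact h1
  have hq2 : q ≠ 2 := by
    intro h2
    rw [hidx, h2] at hodd
    exact hodd (dvd_refl 2)
  have hidx2 : Q.relIndex T = 2 := by
    rw [hidx] at hmul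
    exact Nat.eq_of_mul_eq_mul_right hq.pos hmul
  have d : Dat G T Q q π :=
    ⟨hker, hsurj, hq2, hQT, hTG, hT2, hidx, fun u hu c hc => conj_mem_pCoreOf hc hu⟩
  -- the second vertex group
  set P₂ : Subgroup H := G.map (MulAut.conj g).toMonoidHom with hP₂
  have hmemP₂ : ∀ x, x ∈ P₂ ↔ g⁻¹ * x * g ∈ G := by
    intro x
    constructor
    · rintro ⟨u, hu, rfl⟩
      have : g⁻¹ * (g * u * g⁻¹) * g = u := by group
      show g⁻¹ * (g * u * g⁻¹) * g ∈ G
      rw [this]
      exact hu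
    · intro hx
      refine ⟨_, hx, ?_⟩
      show g * (g⁻¹ * x * g) * g⁻¹ = x
      group
  have hcardP : Nat.card P₂ = Nat.card G := card_map_conj g G
  have hnotle : ¬ P₂ ≤ G := by
    intro hle
    have heq : P₂ = G := Subgroup.eq_of_le_of_card_ge hle hcardP.ge
    have hgG : g ∈ Subgroup.normalizer (G : Set H) := by
      rw [Subgroup.mem_normalizer_iff]
      intro x
      constructor
      · intro hx
        rw [← heq]
        refine ⟨x, hx, rfl⟩
      · intro hx
        rw [← heq, hmemP₂] at hx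
        have e : g⁻¹ * (g * x * g⁻¹) * g = x := by group
        rwa [e] at hx
    have hGle : G ≤ Subgroup.normalizer (G : Set H) := Subgroup.le_normalizer
    have htop : Subgroup.normalizer (G : Set H) = ⊤ :=
      hG.2 _ (lt_of_le_of_ne hGle fun e => hg (by rw [e]; exact hgG))
    have hnn : G.Normal := Subgroup.normalizer_eq_top_iff.mp htop
    exact hbotG (hnorm hG.1 hnn)
  have hsup : G ⊔ P₂ = ⊤ :=
    hG.2 _ (lt_of_le_of_ne le_sup_left fun e => hnotle (by rw [e]; exact le_sup_right))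
  have hTP₂ : T ≤ P₂ := by
    intro t ht
    rw [hmemP₂]
    exact hTG (hgT' t ht)
  have hinf : T = G ⊓ P₂ := by
    refine le_antisymm (le_inf hTG hTP₂) ?_
    rintro x ⟨hx1, hx2⟩
    by_contra hxT
    have hle : G ≤ P₂ := le_of_idx_prime hq hTG hidx hTP₂ hx1 hxT hx2
    have heq : G = P₂ := Subgroup.eq_of_le_of_card_ge hle hcardP.le
    exact hnotle (by rw [← heq])
  have hcore : ∀ W : Subgroup H, W ≤ T → G ≤ Subgroup.normalizer (W : Set H) →
      P₂ ≤ Subgroup.normalizer (W : Set H) → W = ⊥ := by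
    intro W hWT h1 h2
    have htop : Subgroup.normalizer (W : Set H) = ⊤ := by
      rw [eq_top_iff, ← hsup]
      exact sup_le h1 h2
    refine hnorm ?_ (Subgroup.normalizer_eq_top_iff.mp htop)
    intro hW
    apply hG.1
    rw [eq_top_iff, ← hW]
    exact hWT.trans hTG
  have hTbot : T ≠ ⊥ := by
    intro h0
    have : Q.relIndex T = 1 := by
      rw [h0]
      exact Subgroup.relIndex_bot_right Q
    omega
  have hinQ : ∀ z ∈ T, (∀ t ∈ T, t * z = z * t) → z ∈ Q := by
    intro z hz hzc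
    have h1 : (⟨z, hTG hz⟩ : G) ∈ Subgroup.centralizer (N : Set G) := by
      rw [Subgroup.mem_centralizer_iff]
      intro y hy
      apply Subtype.ext
      have : (y : H) ∈ T := hQT ⟨y, hy, rfl⟩
      exact (hzc _ this)
    exact ⟨_, hchar h1, rfl⟩
  have hnc : ∃ u ∈ G, ∃ z ∈ T, (∀ t ∈ T, t * z = z * t) ∧ z * z = 1 ∧ u * z ≠ z * u := by
    by_contra hcon
    push Not at hcon
    obtain ⟨z, hzT, hz1, hzz, hzc⟩ := exists_central_inv hT2 hTbot
    have hle : G ⊔ P₂ ≤ Subgroup.centralizer {z} := by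
      refine sup_le ?_ ?_
      · intro u hu
        rw [Subgroup.mem_centralizer_singleton_iff]
        exact hcon u hu z hzT hzc hzz
      · intro v hv
        rw [Subgroup.mem_centralizer_singleton_iff]
        have hv' := (hmemP₂ v).mp hv
        have hz' := hgT' z hzT
        have h1 := hcon _ hv' _ hz' (fun t ht => ?_) ?_
        · calc v * z = g * ((g⁻¹ * v * g) * (g⁻¹ * z * g)) * g⁻¹ := by group
            _ = g * ((g⁻¹ * z * g) * (g⁻¹ * v * g)) * g⁻¹ := by rw [h1]
            _ = z * v := by group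
        · have := hzc _ (hgT t ht)
          calc t * (g⁻¹ * z * g) = g⁻¹ * ((g * t * g⁻¹) * z) * g := by group
            _ = g⁻¹ * (z * (g * t * g⁻¹)) * g := by rw [this]
            _ = _ := by group
        · calc g⁻¹ * z * g * (g⁻¹ * z * g) = g⁻¹ * (z * z) * g := by group
            _ = 1 := by rw [hzz]; group
    rw [hsup, top_le_iff] at hle
    have hcent : Subgroup.center H = ⊥ := by
      refine hnorm ?_ inferInstance
      intro h0
      apply hna
      refine ⟨⟨fun a b => ?_⟩⟩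
      have : a ∈ Subgroup.center H := by rw [h0]; trivial
      exact (Subgroup.mem_center_iff.mp this b).symm
    have hzcen : z ∈ Subgroup.center H := by
      rw [Subgroup.mem_center_iff]
      intro a
      have : a ∈ Subgroup.centralizer {z} := by rw [hle]; trivial
      rw [Subgroup.mem_centralizer_singleton_iff] at this
      exact this
    rw [hcent, Subgroup.mem_bot] at hzcen
    exact hz1 hzcen
  have hq3 : q = 3 := by
    obtain ⟨u, hu, z, hzT, hzc, hzz, hne⟩ := hnc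
    exact eq_three d hG hg hgT hgT' hu hzc hzz (hinQ z hzT hzc) hne
  have hA : HypP T G :=
    { le := hTG
      odd := by rw [hidx, hq3]; decide
      idx := by rw [hidxQ, hq3]
      cen := by
        intro x hx hc
        have h1 : (⟨x, hx⟩ : G) ∈ Subgroup.centralizer (N : Set G) := by
          rw [Subgroup.mem_centralizer_iff]
          intro y hy
          apply Subtype.ext
          exact (hc _ ⟨y, hy, rfl⟩).symm
        exact ⟨_, hchar h1, rfl⟩
      nc := hnc }
  have HA : HypQ T G Q := hA.toQ hT2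
  have HB := HypQ.conj HA hgT hgT'
  obtain ⟨-, -, hh⟩ := amalgam_facts hinf hT2 HA HB hcore
  rcases hh with ⟨-, -, he, -⟩ | ⟨-, -, he, -⟩
  · exact Or.inl he
  · exact Or.inr he

end Assembly

end Cfsg.Agent.Lib.Amalgam.SimsLocal
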