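import Mathlib
import Cfsg.Agent.Lib.Amalgam.StradPair

/-!
# `𝒯*(M)`: the structure of `T` for a pair of components
-/

set_option autoImplicit false
set_option linter.unusedSectionVars false
set_option linter.style.haveILetI false

namespace Cfsg.Agent.Lib.Amalgam.Strad

open Cfsg Cfsg.Agent.Lib.PGroup.ThompsonG Cfsg.Agent.Lib.Amalgam.JComp Cfsg.Agent.Lib.Amalgam.JLocal
open Cfsg.Agent.Lib.Amalgam.FFLocal Cfsg.Agent.Lib.Amalgam.JZero Cfsg.Agent.Lib.Amalgam.JSub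
open Cfsg.Agent.Lib.Amalgam.JExist Cfsg.Agent.Lib.Amalgam.JMax Cfsg.Agent.Lib.Amalgam.JGen
open Cfsg.Agent.Lib.Amalgam.JUnique Cfsg.Agent.Lib.Amalgam.Gold
open Cfsg.Agent.Lib.Amalgam.Vertex (conj_mem_pCoreOf pCoreOf_le le_normalizer_pCoreOf)

variable {G : Type*} [Group G] [Finite G]

variable {M T K K' : Subgroup G} {S : Sylow 2 G}

namespace Pair

variable (p : Pair M T K K' S)
include p

theorem Q_le : pCoreOf 2 (K ⊔ T) ≤ T := Q_le_T p.h p.hTS p.hK (T_norm p)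

theorem Q'_le : pCoreOf 2 (K' ⊔ T) ≤ T := Q_le p.symm

theorem Q_idx : (pCoreOf 2 (K ⊔ T)).relIndex T = 2 := ((hypP₁ p).facts p.isP).2.1

theorem Q_sq {e : G} (he : e ∈ pCoreOf 2 (K ⊔ T)) : e * e = 1 := (facts p).1 e he

theorem Q_comm {a b : G} (ha : a ∈ pCoreOf 2 (K ⊔ T)) (hb : b ∈ pCoreOf 2 (K ⊔ T)) : a * b = b * a :=
  comm_of_sq (fun _ he => Q_sq p he) ha hb

theorem Q_cen {g : G} (hg : ∀ q ∈ pCoreOf 2 (K ⊔ T), q * g = g * q) : g ∈ pCoreOf 2 (K ⊔ T) :=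
  cen_Q p.h p.hTS p.hK (T_norm p) (Subgroup.mem_centralizer_iff.mpr hg)

/-- Multiplication modulo `Q` in `T`. -/
theorem mul_mem_Q_iff {a b : G} (ha : a ∈ T) (hb : b ∈ T) :
    a * b ∈ pCoreOf 2 (K ⊔ T) ↔ (a ∈ pCoreOf 2 (K ⊔ T) ↔ b ∈ pCoreOf 2 (K ⊔ T)) := by
  have h2 : ((pCoreOf 2 (K ⊔ T)).subgroupOf T).index = 2 := Q_idx p
  have := Subgroup.mul_mem_iff_of_index_two h2 (a := ⟨a, ha⟩) (b := ⟨b, hb⟩)
  simpa [Subgroup.mem_subgroupOf] using this

theorem Q_ne : pCoreOf 2 (K ⊔ T) ≠ pCoreOf 2 (K' ⊔ T) := by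
  intro e
  have hne : pCoreOf 2 (K ⊔ T) ≠ ⊥ := JMain.core_ne_bot (T_ne_bot p.h.hT) (cen_Q p.h p.hTS p.hK (T_norm p))
  refine hne (core_free p _ (Q_le p) le_normalizer_pCoreOf ?_)
  rw [e]
  exact le_normalizer_pCoreOf

theorem exists_q : ∃ q ∈ pCoreOf 2 (K ⊔ T), q ∉ pCoreOf 2 (K' ⊔ T) := by
  by_contra hcon
  push Not at hcon
  apply Q_ne p
  refine Subgroup.eq_of_le_of_card_ge hcon ?_
  have h1 := Subgroup.relIndex_mul_relIndex ⊥ _ T bot_le (Q_le p)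
  have h2 := Subgroup.relIndex_mul_relIndex ⊥ _ T bot_le (Q'_le p)
  rw [Q_idx p, Subgroup.relIndex_bot_left, Subgroup.relIndex_bot_left] at h1
  rw [Q_idx p.symm, Subgroup.relIndex_bot_left, Subgroup.relIndex_bot_left] at h2
  omega

/-- Elements of `Q \ Q'` and `Q' \ Q` do not commute. -/
theorem q_not_comm {q₁ q₂ : G} (h1 : q₁ ∈ pCoreOf 2 (K ⊔ T)) (h1' : q₁ ∉ pCoreOf 2 (K' ⊔ T))
    (h2 : q₂ ∈ pCoreOf 2 (K' ⊔ T)) (h2' : q₂ ∉ pCoreOf 2 (K ⊔ T)) : q₁ * q₂ ≠ q₂ * q₁ := by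
  intro hc
  apply h1'
  refine Q_cen p.symm fun e he => ?_
  have heT := Q'_le p he
  have hq₂T := Q'_le p h2
  by_cases heQ : e ∈ pCoreOf 2 (K ⊔ T)
  · exact Q_comm p heQ h1
  · have h3 : e * q₂ ∈ pCoreOf 2 (K ⊔ T) := (mul_mem_Q_iff p heT hq₂T).mpr
      ⟨fun h => absurd h heQ, fun h => absurd h h2'⟩
    have h4 := Q_comm p h3 h1
    have : e * q₁ * q₂ = q₁ * e * q₂ := by
      calc e * q₁ * q₂ = e * (q₁ * q₂) := by group
        _ = e * (q₂ * q₁) := by rw [hc]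
        _ = (e * q₂) * q₁ := by group
        _ = q₁ * (e * q₂) := h4
        _ = q₁ * e * q₂ := by group
    exact mul_right_cancel this

/-- Involutions of `T` lie in `Q ∪ Q'`. -/
theorem invol_mem {g : G} (hg : g ∈ T) (hg2 : g * g = 1) :
    g ∈ pCoreOf 2 (K ⊔ T) ∨ g ∈ pCoreOf 2 (K' ⊔ T) := by
  by_contra hcon
  push Not at hcon
  obtain ⟨h1, h2⟩ := hcon
  obtain ⟨q₂, hq₂, hq₂n⟩ := exists_q p.symm
  have hq₂T := Q'_le p hq₂
  have h3 : g * q₂ ∈ pCoreOf 2 (K ⊔ T) := (mul_mem_Q_iff p hg hq₂T).mpr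
    ⟨fun h => absurd h h1, fun h => absurd h hq₂n⟩
  have h4 : g * q₂ ∉ pCoreOf 2 (K' ⊔ T) := fun h => h2 (by
    have := mul_mem h (inv_mem hq₂)
    simpa using this)
  apply q_not_comm p h3 h4 hq₂ hq₂n
  have hs := Q_sq p.symm hq₂
  have hq := Q_sq p h3
  have e1 : q₂⁻¹ = q₂ := inv_eq_of_mul_eq_one_left hs
  have e2 : g⁻¹ = g := inv_eq_of_mul_eq_one_left hg2
  have e3 := inv_eq_of_mul_eq_one_left hq
  rw [mul_inv_rev, e1, e2] at e3
  calc g * q₂ * q₂ = g := by rw [mul_assoc, hs, mul_one]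
    _ = q₂ * (q₂ * g) := by rw [← mul_assoc, hs, one_mul]
    _ = q₂ * (g * q₂) := by rw [e3]

/-- `Q ∩ Q' = Ω₁(Z(T))`. -/
theorem inf_eq_F : pCoreOf 2 (K ⊔ T) ⊓ pCoreOf 2 (K' ⊔ T) = omegaCenterOf T := by
  apply le_antisymm
  · intro e he
    obtain ⟨h1, h2⟩ := Subgroup.mem_inf.mp he
    obtain ⟨q₂, hq₂, hq₂n⟩ := exists_q p.symm
    have hq₂T := Q'_le p hq₂
    refine mem_omegaCenterOf_iff.mpr ⟨Q_le p h1, fun u hu => ?_, by rw [pow_two]; exact Q_sq p h1⟩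
    by_cases huQ : u ∈ pCoreOf 2 (K ⊔ T)
    · exact Q_comm p huQ h1
    · have h3 : u * q₂ ∈ pCoreOf 2 (K ⊔ T) := (mul_mem_Q_iff p hu hq₂T).mpr
        ⟨fun h => absurd h huQ, fun h => absurd h hq₂n⟩
      have h4 := Q_comm p h3 h1
      have h5 := Q_comm p.symm hq₂ h2
      have : u * e * q₂ = e * u * q₂ := by
        calc u * e * q₂ = u * (e * q₂) := by group
          _ = u * (q₂ * e) := by rw [h5]
          _ = (u * q₂) * e := by group
          _ = e * (u * q₂) := h4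
          _ = e * u * q₂ := by group
      exact mul_right_cancel this
  · intro z hz
    obtain ⟨h1, h2, h3⟩ := mem_omegaCenterOf_iff.mp hz
    refine Subgroup.mem_inf.mpr ⟨Q_cen p fun q hq => h2 q (Q_le p hq), Q_cen p.symm fun q hq => h2 q (Q'_le p hq)⟩

/-- Orders. -/
theorem card_Q_eq : Nat.card (pCoreOf 2 (K ⊔ T)) = 2 * Nat.card (omegaCenterOf T) := by
  obtain ⟨q, hq, hqn⟩ := exists_q p
  have hT' := Q'_le p
  have h2 : (pCoreOf 2 (K ⊔ T) ⊓ pCoreOf 2 (K' ⊔ T)).relIndex (pCoreOf 2 (K ⊔ T)) = 2 := by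
    rw [Subgroup.inf_relIndex_left, Subgroup.relIndex, Subgroup.index_eq_two_iff]
    refine ⟨⟨q, hq⟩, ?_⟩
    rintro ⟨b, hb⟩
    simp only [Subgroup.mem_subgroupOf, Subgroup.coe_mul]
    have := mul_mem_Q_iff p.symm (Q_le p hb) (Q_le p hq) (a := b) (b := q)
    by_cases hb' : b ∈ pCoreOf 2 (K' ⊔ T)
    · refine Or.inr ⟨hb', fun h3 => hqn ?_⟩
      have := mul_mem (inv_mem hb') h3
      simpa using this
    · refine Or.inl ⟨?_, hb'⟩
      exact this.mpr ⟨fun h => absurd h hb', fun h => absurd h hqn⟩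
  have h1 := Subgroup.relIndex_mul_relIndex ⊥ _ _ bot_le (inf_le_left : pCoreOf 2 (K ⊔ T) ⊓ pCoreOf 2 (K' ⊔ T) ≤ pCoreOf 2 (K ⊔ T))
  rw [h2, Subgroup.relIndex_bot_left, Subgroup.relIndex_bot_left, inf_eq_F p] at h1
  omega

/-- Orders: the two cases. -/
theorem cards : (Nat.card (pCoreOf 2 (K ⊔ T)) = 4 ∧ Nat.card (omegaCenterOf T) = 2) ∨
    (Nat.card (pCoreOf 2 (K ⊔ T)) = 8 ∧ Nat.card (omegaCenterOf T) = 4) := by
  have h1 := card_Q_eq p
  rcases (facts p).2.2 with ⟨h, -⟩ | ⟨h, -⟩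
  · left; omega
  · right; omega

/-- The normalizer of `Q` in `S` is `T`. -/
theorem mem_T_of_norm {v : G} (hv : v ∈ (S : Subgroup G)) (hvQ : v ∈ Subgroup.normalizer (pCoreOf 2 (K ⊔ T) : Set G)) :
    v ∈ T := by
  have hne : pCoreOf 2 (K ⊔ T) ≠ ⊥ := JMain.core_ne_bot (T_ne_bot p.h.hT) (cen_Q p.h p.hTS p.hK (T_norm p))
  have hP : IsPGroup 2 (pCoreOf 2 (K ⊔ T)) := core_isP
  have hle : K ⊔ T ≤ Subgroup.normalizer (pCoreOf 2 (K ⊔ T) : Set G) := le_normalizer_pCoreOf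
  have e := eq_T_of_le p.h (twoLocal_of hP hne) (fun h' => p.outK.2 ((le_sup_left.trans hle).trans h'))
    (le_sup_right.trans hle) p.hTS
  rw [← e]
  exact Subgroup.mem_inf.mpr ⟨hv, hvQ⟩

end Pair

/-! ### The case `T < S` -/

/-- An element of `N_S(T) ∖ T` with square in `T`. -/
theorem exists_t (hTS : T ≤ S) (hne : T ≠ S) :
    ∃ t ∈ (S : Subgroup G), t ∈ Subgroup.normalizer (T : Set G) ∧ t ∉ T ∧ t * t ∈ T := by
  classical
  have h1 : ¬ ∀ u ∈ (S : Subgroup G), u ∈ Subgroup.normalizer (T : Set G) → u ∈ T :=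
    fun hN => hne (eq_of_normalizer_le S.isPGroup' hTS hN)
  push Not at h1
  obtain ⟨u, hu, huN, huT⟩ := h1
  obtain ⟨n, hn⟩ := two_element_of_mem S.isPGroup' hu
  have hex : ∃ n : ℕ, u ^ 2 ^ n ∈ T := ⟨n, by rw [hn]; exact one_mem _⟩
  have hf := Nat.find_spec hex
  have hmin := fun m => Nat.find_min hex (m := m)
  set m := Nat.find hex with hm
  have hm0 : m ≠ 0 := by
    intro h0
    rw [h0, pow_zero, pow_one] at hf
    exact huT hf
  obtain ⟨k, hk⟩ := Nat.exists_eq_succ_of_ne_zero hm0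
  refine ⟨u ^ 2 ^ k, pow_mem hu _, pow_mem huN _, hmin k (by omega), ?_⟩
  rw [hk, pow_succ, pow_mul, pow_two] at hf
  exact hf

/-- The data for `T < S`. -/
structure Swap (M T K : Subgroup G) (S : Sylow 2 G) (t : G) : Prop where
  h : Setup M T S
  hTS : T ≤ S
  hK : K ∈ jComponentsOutside M T
  ht : t ∈ (S : Subgroup G)
  htN : t ∈ Subgroup.normalizer (T : Set G)
  htT : t ∉ T
  ht2 : t * t ∈ T

namespace Swap

variable {t : G} (s : Swap M T K S t)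
include s

theorem htJ : t ∈ Subgroup.normalizer (thompsonSubgroupOf 2 T : Set G) :=
  normalizer_le_normalizer_thompson T s.htN

theorem T_map : T.map (cj t) = T := map_conj_eq_of_mem_normalizer s.htN

theorem P_map : (K ⊔ T).map (cj t) = K.map (cj t) ⊔ T := by
  rw [Subgroup.map_sup, T_map s]

theorem mem_out : K.map (cj t) ∈ jComponentsOutside M T := by
  have h1 := conj_outside s.h (htJ s) (out_of_mem s.hK)
  refine ⟨zero_of_outside s.h h1, h1.2, ?_⟩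
  rw [← P_map s, pCoreOf_map_conj]
  intro hb
  rw [Subgroup.map_eq_bot_iff_of_injective _ (MulAut.conj t).injective] at hb
  exact s.hK.2.2 hb

theorem pair : Pair M T K (K.map (cj t)) S := by
  refine ⟨s.h, s.hTS, s.hK, mem_out s, fun hle => s.htT ?_⟩
  have hK := out_of_mem s.hK
  have e1 := lZero_eq_of_le s.h hK (conj_outside s.h (htJ s) hK) hle
  rw [lZero_conj s.h (htJ s) hK] at e1
  have h1 := mem_of_map_eq (isMax_lZero s.h hK) e1
  exact mem_of_normalizes (lZero_mem s.h s.hK).1 h1 (two_element_of_mem S.isPGroup' s.ht) s.htN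

/-- Conjugation carries `Q` to `Q'`. -/
theorem Q_map : pCoreOf 2 (K.map (cj t) ⊔ T) = (pCoreOf 2 (K ⊔ T)).map (cj t) := by
  rw [← P_map s, pCoreOf_map_conj]

theorem conj_Q {q : G} (hq : q ∈ pCoreOf 2 (K ⊔ T)) : t * q * t⁻¹ ∈ pCoreOf 2 (K.map (cj t) ⊔ T) := by
  rw [Q_map s]
  exact Subgroup.mem_map_of_mem _ hq

theorem conj_Q' {q : G} (hq : q ∈ pCoreOf 2 (K.map (cj t) ⊔ T)) : t * q * t⁻¹ ∈ pCoreOf 2 (K ⊔ T) := by
  rw [Q_map s] at hq
  obtain ⟨q₀, hq₀, rfl⟩ := hq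
  have h1 := conj_mem_pCoreOf (Subgroup.mem_sup_right s.ht2 : t * t ∈ K ⊔ T) hq₀
  have e : t * (cj t q₀) * t⁻¹ = (t * t) * q₀ * (t * t)⁻¹ := by
    simp only [cj_apply]
    group
  rw [e]
  exact h1

theorem conj_inv_Q {x : G} (hx : x ∈ pCoreOf 2 (K ⊔ T)) : t⁻¹ * x * t ∈ pCoreOf 2 (K.map (cj t) ⊔ T) := by
  have h1 := conj_mem_pCoreOf (inv_mem (Subgroup.mem_sup_right s.ht2 : t * t ∈ K ⊔ T)) hx
  have h2 := conj_Q s h1
  have e : t * ((t * t)⁻¹ * x * (t * t)⁻¹⁻¹) * t⁻¹ = t⁻¹ * x * t := by group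
  rwa [e] at h2

/-- Conjugation by `t` on `Zc`. -/
theorem conj_Zc {c : G} (hc : c ∈ Zc T K) : t * c * t⁻¹ ∈ Zc T (K.map (cj t)) := by
  obtain ⟨h1, h2⟩ := mem_Zc.mp hc
  refine mem_Zc.mpr ⟨conj_Z0 (htJ s) h1, ?_⟩
  rintro _ ⟨k, hk, rfl⟩
  have := h2 k hk
  simp only [cj_apply]
  calc t * k * t⁻¹ * (t * c * t⁻¹) = t * (k * c) * t⁻¹ := by group
    _ = t * (c * k) * t⁻¹ := by rw [this]
    _ = t * c * t⁻¹ * (t * k * t⁻¹) := by group

/-- An elementary abelian normal subgroup of `S` lies in `Ω₁(Z(T))`. -/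
theorem V_le_F {V : Subgroup G} (hVS : V ≤ S) (hVn : (S : Subgroup G) ≤ Subgroup.normalizer (V : Set G))
    (hVc : ∀ u ∈ V, ∀ v ∈ V, u * v = v * u) (hVs : ∀ v ∈ V, v * v = 1) : V ≤ omegaCenterOf T := by
  have p := pair s
  -- the intersection with `T`
  have h1 : ∀ v ∈ V, v ∈ T → v ∈ pCoreOf 2 (K ⊔ T) ∧ v ∈ pCoreOf 2 (K.map (cj t) ⊔ T) := by
    intro v hv hvT
    have hv' : t * v * t⁻¹ ∈ V := (Subgroup.mem_normalizer_iff.mp (hVn s.ht) v).mp hv
    rcases Pair.invol_mem p hvT (hVs v hv) with h | h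
    · refine ⟨h, ?_⟩
      by_contra hn
      have h2 := conj_Q s h
      have h3 : t * v * t⁻¹ ∉ pCoreOf 2 (K ⊔ T) := by
        intro h4
        apply hn
        have := conj_inv_Q s h4
        have e : t⁻¹ * (t * v * t⁻¹) * t = v := by group
        rwa [e] at this
      exact Pair.q_not_comm p h hn h2 h3 (hVc _ hv _ hv')
    · refine ⟨?_, h⟩
      by_contra hn
      have h2 := conj_Q' s h
      have h3 : t * v * t⁻¹ ∉ pCoreOf 2 (K.map (cj t) ⊔ T) := by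
        intro h4
        rw [Q_map s] at h4
        obtain ⟨q₀, hq₀, e⟩ := h4
        have e' : q₀ = v := by
          simpa [cj_apply, mul_assoc] using e
        exact hn (e' ▸ hq₀)
      exact Pair.q_not_comm p h2 h3 h hn (hVc _ hv' _ hv)
  -- `V ≤ T`
  have hVT : V ≤ T := by
    by_contra hnot
    have hX : IsPGroup 2 (V ⊔ T : Subgroup G) :=
      IsPGroup.to_le S.isPGroup' (sup_le hVS s.hTS)
    have hne : T ≠ V ⊔ T := fun e => hnot (e ▸ le_sup_left)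
    have h2 : ¬ ∀ u ∈ V ⊔ T, u ∈ Subgroup.normalizer (T : Set G) → u ∈ T :=
      fun hN => hne (eq_of_normalizer_le hX le_sup_right hN)
    push Not at h2
    obtain ⟨u, hu, huN, huT⟩ := h2
    obtain ⟨v, hv, t', ht', rfl⟩ := exists_mul_of_mem_sup (K := V) (J := T)
      (fun j hj k hk => (Subgroup.mem_normalizer_iff.mp (hVn (s.hTS hj)) k).mp hk) hu
    have hvN : v ∈ Subgroup.normalizer (T : Set G) := by
      have := mul_mem huN (inv_mem (Subgroup.le_normalizer ht'))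
      simpa using this
    have hvT : v ∉ T := fun hvT => huT (mul_mem hvT ht')
    apply hvT
    refine Pair.mem_T_of_norm p (hVS hv) (mem_normalizer_of_conj_le fun q hq => ?_)
    have hqT := Pair.Q_le p hq
    have h3 : v * q * v⁻¹ * q⁻¹ ∈ V := by
      have h4 := (Subgroup.mem_normalizer_iff.mp (hVn (s.hTS hqT)) v⁻¹).mp (inv_mem hv)
      have e : v * q * v⁻¹ * q⁻¹ = v * (q * v⁻¹ * q⁻¹) := by group
      rw [e]
      exact mul_mem hv h4
    have h4 : v * q * v⁻¹ * q⁻¹ ∈ T :=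
      mul_mem ((Subgroup.mem_normalizer_iff.mp hvN q).mp hqT) (inv_mem hqT)
    have h5 := (h1 _ h3 h4).1
    have := mul_mem h5 hq
    simpa using this
  intro v hv
  rw [← Pair.inf_eq_F p]
  exact Subgroup.mem_inf.mpr (h1 v hv (hVT hv))

/-- `t` is a 2-element. -/
theorem t_two : ∃ n : ℕ, t ^ 2 ^ n = 1 := two_element_of_mem S.isPGroup' s.ht

section Four

variable {a : G} (h4 : Nat.card (omegaCenterOf (thompsonSubgroupOf 2 T)) = 4) (ha : a ∈ Zc T K) (ha1 : a ≠ 1)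
include h4 ha ha1

theorem a_mem_F : a ∈ omegaCenterOf T := Pair.central_of_Zc (pair s) h4 ha ha1

theorem b_mem_Zc : t * a * t⁻¹ ∈ Zc T (K.map (cj t)) := conj_Zc s ha

theorem b_ne_one : t * a * t⁻¹ ≠ 1 := by
  intro e
  apply ha1
  rw [mul_inv_eq_one] at e
  simpa using e

theorem b_mem_F : t * a * t⁻¹ ∈ omegaCenterOf T :=
  Pair.central_of_Zc (pair s).symm h4 (b_mem_Zc s h4 ha ha1) (b_ne_one s h4 ha ha1)

theorem a_ne_b : a ≠ t * a * t⁻¹ := by
  intro e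
  have : a ∈ Zc T K ⊓ Zc T (K.map (cj t)) := ⟨ha, by rw [e]; exact b_mem_Zc s h4 ha ha1⟩
  rw [Pair.Zc_inf (pair s), Subgroup.mem_bot] at this
  exact ha1 this

theorem conj_b : t * (t * a * t⁻¹) * t⁻¹ = a := by
  have h1 := (mem_omegaCenterOf_iff.mp (a_mem_F s h4 ha ha1)).2.1 _ s.ht2
  calc t * (t * a * t⁻¹) * t⁻¹ = (t * t) * a * (t * t)⁻¹ := by group
    _ = a := by rw [h1]; group

theorem ab_comm : a * (t * a * t⁻¹) = (t * a * t⁻¹) * a :=
  Z0_comm (mem_Zc.mp ha).1 (mem_Zc.mp (b_mem_Zc s h4 ha ha1)).1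

theorem conj_d : t * (a * (t * a * t⁻¹)) * t⁻¹ = a * (t * a * t⁻¹) := by
  have h1 := conj_b s h4 ha ha1
  calc t * (a * (t * a * t⁻¹)) * t⁻¹ = (t * a * t⁻¹) * (t * (t * a * t⁻¹) * t⁻¹) := by group
    _ = (t * a * t⁻¹) * a := by rw [h1]
    _ = _ := (ab_comm s h4 ha ha1).symm

theorem cases_Z0 : ∀ v ∈ omegaCenterOf (thompsonSubgroupOf 2 T),
    v = 1 ∨ v = a ∨ v = t * a * t⁻¹ ∨ v = a * (t * a * t⁻¹) :=
  four_cases h4 (fun w hw => Z0_sq hw) (mem_Zc.mp ha).1 (mem_Zc.mp (b_mem_Zc s h4 ha ha1)).1 ha1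
    (b_ne_one s h4 ha ha1) (a_ne_b s h4 ha ha1)

/-- `ab` is not conjugate to `a`. -/
theorem not_conj (g : G) : g * (a * (t * a * t⁻¹)) * g⁻¹ ≠ a := by
  intro e
  set d := a * (t * a * t⁻¹) with hd
  have hdF : d ∈ omegaCenterOf T := mul_mem (a_mem_F s h4 ha ha1) (b_mem_F s h4 ha ha1)
  have hdt : t * d * t⁻¹ = d := conj_d s h4 ha ha1
  have hP : IsPGroup 2 (Subgroup.zpowers t) := by
    obtain ⟨n, hn⟩ := t_two s
    rw [IsPGroup.iff_card]
    obtain ⟨m, -, hm⟩ := (Nat.dvd_prime_pow Nat.prime_two).mp (_root_.orderOf_dvd_of_pow_eq_one hn)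
    exact ⟨m, by rw [Nat.card_zpowers]; exact hm⟩
  have hX : IsPGroup 2 (T ⊔ Subgroup.zpowers t : Subgroup G) :=
    IsPGroup.to_sup_of_normal_left' (T_isP s.h.hT) hP (Subgroup.zpowers_le.mpr s.htN)
  have hC : T ⊔ Subgroup.zpowers t ≤ Subgroup.centralizer ({d} : Set G) := by
    refine sup_le ?_ ?_
    · intro x hx
      rw [Subgroup.mem_centralizer_iff]
      rintro _ rfl
      exact ((mem_omegaCenterOf_iff.mp hdF).2.1 x hx).symm
    · rw [Subgroup.zpowers_le, Subgroup.mem_centralizer_iff]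
      rintro _ rfl
      exact (mul_inv_eq_iff_eq_mul.mp hdt).symm
  have hL := lZero_mem s.h s.hK
  have hXL : (T ⊔ Subgroup.zpowers t : Subgroup G).map (cj g) ≤ lZero M T K := by
    rintro _ ⟨x, hx, rfl⟩
    obtain ⟨haZ, haK⟩ := mem_Zc.mp ha
    refine mem_lZero_of_comm s.h (out_of_mem s.hK) ha1 (Z0_sq haZ) haK (fun j hj => Z0_comm_J hj haZ) ?_
    have h1 := Subgroup.mem_centralizer_iff.mp (hC hx) d rfl
    simp only [cj_apply]
    calc g * x * g⁻¹ * a = g * x * g⁻¹ * (g * d * g⁻¹) := by rw [e]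
      _ = g * (x * d) * g⁻¹ := by group
      _ = g * (d * x) * g⁻¹ := by rw [h1]
      _ = g * d * g⁻¹ * (g * x * g⁻¹) := by group
      _ = a * (g * x * g⁻¹) := by rw [e]
  have hXp : IsPGroup 2 ((T ⊔ Subgroup.zpowers t : Subgroup G).map (cj g)) := IsPGroup.iff_card.mpr (by
    rw [card_map_conj]
    exact IsPGroup.iff_card.mp hX)
  obtain ⟨l, hl, hlT⟩ := exists_conj_le hL.1 hXL hXp
  have hle : (T ⊔ Subgroup.zpowers t : Subgroup G).map (cj (l⁻¹ * g)) ≤ T := by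
    rintro _ ⟨x, hx, rfl⟩
    have := hlT _ (Subgroup.mem_map_of_mem (cj g) hx)
    simp only [cj_apply] at this ⊢
    have e2 : l⁻¹ * g * x * (l⁻¹ * g)⁻¹ = l⁻¹ * (g * x * g⁻¹) * l := by group
    rw [e2]
    exact this
  have hcard := Subgroup.card_le_of_le hle
  rw [card_map_conj] at hcard
  have heq := Subgroup.eq_of_le_of_card_ge (le_sup_left : T ≤ T ⊔ Subgroup.zpowers t) hcard
  apply s.htT
  rw [heq]
  exact Subgroup.mem_sup_right (Subgroup.mem_zpowers t)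

/-- `C(Z₀)` has index 2 in `N(Z₀)`. -/
theorem index_two :
    (Subgroup.centralizer (omegaCenterOf (thompsonSubgroupOf 2 T) : Set G)).relIndex
      (Subgroup.normalizer (omegaCenterOf (thompsonSubgroupOf 2 T) : Set G)) = 2 := by
  set Z₀ := omegaCenterOf (thompsonSubgroupOf 2 T) with hZ₀
  set b := t * a * t⁻¹ with hb
  obtain ⟨haZ, haK⟩ := mem_Zc.mp ha
  have hbZ : b ∈ Z₀ := (mem_Zc.mp (b_mem_Zc s h4 ha ha1)).1
  have hb1 : b ≠ 1 := b_ne_one s h4 ha ha1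
  have hab : a ≠ b := a_ne_b s h4 ha ha1
  have hcases := cases_Z0 s h4 ha ha1
  have htb : t * b * t⁻¹ = a := conj_b s h4 ha ha1
  have hcomm : a * b = b * a := ab_comm s h4 ha ha1
  have hsa : a * a = 1 := Z0_sq haZ
  have hsb : b * b = 1 := Z0_sq hbZ
  have htN₀ : t ∈ Subgroup.normalizer (Z₀ : Set G) :=
    mem_normalizer_of_conj_le fun v hv => conj_Z0 (htJ s) hv
  have hcen : ∀ y : G, y * a * y⁻¹ = a → y * b * y⁻¹ = b → y ∈ Subgroup.centralizer (Z₀ : Set G) := by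
    intro y h1 h2
    rw [Subgroup.mem_centralizer_iff]
    intro v hv
    have h1' : y * a = a * y := mul_inv_eq_iff_eq_mul.mp h1
    have h2' : y * b = b * y := mul_inv_eq_iff_eq_mul.mp h2
    have hv' : v ∈ Z₀ := hv
    rcases hcases v hv' with rfl | rfl | rfl | rfl
    · group
    · exact h1'.symm
    · exact h2'.symm
    · calc a * b * y = a * (b * y) := by group
        _ = a * (y * b) := by rw [h2']
        _ = (a * y) * b := by group
        _ = (y * a) * b := by rw [h1']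
        _ = y * (a * b) := by group
  rw [Subgroup.relIndex, Subgroup.index_eq_two_iff]
  refine ⟨⟨t, htN₀⟩, ?_⟩
  rintro ⟨y, hy⟩
  simp only [Subgroup.mem_subgroupOf, Subgroup.coe_mul]
  have hyZ : ∀ v ∈ Z₀, y * v * y⁻¹ ∈ Z₀ := fun v hv => (Subgroup.mem_normalizer_iff.mp hy v).mp hv
  have hne1 : ∀ v, v ≠ 1 → y * v * y⁻¹ ≠ 1 := by
    intro v hv e
    apply hv
    rw [mul_inv_eq_one] at e
    simpa using e
  -- `y` fixes `d`
  have hd1 : a * b ≠ 1 := by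
    intro e
    apply hab
    have : a = b⁻¹ := eq_inv_of_mul_eq_one_left e
    rw [this, inv_eq_of_mul_eq_one_left hsb]
  have hyd : y * (a * b) * y⁻¹ = a * b := by
    rcases hcases _ (hyZ _ (mul_mem haZ hbZ)) with h | h | h | h
    · exact absurd h (hne1 _ hd1)
    · exact absurd h (not_conj s h4 ha ha1 y)
    · exfalso
      refine not_conj s h4 ha ha1 (t * y) ?_
      calc t * y * (a * b) * (t * y)⁻¹ = t * (y * (a * b) * y⁻¹) * t⁻¹ := by group
        _ = t * b * t⁻¹ := by rw [h]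
        _ = a := htb
    · exact h
  have hb_eq : b = a * (a * b) := by rw [← mul_assoc, hsa, one_mul]
  have ha_eq : a = b * (a * b) := by
    rw [← mul_assoc, ← hcomm, mul_assoc, hsb, mul_one]
  rcases hcases _ (hyZ _ haZ) with h | h | h | h
  · exact absurd h (hne1 _ ha1)
  · -- `y` fixes `a`
    have hyb : y * b * y⁻¹ = b := by
      conv_lhs => rw [hb_eq]
      calc y * (a * (a * b)) * y⁻¹ = (y * a * y⁻¹) * (y * (a * b) * y⁻¹) := by group
        _ = a * (a * b) := by rw [h, hyd]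
        _ = b := hb_eq.symm
    refine Or.inr ⟨hcen y h hyb, fun hn => ?_⟩
    have h1 := Subgroup.mem_centralizer_iff.mp hn a haZ
    apply hab
    have h2 : y * t * a * (y * t)⁻¹ = a := by
      rw [← h1]
      group
    calc a = y * t * a * (y * t)⁻¹ := h2.symm
      _ = y * (t * a * t⁻¹) * y⁻¹ := by group
      _ = b := hyb
  · -- `y` moves `a` to `b`
    have hyb : y * b * y⁻¹ = a := by
      conv_lhs => rw [hb_eq]
      calc y * (a * (a * b)) * y⁻¹ = (y * a * y⁻¹) * (y * (a * b) * y⁻¹) := by group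
        _ = b * (a * b) := by rw [h, hyd]
        _ = a := ha_eq.symm
    refine Or.inl ⟨hcen _ ?_ ?_, fun hn => ?_⟩
    · calc y * t * a * (y * t)⁻¹ = y * (t * a * t⁻¹) * y⁻¹ := by group
        _ = a := hyb
    · calc y * t * b * (y * t)⁻¹ = y * (t * b * t⁻¹) * y⁻¹ := by group
        _ = y * a * y⁻¹ := by rw [htb]
        _ = b := h
    · have h1 := Subgroup.mem_centralizer_iff.mp hn a haZ
      apply hab
      rw [← h1] at h
      simpa using h
  · exfalso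
    apply hb1
    have : y * a * y⁻¹ = y * (a * b) * y⁻¹ := by rw [h, hyd]
    have h2 : a = a * b := by simpa using this
    simpa using h2

end Four

end Swap

end Cfsg.Agent.Lib.Amalgam.Strad
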