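import Mathlib
import Cfsg.Agent.Lib.Amalgam.StradFacts

/-!
# `𝒯*(M)`: strongly embedded subgroups, existence of maximal members, `S ∈ 𝒯*(N(J(S)))`
-/

set_option autoImplicit false
set_option linter.unusedSectionVars false
set_option linter.style.haveILetI false

namespace Cfsg.Agent.Lib.Amalgam.Strad

open Cfsg Cfsg.Agent.Lib.PGroup.ThompsonG Cfsg.Agent.Lib.Amalgam.JComp Cfsg.Agent.Lib.Amalgam.JLocal
open Cfsg.Agent.Lib.Amalgam.FFLocal Cfsg.Agent.Lib.Amalgam.JZero Cfsg.Agent.Lib.Amalgam.JSub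
open Cfsg.Agent.Lib.Amalgam.JExist Cfsg.Agent.Lib.Amalgam.JMax Cfsg.Agent.Lib.Amalgam.JGen
open Cfsg.Agent.Lib.Amalgam.JUnique Cfsg.Agent.Lib.Amalgam.Gold
open Cfsg.Agent.Lib.Amalgam.Vertex (conj_mem_pCoreOf pCoreOf_le le_normalizer_pCoreOf)

variable {G : Type*} [Group G] [Finite G]

/-! ### Strongly embedded subgroups -/

section Emb

variable {H : Subgroup G} (hs : IsStronglyEmbedded H)
include hs

theorem emb_mem {x g : G} (hx : x ∈ H) (hx1 : x ≠ 1) (hx2 : x * x = 1) (hg : g⁻¹ * x * g ∈ H) : g ∈ H := by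
  by_contra hgH
  have hodd := hs.2.2 g hgH
  have hmem : x ∈ H ⊓ H.map (MulAut.conj g).toMonoidHom :=
    Subgroup.mem_inf.mpr ⟨hx, g⁻¹ * x * g, hg, by simp [MulAut.conj_apply, mul_assoc]⟩
  have hord : orderOf (⟨x, hmem⟩ : ↥(H ⊓ H.map (MulAut.conj g).toMonoidHom)) = 2 := by
    rw [Subgroup.orderOf_mk]
    exact orderOf_eq_prime (by rw [pow_two, hx2]) hx1
  have hd := orderOf_dvd_natCard (⟨x, hmem⟩ : ↥(H ⊓ H.map (MulAut.conj g).toMonoidHom))
  rw [hord] at hd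
  exact (Nat.not_even_iff_odd.mpr hodd) (even_iff_two_dvd.mpr hd)

theorem emb_exists_invol : ∃ x ∈ H, x ≠ 1 ∧ x * x = 1 := by
  have h2 : 2 ∣ Nat.card H := even_iff_two_dvd.mp hs.2.1
  obtain ⟨x, hx⟩ := exists_prime_orderOf_dvd_card' 2 h2
  refine ⟨x, x.2, ?_, ?_⟩
  · intro e
    have : x = 1 := Subtype.ext e
    rw [this, orderOf_one] at hx
    omega
  · have := pow_orderOf_eq_one x
    rw [hx, pow_two] at this
    exact congrArg Subtype.val this

theorem emb_exists_out : ∃ y, y ∉ H ∧ y ≠ 1 ∧ y * y = 1 := by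
  obtain ⟨x, hx, hx1, hx2⟩ := emb_exists_invol hs
  obtain ⟨g, hg⟩ : ∃ g, g ∉ H := by
    by_contra hcon
    push Not at hcon
    exact hs.1 (eq_top_iff.mpr fun g _ => hcon g)
  refine ⟨g * x * g⁻¹, fun hy => hg ?_, ?_, ?_⟩
  · have hy1 : g * x * g⁻¹ ≠ 1 := by
      intro e
      apply hx1
      rw [mul_inv_eq_one] at e
      simpa using e
    refine emb_mem hs hy hy1 ?_ (by simpa [mul_assoc])
    calc g * x * g⁻¹ * (g * x * g⁻¹) = g * (x * x) * g⁻¹ := by group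
      _ = 1 := by rw [hx2]; group
  · intro e
    apply hx1
    rw [mul_inv_eq_one] at e
    simpa using e
  · calc g * x * g⁻¹ * (g * x * g⁻¹) = g * (x * x) * g⁻¹ := by group
      _ = 1 := by rw [hx2]; group

/-- The dihedral argument. -/
theorem emb_conj {x y : G} (hx : x ∈ H) (hx1 : x ≠ 1) (hx2 : x * x = 1) (hy : y ∉ H) (hy2 : y * y = 1) :
    ∃ r, r * x * r⁻¹ = y := by
  have exi : x⁻¹ = x := inv_eq_of_mul_eq_one_left hx2
  have eyi : y⁻¹ = y := inv_eq_of_mul_eq_one_left hy2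
  set s := x * y with hs'
  have hsi : s⁻¹ = y * x := by rw [hs', mul_inv_rev, exi, eyi]
  have hxs : x * s * x⁻¹ = s⁻¹ := by
    rw [hsi, exi, hs', ← mul_assoc, hx2, one_mul]
  have hys : y * s * y⁻¹ = s⁻¹ := by
    rw [hsi, eyi, hs', mul_assoc, mul_assoc, hy2, mul_one]
  have hxp : ∀ k : ℕ, x * s ^ k * x⁻¹ = (s⁻¹) ^ k := by
    intro k
    rw [← hxs, ← MulAut.conj_apply, map_pow]
    rfl
  have hyp : ∀ k : ℕ, y * s ^ k * y⁻¹ = (s⁻¹) ^ k := by
    intro k
    rw [← hys, ← MulAut.conj_apply, map_pow]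
    rfl
  rcases Nat.even_or_odd' (orderOf s) with ⟨m, hm | hm⟩
  · exfalso
    have hpos : 0 < orderOf s := orderOf_pos s
    have hm0 : 0 < m := by omega
    set c := s ^ m with hc
    have hc1 : c ≠ 1 := pow_ne_one_of_lt_orderOf (by omega) (by omega)
    have hc2 : c * c = 1 := by
      rw [hc, ← pow_add, ← two_mul, ← hm, pow_orderOf_eq_one]
    have eci : c⁻¹ = c := inv_eq_of_mul_eq_one_left hc2
    have hxc : x * c * x⁻¹ = c := by rw [hc, hxp, inv_pow, ← hc, eci]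
    have hyc : y * c * y⁻¹ = c := by rw [hc, hyp, inv_pow, ← hc, eci]
    have hcH : c ∈ H := by
      refine emb_mem hs hx hx1 hx2 ?_
      have e : c⁻¹ * x * c = x := by
        have h1 : x * c = c * x := mul_inv_eq_iff_eq_mul.mp hxc
        rw [mul_assoc, h1]
        group
      rw [e]
      exact hx
    apply hy
    refine emb_mem hs hcH hc1 hc2 ?_
    have e : y⁻¹ * c * y = c := by
      have h1 : y * c = c * y := mul_inv_eq_iff_eq_mul.mp hyc
      rw [mul_assoc, ← h1]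
      group
    rw [e]
    exact hcH
  · refine ⟨s ^ m, ?_⟩
    have h1 : s ^ (2 * m + 1) = 1 := by rw [← hm, pow_orderOf_eq_one]
    have h2 : s ^ (2 * m) = s⁻¹ := by
      rw [pow_succ] at h1
      exact eq_inv_of_mul_eq_one_left h1
    have h3 : x * (s ^ m)⁻¹ * x⁻¹ = s ^ m := by
      have := hxp m
      rw [inv_pow] at this
      have h4 : x * (s ^ m)⁻¹ * x⁻¹ = (x * s ^ m * x⁻¹)⁻¹ := by group
      rw [h4, this, inv_inv]
    calc s ^ m * x * (s ^ m)⁻¹ = s ^ m * (x * (s ^ m)⁻¹ * x⁻¹) * x := by group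
      _ = s ^ m * s ^ m * x := by rw [h3]
      _ = s ^ (2 * m) * x := by rw [two_mul, pow_add]
      _ = s⁻¹ * x := by rw [h2]
      _ = y := by rw [hsi, mul_assoc, hx2, mul_one]

/-- All involutions of `H` are conjugate in `H`. -/
theorem emb_conj_in {x x' : G} (hx : x ∈ H) (hx1 : x ≠ 1) (hx2 : x * x = 1) (hx' : x' ∈ H) (hx'1 : x' ≠ 1)
    (hx'2 : x' * x' = 1) : ∃ r ∈ H, r * x * r⁻¹ = x' := by
  obtain ⟨y, hy, -, hy2⟩ := emb_exists_out hs
  obtain ⟨r₁, hr₁⟩ := emb_conj hs hx hx1 hx2 hy hy2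
  obtain ⟨r₂, hr₂⟩ := emb_conj hs hx' hx'1 hx'2 hy hy2
  have e : (r₂⁻¹ * r₁) * x * (r₂⁻¹ * r₁)⁻¹ = x' := by
    calc (r₂⁻¹ * r₁) * x * (r₂⁻¹ * r₁)⁻¹ = r₂⁻¹ * (r₁ * x * r₁⁻¹) * r₂ := by group
      _ = r₂⁻¹ * (r₂ * x' * r₂⁻¹) * r₂ := by rw [hr₁, hr₂]
      _ = x' := by group
  refine ⟨r₂⁻¹ * r₁, emb_mem hs hx' hx'1 hx'2 ?_, e⟩
  rw [← e]
  have e2 : (r₂⁻¹ * r₁)⁻¹ * ((r₂⁻¹ * r₁) * x * (r₂⁻¹ * r₁)⁻¹) * (r₂⁻¹ * r₁) = x := by group
  rw [e2]
  exact hx

/-- If `O₂(H) ≠ 1`, all involutions of `H` lie in `O₂(H)`. -/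
theorem emb_invol_core (hne : pCoreOf 2 H ≠ ⊥) {v : G} (hv : v ∈ H) (hv2 : v * v = 1) : v ∈ pCoreOf 2 H := by
  by_cases hv1 : v = 1
  · rw [hv1]
    exact one_mem _
  haveI : Nontrivial (pCoreOf 2 H) := (Subgroup.nontrivial_iff_ne_bot _).mpr hne
  have h2 : 2 ∣ Nat.card (pCoreOf 2 H) := by
    obtain ⟨n, hn⟩ := IsPGroup.iff_card.mp (core_isP (K := H))
    have h1 : Nat.card (pCoreOf 2 H) ≠ 1 := Finite.one_lt_card.ne'
    rw [hn] at h1 ⊢
    have : n ≠ 0 := by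
      rintro rfl
      simp at h1
    exact dvd_pow_self 2 this
  obtain ⟨u, hu⟩ := exists_prime_orderOf_dvd_card' 2 h2
  have hu1 : (u : G) ≠ 1 := by
    intro e
    have : u = 1 := Subtype.ext e
    rw [this, orderOf_one] at hu
    omega
  have hu2 : (u : G) * u = 1 := by
    have := pow_orderOf_eq_one u
    rw [hu, pow_two] at this
    exact congrArg Subtype.val this
  obtain ⟨r, hr, e⟩ := emb_conj_in hs (pCoreOf_le u.2) hu1 hu2 hv hv1 hv2
  rw [← e]
  exact conj_mem_pCoreOf hr u.2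

end Emb

/-! ### Maximal members exist -/

theorem exists_maxStraddling {M : Subgroup G} (hne : (straddlingTwoSubgroups M).Nonempty) :
    (maxStraddlingTwoSubgroups M).Nonempty := by
  let f : Subgroup G → ℕ ×ₗ (ℕ ×ₗ ℕ) := fun T =>
    toLex (maxElemAbelianOrder T, toLex (Nat.card (thompsonSubgroupOf 2 T), Nat.card T))
  obtain ⟨T₀, hT₀, hmax⟩ := Set.exists_max_image (straddlingTwoSubgroups M) f (Set.toFinite _) hne
  refine ⟨T₀, hT₀, fun T hT => ?_⟩
  have h := hmax T hT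
  simp only [f, Prod.Lex.toLex_le_toLex] at h
  rcases h with h | ⟨h1, h2⟩
  · exact ⟨h.le, fun e => by omega⟩
  · refine ⟨h1.le, fun _ => ?_⟩
    rcases h2 with h2 | ⟨h3, h4⟩
    · exact ⟨h2.le, fun e => by omega⟩
    · exact ⟨h3.le, fun _ => h4⟩

/-! ### Conjugates of Sylow subgroups -/

variable {M T K : Subgroup G} {S : Sylow 2 G}

/-- A Sylow subgroup containing a 2-subgroup of `M`. -/
theorem exists_sylow_ge (hMJ : Subgroup.normalizer (thompsonSubgroupOf 2 (S : Subgroup G) : Set G) ≤ M)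
    (hTM : T ≤ M) (hT : IsPGroup 2 T) :
    ∃ (S₁ : Sylow 2 G) (m : G), m ∈ M ∧ (S₁ : Subgroup G) = (S : Subgroup G).map (cj m) ∧ T ≤ S₁ ∧
      Subgroup.normalizer (thompsonSubgroupOf 2 (S₁ : Subgroup G) : Set G) ≤ M := by
  have hSM : (S : Subgroup G) ≤ M :=
    (Subgroup.le_normalizer.trans (normalizer_le_normalizer_thompson _)).trans hMJ
  obtain ⟨m, hm, hm2⟩ := exists_conj_le (sylow_in hSM) hTM hT
  have he : ((m • S : Sylow 2 G) : Subgroup G) = (S : Subgroup G).map (cj m) := by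
    rw [Sylow.coe_subgroup_smul]
    rfl
  refine ⟨m • S, m, hm, he, ?_, ?_⟩
  · rw [he]
    intro q hq
    exact ⟨m⁻¹ * q * m, hm2 q hq, by simp [mul_assoc]⟩
  · rw [he, ← map_conj_thompsonSubgroupOf]
    intro g hg
    have h1 : m⁻¹ * g * m ∈ Subgroup.normalizer (thompsonSubgroupOf 2 (S : Subgroup G) : Set G) := by
      refine mem_normalizer_of_conj_le fun j hj => ?_
      have h2 : m * j * m⁻¹ ∈ (thompsonSubgroupOf 2 (S : Subgroup G)).map (cj m) := ⟨j, hj, rfl⟩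
      have h3 := (Subgroup.mem_normalizer_iff.mp hg _).mp h2
      obtain ⟨j', hj', e⟩ := h3
      have e2 : j' = (m⁻¹ * g * m) * j * (m⁻¹ * g * m)⁻¹ := by
        have e3 : m * j' * m⁻¹ = g * (m * j * m⁻¹) * g⁻¹ := e
        calc j' = m⁻¹ * (m * j' * m⁻¹) * m := by group
          _ = _ := by rw [e3]; group
      rw [← e2]
      exact hj'
    have h2 := hMJ h1
    have e : g = m * (m⁻¹ * g * m) * m⁻¹ := by group
    rw [e]
    exact mul_mem (mul_mem hm h2) (inv_mem hm)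

/-! ### `S ∈ 𝒯*(N(J(S)))` -/

/-- Comparison with a larger 2-group. -/
theorem order_le_of_le {T' S' : Subgroup G} (hle : T' ≤ S') :
    maxElemAbelianOrder T' ≤ maxElemAbelianOrder S' ∧
    (maxElemAbelianOrder T' = maxElemAbelianOrder S' → thompsonSubgroupOf 2 T' ≤ thompsonSubgroupOf 2 S') := by
  obtain ⟨A, hA⟩ := exists_mem_gMaxEA (p := 2) T'
  obtain ⟨B, hB⟩ := exists_mem_gMaxEA (p := 2) S'
  rw [maxElemAbelianOrder_eq hA, maxElemAbelianOrder_eq hB]
  refine ⟨hB.2.2 A (hA.1.trans hle) hA.2.1, fun e => ?_⟩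
  rw [thompsonSubgroupOf_le_iff]
  intro C hC
  refine le_thompsonSubgroupOf ⟨hC.1.trans hle, hC.2.1, fun E hE hEe => ?_⟩
  have h1 := hB.2.2 E hE hEe
  have h2 := hC.2.2 A hA.1 hA.2.1
  have h3 := hA.2.2 C hC.1 hC.2.1
  omega

/-- The largest order of elementary abelian subgroups under conjugation. -/
theorem order_map_conj (g : G) (X : Subgroup G) : maxElemAbelianOrder (X.map (cj g)) = maxElemAbelianOrder X := by
  obtain ⟨A, hA⟩ := exists_mem_gMaxEA (p := 2) X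
  rw [maxElemAbelianOrder_eq hA, maxElemAbelianOrder_eq (map_conj_mem_gMaxEA g hA), card_map_conj]

/-- The set-up for `M = N(J(S))`, when `S` itself belongs to `𝒯*(M)`. -/
theorem setup_normalizer (h : Setup M (S : Subgroup G) S) :
    Setup (Subgroup.normalizer (thompsonSubgroupOf 2 (S : Subgroup G) : Set G)) (S : Subgroup G) S := by
  set D := thompsonSubgroupOf 2 (S : Subgroup G) with hD
  have hSN : (S : Subgroup G) ≤ Subgroup.normalizer (D : Set G) :=
    Subgroup.le_normalizer.trans (normalizer_le_normalizer_thompson _)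
  refine ⟨h.hG, h.hN, h.hZ, le_rfl, ?_, ?_⟩
  · obtain ⟨h1, h2, -, L, hL, hSL, hLM⟩ := h.hT.1
    exact ⟨h1, h2, hSN, L, hL, hSL, fun hle => hLM (hle.trans h.hMJ)⟩
  · rintro T' ⟨h1, -, h3, -⟩
    obtain ⟨n, hn, hn2⟩ := exists_conj_le (sylow_in hSN) h3 h1
    have hle : T' ≤ (S : Subgroup G).map (cj n) := fun q hq =>
      ⟨n⁻¹ * q * n, hn2 q hq, by simp [mul_assoc]⟩
    obtain ⟨h4, h5⟩ := order_le_of_le hle
    rw [order_map_conj] at h4 h5
    refine ⟨h4, fun e => ?_⟩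
    have h6 := h5 e
    rw [← map_conj_thompsonSubgroupOf] at h6
    have e7 : (thompsonSubgroupOf 2 (S : Subgroup G)).map (cj n) = D := map_conj_eq_of_mem_normalizer hn
    rw [e7] at h6
    refine ⟨Subgroup.card_le_of_le h6, fun _ => ?_⟩
    have := Subgroup.card_le_of_le hle
    rwa [card_map_conj] at this

/-- A component is not contained in the normalizer of `J`. -/
theorem not_le_normalizer_J (hT : IsPGroup 2 T) (hK : IsJComponent T K) :
    ¬ K ≤ Subgroup.normalizer (thompsonSubgroupOf 2 T : Set G) := by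
  intro hle
  have hP := thompson_isP hT
  have hKJ : K ≤ thompsonSubgroupOf 2 T := by
    conv_lhs => rw [← J_comm hK]
    rw [Subgroup.commutator_le]
    intro k hk j hj
    rw [commutatorElement_def]
    exact mul_mem ((Subgroup.mem_normalizer_iff.mp (hle hk) j).mp hj) (inv_mem hj)
  have hKY : K ≤ pCoreOf 2 K := fun k hk => mem_core_of_two_element hK hk (two_element_of_mem hP (hKJ hk))
  have h3 := index3 hK
  rw [Subgroup.relIndex_eq_one.mpr hKY] at h3
  omega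

end Cfsg.Agent.Lib.Amalgam.Strad
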