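import Mathlib
import Cfsg.Agent.Lib.Amalgam.StradEmb
import Cfsg.Agent.S2947
import Cfsg.Agent.S2949

/-!
# `𝒯*(M)`: the case `T = S`
-/

set_option autoImplicit false
set_option linter.unusedSectionVars false
set_option linter.style.haveILetI false

namespace Cfsg.Agent.Lib.Amalgam.Strad

open Cfsg Cfsg.Agent.Lib.PGroup.ThompsonG Cfsg.Agent.Lib.Amalgam.JComp Cfsg.Agent.Lib.Amalgam.JLocal
open Cfsg.Agent.Lib.Amalgam.FFLocal Cfsg.Agent.Lib.Amalgam.JZero Cfsg.Agent.Lib.Amalgam.JSub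
open Cfsg.Agent.Lib.Amalgam.JExist Cfsg.Agent.Lib.Amalgam.JMax Cfsg.Agent.Lib.Amalgam.JGen
open Cfsg.Agent.Lib.Amalgam.JUnique Cfsg.Agent.Lib.Amalgam.Gold
open Cfsg.Agent.Lib.Amalgam.Vertex (conj_mem_pCoreOf pCoreOf_le le_normalizer_pCoreOf)

variable {G : Type*} [Group G] [Finite G]

variable {M T K K₀ : Subgroup G} {S : Sylow 2 G}

/-- `N(J(S))`. -/
abbrev Nd (S : Subgroup G) : Subgroup G := Subgroup.normalizer (thompsonSubgroupOf 2 S : Set G)

/-- Components outside `M`, under conjugation by `N(T)`. -/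
theorem map_conj_out (h : Setup M T S) {t : G} (ht : t ∈ Subgroup.normalizer (T : Set G))
    (hK : K ∈ jComponentsOutside M T) : K.map (cj t) ∈ jComponentsOutside M T := by
  have h1 := conj_outside h (normalizer_le_normalizer_thompson T ht) (out_of_mem hK)
  refine ⟨zero_of_outside h h1, h1.2, ?_⟩
  have e : K.map (cj t) ⊔ T = (K ⊔ T).map (cj t) := by
    rw [Subgroup.map_sup, map_conj_eq_of_mem_normalizer ht]
  rw [e, pCoreOf_map_conj]
  intro hb
  rw [Subgroup.map_eq_bot_iff_of_injective _ (MulAut.conj t).injective] at hb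
  exact hK.2.2 hb

/-- The general intersection property. -/
theorem Zc_inf_of (h : Setup M T S) (hK : K ∈ outside M T) {K' : Subgroup G} (hne : ¬ K' ≤ lZero M T K) :
    Zc T K ⊓ Zc T K' = ⊥ := by
  rw [eq_bot_iff]
  intro c hc
  obtain ⟨h1, h2⟩ := Subgroup.mem_inf.mp hc
  by_contra hc1
  obtain ⟨h3, h4⟩ := mem_Zc.mp h1
  obtain ⟨h5, h6⟩ := mem_Zc.mp h2
  refine hne fun k hk => ?_
  exact mem_lZero_of_comm h hK hc1 (Z0_sq h3) h4 (fun j hj => Z0_comm_J hj h3) (h6 k hk)

/-- The order of `Z₀`. -/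
theorem card_Z0_of (h : Setup M T S) (hK : K ∈ outside M T) {K' : Subgroup G} (hK' : K' ∈ outside M T)
    (hne : ¬ K' ≤ lZero M T K) : Nat.card (omegaCenterOf (thompsonSubgroupOf 2 T)) = 2 ∨
    Nat.card (omegaCenterOf (thompsonSubgroupOf 2 T)) = 4 := by
  have hP := T_isP h.hT
  have h1 := Subgroup.relIndex_inf_le (H := Zc T K) (K := Zc T K') (L := omegaCenterOf (thompsonSubgroupOf 2 T))
  rw [Zc_inf_of h hK hne, Subgroup.relIndex_bot_left, relIndex_Zc hP hK.1, relIndex_Zc hP hK'.1] at h1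
  obtain ⟨n, hn⟩ := IsPGroup.iff_card.mp (Z0_isP hP (T := T))
  obtain ⟨w, hwZ, -, hw1, -, -⟩ := exists_w hP hK.1
  have hn0 : n ≠ 0 := by
    rintro rfl
    rw [pow_zero] at hn
    have := Subgroup.eq_bot_of_card_eq _ hn
    rw [this, Subgroup.mem_bot] at hwZ
    exact hw1 hwZ
  have hn2 : n ≤ 2 := by
    by_contra hlt
    have h3 : 2 ^ 3 ≤ 2 ^ n := Nat.pow_le_pow_right (by norm_num) (by omega)
    omega
  have : n = 1 ∨ n = 2 := by omega
  rcases this with rfl | rfl
  · left; simpa using hn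
  · right; simpa using hn

section Eq

variable (h : Setup (Nd (S : Subgroup G)) (S : Subgroup G) S)
  (hK₀ : K₀ ∈ jComponentsOutside (Nd (S : Subgroup G)) (S : Subgroup G))
  (hall : ∀ K', K' ∈ jComponentsOutside (Nd (S : Subgroup G)) (S : Subgroup G) →
    K' ≤ lZero (Nd (S : Subgroup G)) (S : Subgroup G) K₀)
include h hK₀

/-- `N(S) ≤ L`. -/
theorem eq_U1 (hall : ∀ K', K' ∈ jComponentsOutside (Nd (S : Subgroup G)) (S : Subgroup G) →
    K' ≤ lZero (Nd (S : Subgroup G)) (S : Subgroup G) K₀) :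
    Subgroup.normalizer ((S : Subgroup G) : Set G) ≤ lZero (Nd (S : Subgroup G)) (S : Subgroup G) K₀ := by
  intro y hy
  have hK := out_of_mem hK₀
  have hyD : y ∈ Nd (S : Subgroup G) := normalizer_le_normalizer_thompson _ hy
  have h1 := hall _ (map_conj_out h hy hK₀)
  have h2 := lZero_eq_of_le h hK (out_of_mem (map_conj_out h hy hK₀)) h1
  rw [lZero_conj h hyD hK] at h2
  exact mem_of_map_eq (isMax_lZero h hK) h2

/-- `N(J(S)) ≤ L`. -/
theorem eq_U2 (hall : ∀ K', K' ∈ jComponentsOutside (Nd (S : Subgroup G)) (S : Subgroup G) →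
    K' ≤ lZero (Nd (S : Subgroup G)) (S : Subgroup G) K₀) :
    Nd (S : Subgroup G) ≤ lZero (Nd (S : Subgroup G)) (S : Subgroup G) K₀ := by
  intro g hg
  by_contra hgL
  have hK := out_of_mem hK₀
  have hKg := conj_outside h hg hK
  have hU1 := eq_U1 h hK₀ hall
  have hne : ¬ K₀.map (cj g) ≤ lZero (Nd (S : Subgroup G)) (S : Subgroup G) K₀ := fun hle => hgL (by
    refine mem_of_map_eq (isMax_lZero h hK) ?_
    rw [← lZero_conj h hg hK]
    exact lZero_eq_of_le h hK hKg hle)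
  have hcard := card_Z0_of h hK hKg hne
  set Z₀ := omegaCenterOf (thompsonSubgroupOf 2 (S : Subgroup G)) with hZ₀
  set Z := omegaCenterOf (S : Subgroup G) with hZ
  have hZle : Z ≤ Z₀ := omega_le_omega_J
  have hCZ : ∀ y, (∀ z ∈ Z, z * y = y * z) → y ∈ Subgroup.normalizer ((S : Subgroup G) : Set G) :=
    fun y hy => h.hZ S (Subgroup.mem_centralizer_iff.mpr hy)
  have hgZ : ∃ z ∈ Z, z * g ≠ g * z := by
    by_contra hcon
    push Not at hcon
    exact hgL (hU1 (hCZ g hcon))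
  obtain ⟨z, hzZ, hzg⟩ := hgZ
  have hzZ₀ := hZle hzZ
  have hne1 : ∀ v, v ≠ 1 → g * v * g⁻¹ ≠ 1 := by
    intro v hv e
    apply hv
    rw [mul_inv_eq_one] at e
    simpa using e
  have hSP := S.isPGroup'
  rcases hcard with h2 | h4
  · -- order 2
    classical
    obtain ⟨w, hw⟩ := (Nat.card_eq_two_iff' (1 : Z₀)).mp h2
    have hall2 : ∀ x ∈ Z₀, x ≠ 1 → x = w := by
      intro x hx hx1
      have := hw.2 ⟨x, hx⟩ (fun e => hx1 (congrArg Subtype.val e))
      exact congrArg Subtype.val this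
    have hz1 : z ≠ 1 := by
      rintro rfl
      simp at hzg
    apply hzg
    have h3 := hall2 _ (conj_Z0 hg hzZ₀) (hne1 z hz1)
    have h4 := hall2 _ hzZ₀ hz1
    rw [← h4] at h3
    exact (mul_inv_eq_iff_eq_mul.mp h3).symm
  · by_cases hZZ : Z = Z₀
    · -- `Z = Z₀`
      apply hgL
      apply hU1
      refine mem_normalizer_of_conj_le fun s hs => ?_
      have hcen : g * s * g⁻¹ ∈ Subgroup.normalizer ((S : Subgroup G) : Set G) := by
        refine hCZ _ fun z' hz' => ?_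
        have h3 : g⁻¹ * z' * g ∈ Z := by
          rw [hZZ]
          have := conj_Z0 (inv_mem hg) (hZle hz')
          simpa using this
        have h4 := (mem_omegaCenterOf_iff.mp h3).2.1 s hs
        calc z' * (g * s * g⁻¹) = g * ((g⁻¹ * z' * g) * s) * g⁻¹ := by group
          _ = g * (s * (g⁻¹ * z' * g)) * g⁻¹ := by rw [h4]
          _ = g * s * g⁻¹ * z' := by group
      refine mem_of_normalizes (sylow_in Subgroup.le_normalizer) hcen ?_ hcen
      obtain ⟨n, hn⟩ := two_element_of_mem hSP hs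
      refine ⟨n, ?_⟩
      rw [← MulAut.conj_apply, ← map_pow, hn, map_one]
    · -- `Z < Z₀`
      have hex := not_cen h le_rfl hK
      push Not at hex
      obtain ⟨k₀, hk₀, z₁, hz₁, hkz⟩ := hex
      obtain ⟨a, ha, ha1⟩ := exists_a hSP hK.1 h4
      obtain ⟨haZ, haK⟩ := mem_Zc.mp ha
      have hz₁Z₀ := hZle hz₁
      have hz₁1 : z₁ ≠ 1 := by
        rintro rfl
        simp at hkz
      have hz₁a : z₁ ≠ a := by
        rintro rfl
        exact hkz (haK k₀ hk₀)
      have hcases := four_cases h4 (fun w hw => Z0_sq hw) hz₁Z₀ haZ hz₁1 ha1 hz₁a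
      have haZn : a ∉ Z := by
        intro haZ'
        apply hZZ
        refine le_antisymm hZle fun v hv => ?_
        rcases hcases v hv with rfl | rfl | rfl | rfl
        · exact one_mem _
        · exact hz₁
        · exact haZ'
        · exact mul_mem hz₁ haZ'
      have hZcases : ∀ v ∈ Z, v = 1 ∨ v = z₁ := by
        intro v hv
        rcases hcases v (hZle hv) with rfl | rfl | rfl | rfl
        · exact Or.inl rfl
        · exact Or.inr rfl
        · exact absurd hv haZn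
        · exfalso
          apply haZn
          have := mul_mem (inv_mem hz₁) hv
          simpa using this
      have hgz₁ : g * z₁ * g⁻¹ ≠ z₁ := by
        intro e
        have e' : g * z₁ = z₁ * g := mul_inv_eq_iff_eq_mul.mp e
        rcases hZcases z hzZ with rfl | rfl
        · simp at hzg
        · exact hzg e'.symm
      obtain ⟨s, hs, hsa⟩ : ∃ s ∈ (S : Subgroup G), s * a * s⁻¹ ≠ a := by
        by_contra hcon
        push Not at hcon
        apply haZn
        refine mem_omegaCenterOf_iff.mpr ⟨Z0_le_T haZ, fun u hu => ?_, (mem_omegaCenterOf_iff.mp haZ).2.2⟩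
        exact mul_inv_eq_iff_eq_mul.mp (hcon u hu)
      have hsN : s ∈ Nd (S : Subgroup G) :=
        normalizer_le_normalizer_thompson _ (Subgroup.le_normalizer hs)
      have hsz : s * z₁ * s⁻¹ = z₁ := by
        rw [(mem_omegaCenterOf_iff.mp hz₁).2.1 s hs]
        group
      have hsae : s * a * s⁻¹ = z₁ * a := by
        rcases hcases _ (conj_Z0 hsN haZ) with e | e | e | e
        · exfalso
          apply ha1
          rw [mul_inv_eq_one] at e
          simpa using e
        · exfalso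
          apply hz₁a
          have : s * z₁ * s⁻¹ = s * a * s⁻¹ := by rw [hsz, e]
          simpa using this
        · exact absurd e hsa
        · exact e
      obtain ⟨h', hh'N, hh'⟩ : ∃ h' ∈ Nd (S : Subgroup G), h' * z₁ * h'⁻¹ = a := by
        rcases hcases _ (conj_Z0 hg hz₁Z₀) with e | e | e | e
        · exact absurd e (hne1 _ hz₁1)
        · exact absurd e hgz₁
        · exact ⟨g, hg, e⟩
        · refine ⟨s⁻¹ * g, mul_mem (inv_mem hsN) hg, ?_⟩
          calc s⁻¹ * g * z₁ * (s⁻¹ * g)⁻¹ = s⁻¹ * (g * z₁ * g⁻¹) * s := by group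
            _ = s⁻¹ * (s * a * s⁻¹) * s := by rw [e, hsae]
            _ = a := by group
      apply hK₀.2.1
      intro k hk
      have h3 : h'⁻¹ * k * h' ∈ Nd (S : Subgroup G) := by
        apply normalizer_le_normalizer_thompson
        refine hCZ _ fun v hv => ?_
        rcases hZcases v hv with rfl | rfl
        · group
        · have h5 := haK k hk
          rw [← hh'] at h5
          calc v * (h'⁻¹ * k * h') = h'⁻¹ * ((h' * v * h'⁻¹) * k) * h' := by group
            _ = h'⁻¹ * (k * (h' * v * h'⁻¹)) * h' := by rw [h5]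
            _ = h'⁻¹ * k * h' * v := by group
      have h4 := mul_mem (mul_mem hh'N h3) (inv_mem hh'N)
      have e : h' * (h'⁻¹ * k * h') * h'⁻¹ = k := by group
      rwa [e] at h4

/-- `L` is not strongly embedded. -/
theorem eq_U3 (hO : Cfsg.pCore 2 G = ⊥) (hLN : Nd (S : Subgroup G) ≤ lZero (Nd (S : Subgroup G)) (S : Subgroup G) K₀) :
    (straddlingTwoSubgroups (lZero (Nd (S : Subgroup G)) (S : Subgroup G) K₀)).Nonempty := by
  rw [Set.nonempty_iff_ne_empty]
  intro hemp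
  have hK := out_of_mem hK₀
  have hL2 := twoLocal_lZero h hK
  have hs := (Cfsg.Agent.S2947.result h.hG h.hN h.hZ hO S _ hL2 hLN).mpr hemp
  have hLT := lZero_mem h hK₀
  apply hLT.2.1
  rw [thompsonSubgroupOf_le_iff]
  intro A hA a ha
  refine emb_invol_core hs (core_ne_bot_of_twoLocal hL2) (hLT.1.1 (hA.1 ha)) ?_
  rw [← pow_two]
  exact hA.2.1.2 a ha

end Eq

/-- **The existence of a partner when `T = S`.** -/
theorem exists_partner (hO : Cfsg.pCore 2 G = ⊥) (h : Setup (Nd (S : Subgroup G)) (S : Subgroup G) S)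
    (hK₀ : K₀ ∈ jComponentsOutside (Nd (S : Subgroup G)) (S : Subgroup G)) :
    ∃ K', K' ∈ jComponentsOutside (Nd (S : Subgroup G)) (S : Subgroup G) ∧
      ¬ K' ≤ lZero (Nd (S : Subgroup G)) (S : Subgroup G) K₀ := by
  by_contra hcon
  push Not at hcon
  have hK := out_of_mem hK₀
  have hU2 := eq_U2 h hK₀ hcon
  set L := lZero (Nd (S : Subgroup G)) (S : Subgroup G) K₀ with hL
  have hL2 : IsTwoLocal L := twoLocal_lZero h hK
  have hLT : L ∈ jOvergroups (S : Subgroup G) := lZero_mem h hK₀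
  obtain ⟨T₃, hT₃⟩ := exists_maxStraddling (eq_U3 h hK₀ hO hU2)
  obtain ⟨S₁, m, hm, hS₁, hT₃S₁, hMJ₁⟩ := exists_sylow_ge hU2 hT₃.1.2.2.1 (T_isP hT₃)
  have h₃ : Setup L T₃ S₁ := ⟨h.hG, h.hN, h.hZ, hMJ₁, hT₃⟩
  obtain ⟨K₃, hK₃⟩ := Cfsg.Agent.S2949.result h.hG h.hN h.hZ hO S₁ L hL2 hMJ₁ T₃ hT₃
  have hmN : m ∈ Subgroup.normalizer (L : Set G) := Subgroup.le_normalizer hm
  by_cases hEq : T₃ = S₁
  · -- `T₃ = S₁`
    have hT₃m : T₃.map (cj m⁻¹) = (S : Subgroup G) := by
      rw [hEq, hS₁, map_cj_inv]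
    have hK₄J : IsJComponent (S : Subgroup G) (K₃.map (cj m⁻¹)) := by
      have := isJComponent_map_conj m⁻¹ hK₃.1.1
      rwa [hT₃m] at this
    have hK₄L : ¬ K₃.map (cj m⁻¹) ≤ L := by
      intro hle
      apply hK₃.2.1
      have h1 := Subgroup.map_mono (f := cj m) hle
      rw [map_conj_map_conj_inv, map_conj_eq_of_mem_normalizer hmN] at h1
      exact h1
    have hK₄O : K₃.map (cj m⁻¹) ∈ outside (Nd (S : Subgroup G)) (S : Subgroup G) :=
      ⟨hK₄J, fun hle => hK₄L (hle.trans hU2)⟩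
    refine hK₄L (hcon _ ⟨zero_of_outside h hK₄O, hK₄O.2, ?_⟩)
    have e : K₃.map (cj m⁻¹) ⊔ (S : Subgroup G) = (K₃ ⊔ T₃).map (cj m⁻¹) := by
      rw [Subgroup.map_sup, hT₃m]
    rw [e, pCoreOf_map_conj]
    intro hb
    rw [Subgroup.map_eq_bot_iff_of_injective _ (MulAut.conj m⁻¹).injective] at hb
    exact hK₃.2.2 hb
  · -- `T₃ < S₁`
    obtain ⟨t, ht, htN, htT, ht2⟩ := exists_t hT₃S₁ hEq
    have s : Swap L T₃ K₃ S₁ t := ⟨h₃, hT₃S₁, hK₃, ht, htN, htT, ht2⟩
    have p := Swap.pair s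
    have hS₁L : (S₁ : Subgroup G) ≤ L := S_le_M h₃
    have hF := Swap.V_le_F s (V := omL L)
      (om_le_core.trans (pCoreOf_le_of_sylow (sylow_in hS₁L)))
      (fun x hx => mem_normalizer_of_conj_le fun v hv => conj_mem_om (hS₁L hx) hv)
      (fun u hu v hv => om_comm (om_le_core hu) hv)
      (fun v hv => by rw [← pow_two]; exact om_sq hv)
    obtain ⟨F₀, hF₀⟩ := JMain.exists_kSetup h.hG h.hN h.hZ S.isPGroup' (T_ne_bot h.hT) hLT hK₀.1.1
      (K_le_lZero h hK)
    have hW : wOf K₀ ≤ omegaCenterOf T₃ := hF₀.w_le_om.trans hF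
    have hcW := card_w hK₀.1.1
    have hc4 : Nat.card (omegaCenterOf T₃) = 4 := by
      have h1 := Subgroup.card_le_of_le hW
      rcases Pair.cards p with ⟨-, h2⟩ | ⟨-, h2⟩ <;> omega
    have heq : wOf K₀ = omegaCenterOf T₃ :=
      Subgroup.eq_of_le_of_card_ge hW (by rw [hc4, hcW])
    have h4 : Nat.card (omegaCenterOf (thompsonSubgroupOf 2 T₃)) = 4 := by
      rw [← Pair.F_eq p]
      exact hc4
    obtain ⟨a, ha, ha1⟩ := exists_a (T_isP hT₃) hK₃.1.1 h4
    have haW : a ∈ wOf K₀ := by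
      rw [heq]
      exact Swap.a_mem_F s h4 ha ha1
    have hbW : t * a * t⁻¹ ∈ wOf K₀ := by
      rw [heq]
      exact Swap.b_mem_F s h4 ha ha1
    have hb1 := Swap.b_ne_one s h4 ha ha1
    have hab := Swap.a_ne_b s h4 ha ha1
    have hnc := Swap.not_conj s h4 ha ha1
    set b := t * a * t⁻¹ with hb
    have hcases := four_cases hcW (fun w hw => sq_w hK₀.1.1 w hw) haW hbW ha1 hb1 hab
    obtain ⟨x, hxK, -, hxY⟩ := exists_odd hK₀.1.1
    have hxN : ∀ v ∈ wOf K₀, x * v * x⁻¹ ∈ wOf K₀ :=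
      fun v hv => conj_w hK₀.1.1 (Subgroup.mem_sup_left hxK) hv
    have hfp : ∀ v ∈ wOf K₀, x * v * x⁻¹ = v → v = 1 := fun v hv e => fpf hK₀.1.1 hxK hxY hv e
    have hn1 : ∀ v, v ≠ 1 → x * v * x⁻¹ ≠ 1 := by
      intro v hv e
      apply hv
      rw [mul_inv_eq_one] at e
      simpa using e
    have hd1 : a * b ≠ 1 := by
      intro e
      apply hab
      have h1 : a = b⁻¹ := eq_inv_of_mul_eq_one_left e
      rw [h1, inv_eq_of_mul_eq_one_left (sq_w hK₀.1.1 b hbW)]
    rcases hcases _ (hxN a haW) with e | e | e | e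
    · exact hn1 _ ha1 e
    · exact ha1 (hfp _ haW e)
    · -- `x` moves `a` to `b`
      rcases hcases _ (hxN _ (mul_mem haW hbW)) with e2 | e2 | e2 | e2
      · exact hn1 _ hd1 e2
      · exact hnc x e2
      · apply hb1
        have : x * (a * b) * x⁻¹ = x * a * x⁻¹ := by rw [e2, e]
        have h2 : a * b = a := by simpa using this
        simpa using h2
      · exact hd1 (hfp _ (mul_mem haW hbW) e2)
    · -- `x` moves `a` to `ab`
      refine hnc x⁻¹ ?_
      rw [← e]
      group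

end Cfsg.Agent.Lib.Amalgam.Strad
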