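import Mathlib
import Cfsg.Agent.Lib.Amalgam.StradEq

/-!
# `𝒯*(M)`: every component outside `M` has a partner
-/

set_option autoImplicit false
set_option linter.unusedSectionVars false
set_option linter.style.haveILetI false

namespace Cfsg.Agent.Lib.Amalgam.Strad

open Cfsg Cfsg.Agent.Lib.PGroup.ThompsonG Cfsg.Agent.Lib.Amalgam.JComp Cfsg.Agent.Lib.Amalgam.JLocal
open Cfsg.Agent.Lib.Amalgam.FFLocal Cfsg.Agent.Lib.Amalgam.JZero Cfsg.Agent.Lib.Amalgam.JSub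
open Cfsg.Agent.Lib.Amalgam.JExist Cfsg.Agent.Lib.Amalgam.JMax Cfsg.Agent.Lib.Amalgam.JGen
open Cfsg.Agent.Lib.Amalgam.JUnique Cfsg.Agent.Lib.Amalgam.Gold
open Cfsg.Agent.Lib.Amalgam.Vertex (conj_mem_pCoreOf pCoreOf_le le_normalizer_pCoreOf)
open scoped commutatorElement

variable {G : Type*} [Group G] [Finite G]

variable {M T K K' : Subgroup G} {S : Sylow 2 G}

/-- The pair through `K`, when `T = S`. -/
theorem exists_pair_eq (hO : Cfsg.pCore 2 G = ⊥) (h : Setup M (S : Subgroup G) S)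
    (hK : K ∈ jComponentsOutside M (S : Subgroup G)) :
    ∃ K', Pair (Nd (S : Subgroup G)) (S : Subgroup G) K K' S := by
  have h' := setup_normalizer h
  have hK' : K ∈ jComponentsOutside (Nd (S : Subgroup G)) (S : Subgroup G) :=
    ⟨hK.1, fun hle => hK.2.1 (hle.trans h.hMJ), hK.2.2⟩
  obtain ⟨K', h1, h2⟩ := exists_partner hO h' hK'
  exact ⟨K', h', le_rfl, hK', h1, h2⟩

/-- **Every component outside `M` has a partner.** -/
theorem exists_pair (hO : Cfsg.pCore 2 G = ⊥) (h : Setup M T S) (hTS : T ≤ S)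
    (hK : K ∈ jComponentsOutside M T) : ∃ M₁ K', Pair M₁ T K K' S := by
  by_cases hT : T = S
  · subst hT
    obtain ⟨K', hp⟩ := exists_pair_eq hO h hK
    exact ⟨_, K', hp⟩
  · obtain ⟨t, ht, htN, htT, ht2⟩ := exists_t hTS hT
    exact ⟨M, _, Swap.pair ⟨h, hTS, hK, ht, htN, htT, ht2⟩⟩

/-- Setup with a Sylow subgroup above `T`. -/
theorem exists_setup (hG : IsCharacteristicTwoType G) (hN : ∀ N : Subgroup G, IsTwoLocal N → Group.IsSolvable N)
    (hZ : ZNHyp G) (hMJ : Subgroup.normalizer (thompsonSubgroupOf 2 (S : Subgroup G) : Set G) ≤ M)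
    (hT : T ∈ maxStraddlingTwoSubgroups M) : ∃ S₁ : Sylow 2 G, T ≤ S₁ ∧ Setup M T S₁ := by
  obtain ⟨S₁, m, -, -, h1, h2⟩ := exists_sylow_ge hMJ (T_le_M hT) (T_isP hT)
  exact ⟨S₁, h1, hG, hN, hZ, h2, hT⟩

/-! ### The facts at a vertex, from a pair -/

namespace Pair

variable (p : Pair M T K K' S)
include p

theorem vertex_facts :
    Subgroup.centralizer (pCoreOf 2 (K ⊔ T) : Set G) ≤ pCoreOf 2 (K ⊔ T) ∧ IsSylowTwoIn T (K ⊔ T) ∧
      (pCoreOf 2 (K ⊔ T)).relIndex (K ⊔ T) = 6 ∧ ¬ ⁅K ⊔ T, K ⊔ T⁆ ≤ pCoreOf 2 (K ⊔ T) ∧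
      ⁅omegaCenterOf T, K ⊔ T⁆ ≠ ⊥ ∧
      ∃ L : Subgroup G, IsMaximalTwoLocal L ∧ K ⊔ T ≤ L ∧ IsSylowTwoIn T L ∧
        ∀ L' : Subgroup G, IsMaximalTwoLocal L' → K ⊔ T ≤ L' → L' = L := by
  have hTK := T_norm p
  have hK := p.outK
  have hP : K ⊔ T ≤ lZero M T K := sup_le (K_le_lZero p.h hK) (lZero_mem p.h p.hK).1.1
  refine ⟨cen_Q p.h p.hTS p.hK hTK, sylow_P p.h p.hTS p.hK hTK, core_idx p.h p.hTS p.hK hTK, ?_, ?_,
    lZero M T K, isMax_lZero p.h hK, hP, (lZero_mem p.h p.hK).1, ?_⟩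
  · intro hle
    apply not_normal_T p.h p.hTS p.hK hTK
    constructor
    intro n hn c
    rw [Subgroup.mem_subgroupOf] at hn ⊢
    have h1 : ⁅(c : G), (n : G)⁆ ∈ pCoreOf 2 (K ⊔ T) :=
      hle (Subgroup.commutator_mem_commutator c.2 n.2)
    have h2 := Q_le_T p.h p.hTS p.hK hTK h1
    rw [commutatorElement_def] at h2
    have := mul_mem h2 hn
    simpa using this
  · intro hb
    apply not_cen p.h p.hTS hK
    intro k hk z hz
    have h1 : ⁅z, k⁆ ∈ ⁅omegaCenterOf T, K ⊔ T⁆ :=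
      Subgroup.commutator_mem_commutator hz (Subgroup.mem_sup_left hk)
    rw [hb, Subgroup.mem_bot, commutatorElement_eq_one_iff_mul_comm] at h1
    exact h1.symm
  · intro L' hL' hle
    have h1 : L' ≤ lZero M T K := le_lZero p.h hK hL'.1 (le_sup_left.trans hle)
      ((thompsonSubgroupOf_le_self T).trans (le_sup_right.trans hle))
    exact (hL'.2 _ (twoLocal_lZero p.h hK) h1).symm

/-- `O₂(⟨P₁, P₂⟩) = 1`. -/
theorem core_sup : pCoreOf 2 ((K ⊔ T) ⊔ (K' ⊔ T)) = ⊥ := by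
  by_contra hne
  have hle : (K ⊔ T) ⊔ (K' ⊔ T) ≤ Subgroup.normalizer (pCoreOf 2 ((K ⊔ T) ⊔ (K' ⊔ T)) : Set G) :=
    le_normalizer_pCoreOf
  refine no_common p ⟨_, core_isP, hne, rfl⟩ ?_ ?_ ?_
  · exact (le_sup_left.trans le_sup_left).trans hle
  · exact (le_sup_left.trans le_sup_right).trans hle
  · exact (thompsonSubgroupOf_le_self T).trans ((le_sup_right.trans le_sup_left).trans hle)

theorem K_ne : K ≠ K' := by
  rintro rfl
  exact p.hne (K_le_lZero p.h p.outK)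

end Pair

end Cfsg.Agent.Lib.Amalgam.Strad
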