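import Mathlib
import Cfsg.Agent.Lib.Amalgam.StradMain

/-!
# `𝒯*(M)`: the maximal 2-local subgroups
-/

set_option autoImplicit false
set_option linter.unusedSectionVars false
set_option linter.style.haveILetI false

namespace Cfsg.Agent.Lib.Amalgam.Strad

open Cfsg Cfsg.Agent.Lib.PGroup.ThompsonG Cfsg.Agent.Lib.Amalgam.JComp Cfsg.Agent.Lib.Amalgam.JLocal
open Cfsg.Agent.Lib.Amalgam.FFLocal Cfsg.Agent.Lib.Amalgam.JZero Cfsg.Agent.Lib.Amalgam.JSub
open Cfsg.Agent.Lib.Amalgam.JExist Cfsg.Agent.Lib.Amalgam.JMax Cfsg.Agent.Lib.Amalgam.JGen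
open Cfsg.Agent.Lib.Amalgam.JUnique Cfsg.Agent.Lib.Amalgam.Gold
open Cfsg.Agent.Lib.Amalgam.Vertex (conj_mem_pCoreOf pCoreOf_le le_normalizer_pCoreOf)

variable {G : Type*} [Group G] [Finite G]

/-- A group of order 4 has at most 6 automorphisms. -/
theorem card_mulAut_le_six {V : Type*} [Group V] [Finite V] (h4 : Nat.card V = 4) : Nat.card (MulAut V) ≤ 6 := by
  classical
  let e : MulAut V → Equiv.Perm {x : V // x ≠ 1} := fun φ =>
    φ.toEquiv.subtypeEquiv (fun x => by simp)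
  have he : Function.Injective e := by
    intro φ ψ h
    ext x
    by_cases hx : x = 1
    · simp [hx]
    · have := congrArg (fun f : Equiv.Perm {x : V // x ≠ 1} => ((f ⟨x, hx⟩ : {x : V // x ≠ 1}) : V)) h
      simpa [e] using this
  have h1 : Nat.card {x : V // x ≠ 1} = 3 := by
    have h2 := Set.ncard_add_ncard_compl ({1} : Set V)
    rw [Set.ncard_singleton, h4] at h2
    have h3 : Nat.card {x : V // x ≠ 1} = (({1} : Set V)ᶜ).ncard := Nat.card_coe_set_eq _
    omega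
  calc Nat.card (MulAut V) ≤ Nat.card (Equiv.Perm {x : V // x ≠ 1}) := Nat.card_le_card_of_injective e he
    _ = 6 := by rw [Nat.card_perm, h1]; rfl

/-- The kernel of the action on a section of order 4. -/
theorem exists_ker_le_six {Γ : Type*} [Group Γ] [Finite Γ] (E A : Subgroup Γ) [hE : E.Normal] [hA : A.Normal]
    (h4 : A.relIndex E = 4) :
    ∃ D : Subgroup Γ, D.Normal ∧ D.index ≤ 6 ∧ ∀ l ∈ D, ∀ q ∈ E, l * q * l⁻¹ * q⁻¹ ∈ A := by
  let π := QuotientGroup.mk' A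
  have hs : Function.Surjective π := QuotientGroup.mk'_surjective A
  haveI hV : (E.map π).Normal := Subgroup.Normal.map hE π hs
  let f : Γ →* MulAut (E.map π) := (MulAut.conjNormal).comp π
  refine ⟨f.ker, f.normal_ker, ?_, ?_⟩
  · rw [Subgroup.index_ker]
    have hc : Nat.card (E.map π) = 4 := by
      rw [← Subgroup.relIndex_ker, QuotientGroup.ker_mk']
      exact h4
    exact (Subgroup.card_le_card_group _).trans (card_mulAut_le_six hc)
  · intro l hl q hq
    have h1 : f l = 1 := hl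
    have h2 := congrArg (fun φ : MulAut (E.map π) => ((φ ⟨π q, Subgroup.mem_map_of_mem _ hq⟩ : E.map π) : Γ ⧸ A)) h1
    simp only [f, MonoidHom.comp_apply, MulAut.conjNormal_apply, MulAut.one_apply] at h2
    have h3 : π (l * q * l⁻¹ * q⁻¹) = 1 := by
      rw [map_mul, map_mul, map_mul, map_inv, map_inv, h2, mul_inv_cancel]
    have h4 : l * q * l⁻¹ * q⁻¹ ∈ π.ker := h3
    rwa [QuotientGroup.ker_mk'] at h4

/-- The index of `Q` in `L`, when a central subgroup has index 4 in `Q`. -/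
theorem relIndex_le_six {L Q A : Subgroup G} (hQL : Q ≤ L) (hcore : pCoreOf 2 L = Q) (hAQ : A ≤ Q)
    (hAc : ∀ l ∈ L, ∀ c ∈ A, l * c = c * l) (h4 : A.relIndex Q = 4) (hQs : ∀ q ∈ Q, q * q = 1)
    (hcen : ∀ g : G, (∀ q ∈ Q, q * g = g * q) → g ∈ Q) : Q.relIndex L ≤ 6 := by
  set E := Q.subgroupOf L with hE
  set A' := A.subgroupOf L with hA'
  haveI hEn : E.Normal := by
    constructor
    intro n hn c
    rw [hE, Subgroup.mem_subgroupOf] at hn ⊢
    rw [← hcore] at hn ⊢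
    exact conj_mem_pCoreOf c.2 hn
  haveI hAn : A'.Normal := by
    constructor
    intro n hn c
    rw [hA', Subgroup.mem_subgroupOf] at hn ⊢
    have h1 := hAc c c.2 n hn
    have e : ((c * n * c⁻¹ : L) : G) = n := by
      rw [Subgroup.coe_mul, Subgroup.coe_mul, h1, Subgroup.coe_inv]
      group
    rw [e]
    exact hn
  have h4' : A'.relIndex E = 4 := by
    rw [hA', hE, Subgroup.relIndex_subgroupOf hQL]
    exact h4
  obtain ⟨D, hDn, hD6, hD⟩ := exists_ker_le_six E A' h4'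
  -- `l² ∈ Q` for `l ∈ D`
  have hsq : ∀ l ∈ D, (l : G) * l ∈ Q := by
    intro l hl
    refine hcen _ fun q hq => ?_
    have h1 := hD l hl ⟨q, hQL hq⟩ (Subgroup.mem_subgroupOf.mpr hq)
    rw [hA', Subgroup.mem_subgroupOf] at h1
    simp only [Subgroup.coe_mul, Subgroup.coe_inv] at h1
    set c := (l : G) * q * (l : G)⁻¹ * q⁻¹ with hc
    have hcs : c * c = 1 := hQs c (hAQ h1)
    have e1 : (l : G) * q * (l : G)⁻¹ = c * q := by rw [hc]; group
    have e2 : (l : G) * c * (l : G)⁻¹ = c := by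
      rw [hAc l l.2 c h1]
      group
    have e3 : ((l : G) * l) * q * ((l : G) * l)⁻¹ = q := by
      calc ((l : G) * l) * q * ((l : G) * l)⁻¹ = (l : G) * ((l : G) * q * (l : G)⁻¹) * (l : G)⁻¹ := by group
        _ = (l : G) * (c * q) * (l : G)⁻¹ := by rw [e1]
        _ = ((l : G) * c * (l : G)⁻¹) * ((l : G) * q * (l : G)⁻¹) := by group
        _ = c * (c * q) := by rw [e2, e1]
        _ = q := by rw [← mul_assoc, hcs, one_mul]
    exact (mul_inv_eq_iff_eq_mul.mp e3).symm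
  have hP : IsPGroup 2 (D.map L.subtype) := by
    intro x
    obtain ⟨_, l, hl, rfl⟩ := x
    refine ⟨2, Subtype.ext ?_⟩
    have h1 := hQs _ (hsq l hl)
    show (((l : G) ^ 2 ^ 2 : G)) = 1
    rw [show (2 : ℕ) ^ 2 = 4 by norm_num, show (4 : ℕ) = 2 + 2 by norm_num, pow_add, pow_two]
    exact h1
  have hDQ : D.map L.subtype ≤ Q := by
    rw [← hcore]
    refine le_pCoreOf (Subgroup.map_subtype_le _) hP ?_
    rintro l hl _ ⟨d, hd, rfl⟩
    exact ⟨⟨l, hl⟩ * d * ⟨l, hl⟩⁻¹, hDn.conj_mem d hd _, by simp⟩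
  have hDE : D ≤ E := fun d hd => Subgroup.mem_subgroupOf.mpr (hDQ ⟨d, hd, rfl⟩)
  have hdvd := Subgroup.index_dvd_of_le hDE
  have hne : D.index ≠ 0 := Subgroup.index_ne_zero_of_finite
  exact (Nat.le_of_dvd (Nat.pos_of_ne_zero hne) hdvd).trans hD6

/-- An orbit under a group with a Sylow 2-subgroup centralizing the point has odd size. -/
theorem odd_orbit {L T : Subgroup G} (hT : IsSylowTwoIn T L) {a : G} (hTa : ∀ t ∈ T, t * a = a * t) :
    Odd (({g | ∃ l ∈ L, g = l * a * l⁻¹} : Set G).ncard) := by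
  letI act : MulAction L G := MulAction.compHom G ((MulAut.conj : G →* MulAut G).comp L.subtype)
  have hsmul : ∀ (l : L) (g : G), l • g = (l : G) * g * (l : G)⁻¹ := fun _ _ => rfl
  have h1 := @MulAction.index_stabilizer L G _ act a
  have horb : (MulAction.orbit L a : Set G) = {g | ∃ l ∈ L, g = l * a * l⁻¹} := by
    ext g
    constructor
    · rintro ⟨l, rfl⟩
      exact ⟨l, l.2, hsmul l a⟩
    · rintro ⟨l, hl, rfl⟩
      exact ⟨⟨l, hl⟩, hsmul _ a⟩
  rw [horb] at h1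
  rw [← h1]
  have hle : T.subgroupOf L ≤ MulAction.stabilizer L a := by
    intro t ht
    rw [MulAction.mem_stabilizer_iff, hsmul, hTa t (Subgroup.mem_subgroupOf.mp ht)]
    group
  have hd : (MulAction.stabilizer L a).index ∣ (T.subgroupOf L).index := Subgroup.index_dvd_of_le hle
  exact Odd.of_dvd_nat hT.2.2 hd

theorem ncard_three {x y z : G} (h1 : x ≠ y) (h2 : x ≠ z) (h3 : y ≠ z) : ({x, y, z} : Set G).ncard = 3 := by
  rw [Set.ncard_insert_of_notMem (by simp [h1, h2]), Set.ncard_pair h3]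

variable {M T K K' : Subgroup G} {S : Sylow 2 G}

namespace Pair

variable (p : Pair M T K K' S)
include p

theorem core_eq : pCoreOf 2 (lZero M T K) = pCoreOf 2 (K ⊔ T) := by
  have hT := T_norm p
  apply le_antisymm (coreL_le_Q p.h p.hTS p.hK hT)
  intro q hq
  apply (lZero_mem p.h p.hK).2.2
  rw [Subgroup.mem_centralizer_iff]
  intro u hu
  exact Q_comm p (coreL_le_Q p.h p.hTS p.hK hT hu) hq

theorem P_le : K ⊔ T ≤ lZero M T K := sup_le (K_le_lZero p.h p.outK) (lZero_mem p.h p.hK).1.1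

/-- In the order 8 case, `L` centralizes `Z₀ ∩ C(K)`. -/
theorem central_in_L (h8 : Nat.card (pCoreOf 2 (K ⊔ T)) = 8) {a : G} (ha : a ∈ Zc T K) (ha1 : a ≠ 1) :
    ∀ l ∈ lZero M T K, l * a * l⁻¹ = a := by
  set L := lZero M T K with hL
  set Q := pCoreOf 2 (K ⊔ T) with hQ
  have hKo := p.outK
  have hTK := T_norm p
  have hcardF : Nat.card Q = 2 * Nat.card (omegaCenterOf T) := card_Q_eq p
  have hF4 : Nat.card (omegaCenterOf T) = 4 := by omega
  have h4 : Nat.card (omegaCenterOf (thompsonSubgroupOf 2 T)) = 4 := by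
    rw [← F_eq p]
    exact hF4
  have hFQ : omegaCenterOf T ≤ Q := by
    rw [← inf_eq_F p]
    exact inf_le_left
  obtain ⟨haZ, haK⟩ := mem_Zc.mp ha
  have haF := central_of_Zc p h4 ha ha1
  have haQ := hFQ haF
  obtain ⟨b, hb, hb1⟩ := exists_a p.isP p.hK'.1.1 h4
  obtain ⟨hbZ, hbK⟩ := mem_Zc.mp hb
  have hbQ := hFQ (central_of_Zc p.symm h4 hb hb1)
  have hab : a ≠ b := by
    intro e
    have : a ∈ Zc T K ⊓ Zc T K' := ⟨ha, e ▸ hb⟩
    rw [Zc_inf p, Subgroup.mem_bot] at this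
    exact ha1 this
  have hcoreL := core_eq p
  have hQn : ∀ l ∈ L, ∀ q ∈ Q, l * q * l⁻¹ ∈ Q := by
    intro l hl q hq
    rw [hQ, ← hcoreL] at hq ⊢
    exact conj_mem_pCoreOf hl hq
  set Ω : Set G := {g | ∃ l ∈ L, g = l * a * l⁻¹} with hΩ
  have hodd : Odd Ω.ncard := odd_orbit (lZero_mem p.h p.hK).1 fun t ht =>
    (mem_omegaCenterOf_iff.mp haF).2.1 t ht
  have haΩ : a ∈ Ω := ⟨1, one_mem _, by group⟩
  have hΩQ : ∀ e ∈ Ω, e ∈ Q := by
    rintro _ ⟨l, hl, rfl⟩
    exact hQn l hl a haQ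
  have hne1 : ∀ y v : G, v ≠ 1 → y * v * y⁻¹ ≠ 1 := by
    intro y v hv e
    apply hv
    rw [mul_inv_eq_one] at e
    simpa using e
  have hΩ1 : ∀ e ∈ Ω, e ≠ 1 := by
    rintro _ ⟨l, hl, rfl⟩
    exact hne1 l a ha1
  -- `b` is not in the orbit
  have hbΩ : b ∉ Ω := by
    rintro ⟨l, hl, e⟩
    refine p.hne fun k hk => ?_
    have h1 : l⁻¹ * k * l ∈ L := by
      refine mem_lZero_of_comm p.h hKo ha1 (Z0_sq haZ) haK (fun j hj => Z0_comm_J hj haZ) ?_
      have h2 := hbK k hk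
      rw [e] at h2
      calc l⁻¹ * k * l * a = l⁻¹ * (k * (l * a * l⁻¹)) * l := by group
        _ = l⁻¹ * ((l * a * l⁻¹) * k) * l := by rw [h2]
        _ = a * (l⁻¹ * k * l) := by group
    have h3 := mul_mem (mul_mem hl h1) (inv_mem hl)
    have e2 : l * (l⁻¹ * k * l) * l⁻¹ = k := by group
    rwa [e2] at h3
  -- the element `x`
  obtain ⟨x, hxK, -, hxY⟩ := exists_odd p.hK.1.1
  have hxL : x ∈ L := K_le_lZero p.h hKo hxK
  have hxa : x * a * x⁻¹ = a := by
    rw [haK x hxK]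
    group
  have hWQ : wOf K ≤ Q := w_le_core.trans (Y_le_Q p.h p.hTS p.hK hTK)
  -- fixed points of `x`
  have hfix : ∀ e ∈ Q, x * e * x⁻¹ = e → e = 1 ∨ e = a := by
    classical
    set C : Subgroup G := Q ⊓ Subgroup.centralizer ({x} : Set G) with hC
    have hmemC : ∀ e, e ∈ Q → x * e * x⁻¹ = e → e ∈ C := by
      intro e he hxe
      refine Subgroup.mem_inf.mpr ⟨he, Subgroup.mem_centralizer_iff.mpr ?_⟩
      rintro _ rfl
      exact mul_inv_eq_iff_eq_mul.mp hxe
    have hinf : C ⊓ wOf K = ⊥ := by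
      rw [eq_bot_iff]
      intro e he
      obtain ⟨h1, h2⟩ := Subgroup.mem_inf.mp he
      have h3 := Subgroup.mem_centralizer_iff.mp (Subgroup.mem_inf.mp h1).2 x rfl
      rw [Subgroup.mem_bot]
      refine fpf p.hK.1.1 hxK hxY h2 ?_
      rw [h3]
      group
    have h1 := Subgroup.relIndex_inf_le (H := C) (K := wOf K) (L := Q)
    rw [hinf, Subgroup.relIndex_bot_left, h8] at h1
    have h2 := Subgroup.relIndex_mul_relIndex ⊥ _ _ bot_le hWQ
    rw [Subgroup.relIndex_bot_left, Subgroup.relIndex_bot_left, card_w p.hK.1.1, h8] at h2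
    have h3 := Subgroup.relIndex_mul_relIndex ⊥ C Q bot_le inf_le_left
    rw [Subgroup.relIndex_bot_left, Subgroup.relIndex_bot_left, h8] at h3
    have h5 : (wOf K).relIndex Q = 2 := by omega
    rw [h5] at h1
    have hC2 : Nat.card C ≤ 2 := by
      by_contra hlt
      push Not at hlt
      have h6 : C.relIndex Q ≥ 4 := by omega
      have h7 : Nat.card C * 4 ≤ Nat.card C * C.relIndex Q := Nat.mul_le_mul_left _ h6
      omega
    have haC : a ∈ C := hmemC a haQ hxa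
    have hC2' : Nat.card C = 2 := by
      have h6 := Subgroup.one_lt_card_iff_ne_bot C
      have h7 : C ≠ ⊥ := by
        intro hb
        rw [hb, Subgroup.mem_bot] at haC
        exact ha1 haC
      have := h6.mpr h7
      omega
    obtain ⟨w, hw⟩ := (Nat.card_eq_two_iff' (1 : C)).mp hC2'
    intro e he hxe
    by_cases he1 : e = 1
    · exact Or.inl he1
    · right
      have h6 := hw.2 ⟨e, hmemC e he hxe⟩ (fun e' => he1 (congrArg Subtype.val e'))
      have h7 := hw.2 ⟨a, haC⟩ (fun e' => ha1 (congrArg Subtype.val e'))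
      have := h6.trans h7.symm
      exact congrArg Subtype.val this
  -- orbits of `x` have length three
  have hcube : ∀ e ∈ Q, x * (x * (x * e * x⁻¹) * x⁻¹) * x⁻¹ = e := by
    intro e he
    have h1 : x ^ 3 ∈ Q := Y_le_Q p.h p.hTS p.hK hTK (K_cube p.hK.1.1 hxK)
    have h2 := Q_comm p h1 he
    rw [show x ^ 3 = x * x * x by rw [pow_succ, pow_two]] at h2
    calc x * (x * (x * e * x⁻¹) * x⁻¹) * x⁻¹ = (x * x * x) * e * (x * x * x)⁻¹ := by group
      _ = e := by rw [h2]; group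
  have horb : ∀ e ∈ Q, e ≠ 1 → e ≠ a →
      e ≠ x * e * x⁻¹ ∧ e ≠ x * (x * e * x⁻¹) * x⁻¹ ∧ x * e * x⁻¹ ≠ x * (x * e * x⁻¹) * x⁻¹ := by
    intro e he he1 hea
    have hf1 : x * e * x⁻¹ ≠ e := fun h => by
      rcases hfix e he h with h | h
      · exact he1 h
      · exact hea h
    refine ⟨hf1.symm, fun h => hf1 ?_, fun h => hf1 ?_⟩
    · have h2 := hcube e he
      rw [← h] at h2
      exact h2
    · have h2 := mul_right_cancel h
      exact (mul_left_cancel h2).symm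
  intro l hl
  by_contra hla
  set c := l * a * l⁻¹ with hc
  have hcΩ : c ∈ Ω := ⟨l, hl, rfl⟩
  have hcQ := hΩQ c hcΩ
  have hc1 := hΩ1 c hcΩ
  have hΩx : ∀ e ∈ Ω, x * e * x⁻¹ ∈ Ω := by
    rintro _ ⟨y, hy, rfl⟩
    exact ⟨x * y, mul_mem hxL hy, by group⟩
  have hΩx' : ∀ e, x * e * x⁻¹ ∈ Ω → e ∈ Ω := by
    rintro e ⟨y, hy, e2⟩
    refine ⟨x⁻¹ * y, mul_mem (inv_mem hxL) hy, ?_⟩
    calc e = x⁻¹ * (x * e * x⁻¹) * x := by group
      _ = x⁻¹ * (y * a * y⁻¹) * x := by rw [e2]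
      _ = _ := by group
  have hba : b ≠ a := hab.symm
  obtain ⟨hb12, hb13, hb23⟩ := horb b hbQ hb1 hba
  obtain ⟨hc12, hc13, hc23⟩ := horb c hcQ hc1 hla
  have hxQ : ∀ e ∈ Q, x * e * x⁻¹ ∈ Q := fun e he => hQn x hxL e he
  set b₁ := x * b * x⁻¹ with hb₁
  set b₂ := x * b₁ * x⁻¹ with hb₂
  set c₁ := x * c * x⁻¹ with hc₁
  set c₂ := x * c₁ * x⁻¹ with hc₂
  have hb₁Q := hxQ b hbQ
  have hb₂Q := hxQ b₁ hb₁Q
  have hne_a : ∀ v, v ≠ a → x * v * x⁻¹ ≠ a := by
    intro v hv e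
    apply hv
    rw [← hxa] at e
    simpa using e
  have hb₁a := hne_a b hba
  have hb₂a := hne_a b₁ hb₁a
  have hb₁1 := hne1 x b hb1
  have hb₂1 := hne1 x b₁ hb₁1
  have hc₁a := hne_a c hla
  have hc₂a := hne_a c₁ hc₁a
  have hb₁Ω : b₁ ∉ Ω := fun h => hbΩ (hΩx' b h)
  have hb₂Ω : b₂ ∉ Ω := fun h => hb₁Ω (hΩx' b₁ h)
  have hc₁Ω := hΩx c hcΩ
  have hc₂Ω := hΩx c₁ hc₁Ω
  -- counting
  set A : Set G := Ω \ {a} with hA
  set B : Set G := {b, b₁, b₂} with hB
  set C : Set G := {c, c₁, c₂} with hCs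
  set U : Set G := (Q : Set G) \ {1, a} with hU
  have hQcard : (Q : Set G).ncard = 8 := by
    rw [← Nat.card_coe_set_eq]
    exact h8
  have hUcard : U.ncard = 6 := by
    have hsub : ({1, a} : Set G) ⊆ (Q : Set G) := by
      rintro y (rfl | rfl)
      · exact one_mem _
      · exact haQ
    rw [hU, Set.ncard_sdiff hsub, hQcard, Set.ncard_pair ha1.symm]
  have hBcard : B.ncard = 3 := ncard_three hb12 hb13 hb23
  have hCcard : C.ncard = 3 := ncard_three hc12 hc13 hc23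
  have hdisj : Disjoint A B := by
    rw [Set.disjoint_left]
    rintro y ⟨hy, -⟩ (rfl | rfl | rfl)
    · exact hbΩ hy
    · exact hb₁Ω hy
    · exact hb₂Ω hy
  have hsubU : A ∪ B ⊆ U := by
    rintro y (⟨hy, hya⟩ | hy)
    · refine ⟨hΩQ y hy, ?_⟩
      rintro (e | e)
      · exact hΩ1 y hy e
      · exact hya e
    · rcases hy with rfl | rfl | rfl
      · refine ⟨hbQ, ?_⟩
        rintro (e | e)
        · exact hb1 e
        · exact hba e
      · refine ⟨hb₁Q, ?_⟩
        rintro (e | e)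
        · exact hb₁1 e
        · exact hb₁a e
      · refine ⟨hb₂Q, ?_⟩
        rintro (e | e)
        · exact hb₂1 e
        · exact hb₂a e
  have hsubA : C ⊆ A := by
    rintro y (rfl | rfl | rfl)
    · exact ⟨hcΩ, hla⟩
    · exact ⟨hc₁Ω, hc₁a⟩
    · exact ⟨hc₂Ω, hc₂a⟩
  have h1 := Set.ncard_le_ncard hsubU (Set.toFinite _)
  rw [Set.ncard_union_eq hdisj (Set.toFinite _) (Set.toFinite _), hUcard, hBcard] at h1
  have h2 := Set.ncard_le_ncard hsubA (Set.toFinite _)
  rw [hCcard] at h2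
  have hA3 : A.ncard = 3 := by omega
  have hΩeq : Ω = insert a A := by
    ext y
    constructor
    · intro hy
      by_cases hya : y = a
      · exact Or.inl hya
      · exact Or.inr ⟨hy, hya⟩
    · rintro (rfl | hy)
      · exact haΩ
      · exact hy.1
  have hΩ4 : Ω.ncard = 4 := by
    rw [hΩeq, Set.ncard_insert_of_notMem (fun h => h.2 rfl) (Set.toFinite _), hA3]
  rw [hΩ4] at hodd
  exact absurd hodd (by decide)

/-- `L = ⟨K, T⟩`. -/
theorem lZero_eq : lZero M T K = K ⊔ T := by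
  have hTK := T_norm p
  have hPL := P_le p
  have hQP : pCoreOf 2 (K ⊔ T) ≤ K ⊔ T := pCoreOf_le
  have hQL := hQP.trans hPL
  have h6 : (pCoreOf 2 (K ⊔ T)).relIndex (lZero M T K) ≤ 6 := by
    rcases cards p with ⟨h4, -⟩ | ⟨h8, hF⟩
    · refine relIndex_le_six (A := ⊥) hQL (core_eq p) bot_le ?_ ?_ (fun q hq => Q_sq p hq) (fun g hg => Q_cen p hg)
      · intro l _ c hc
        rw [Subgroup.mem_bot] at hc
        rw [hc]
        group
      · rw [Subgroup.relIndex_bot_left]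
        exact h4
    · have h4 : Nat.card (omegaCenterOf (thompsonSubgroupOf 2 T)) = 4 := by
        rw [← F_eq p]
        exact hF
      obtain ⟨a, ha, ha1⟩ := exists_a p.isP p.hK.1.1 h4
      have hFQ : omegaCenterOf T ≤ pCoreOf 2 (K ⊔ T) := by
        rw [← inf_eq_F p]
        exact inf_le_left
      have haQ := hFQ (central_of_Zc p h4 ha ha1)
      have hs : a * a = 1 := Z0_sq (mem_Zc.mp ha).1
      have hzle : Subgroup.zpowers a ≤ pCoreOf 2 (K ⊔ T) := Subgroup.zpowers_le.mpr haQ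
      refine relIndex_le_six (A := Subgroup.zpowers a) hQL (core_eq p) hzle ?_ ?_
        (fun q hq => Q_sq p hq) (fun g hg => Q_cen p hg)
      · rintro l hl _ ⟨i, rfl⟩
        have h1 := central_in_L p h8 ha ha1 l hl
        have h2 : l * a = a * l := mul_inv_eq_iff_eq_mul.mp h1
        exact (Commute.zpow_right h2 i)
      · have h1 := Subgroup.relIndex_mul_relIndex ⊥ _ _ bot_le hzle
        rw [Subgroup.relIndex_bot_left, Subgroup.relIndex_bot_left, h8, Nat.card_zpowers] at h1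
        have h2 : orderOf a = 2 := orderOf_eq_prime (by rw [pow_two, hs]) ha1
        rw [h2] at h1
        omega
  have h1 := Subgroup.relIndex_mul_relIndex _ _ _ hQP hPL
  rw [core_idx p.h p.hTS p.hK hTK] at h1
  have hne : (K ⊔ T).relIndex (lZero M T K) ≠ 0 := (Nat.card_pos (α := lZero M T K ⧸ (K ⊔ T).subgroupOf (lZero M T K))).ne'
  have h2 : (K ⊔ T).relIndex (lZero M T K) = 1 := by omega
  exact le_antisymm (Subgroup.relIndex_eq_one.mp h2) hPL

end Pair

end Cfsg.Agent.Lib.Amalgam.Strad
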