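import Cfsg.Agent.Lib.Amalgam.Chain
import Cfsg.Agent.Lib.Amalgam.Good

/-!
# The swap lemma

Two commuting members with a common rank one partner are swapped by an element of `G`.
-/

set_option autoImplicit false

namespace Cfsg.Agent.Lib.Amalgam.Swap

open Cfsg Cfsg.Agent.Lib.Amalgam.RankOne Cfsg.Agent.Lib.Amalgam.RootSet Cfsg.Agent.Lib.Amalgam.CommCase
open Cfsg.Agent.Lib.Amalgam.Lines Cfsg.Agent.Lib.Amalgam.Components Cfsg.Agent.Lib.Amalgam.Good
open Cfsg.Agent.Lib.Amalgam.Chain Cfsg.Agent.Lib.Amalgam.Opposite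
open scoped commutatorElement

variable {G : Type*} [Group G] {S : Set (Subgroup G)}

/-- **Swap lemma.** If `A, C` commute and have a common rank one partner `Q`, some element of `G` swaps `A` and `C`. -/
theorem exists_swap {A C Q : Subgroup G} (hA : IsRankOnePair A Q) (hC : IsRankOnePair C Q) (hAC : ⁅A, C⁆ = ⊥) :
    ∃ g : G, conjBy A g = C ∧ conjBy C g = A := by
  obtain ⟨a, ha, ha1⟩ := exists_ne_one_left hA
  obtain ⟨q₁, hq₁, hq₁1, h₁⟩ := cond hA ha ha1
  obtain ⟨c, hc, hc1, h₂⟩ := cond' hC hq₁ hq₁1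
  have hac : a * c = c * a := comm_of_commutator_eq_bot hAC ha hc
  -- the two conjugates commute
  have hcom₁ : ⁅conjBy Q a, conjBy Q c⁆ = ⊥ := by
    rw [← h₁, ← h₂, ← conjBy_commutator, hAC, conjBy_bot]
  have e₁ : (a * c)⁻¹ * a = c⁻¹ := by
    rw [mul_inv_rev, inv_mul_cancel_right]
  have e₂ : (a * c)⁻¹ * c = a⁻¹ := by
    rw [hac, mul_inv_rev, inv_mul_cancel_right]
  have hcom₂ : ⁅conjBy Q a⁻¹, conjBy Q c⁻¹⁆ = ⊥ := by
    have := congrArg (fun U => conjBy U (a * c)⁻¹) hcom₁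
    simp only [conjBy_commutator, conjBy_conjBy, conjBy_bot, e₁, e₂] at this
    rw [Subgroup.commutator_comm]
    exact this
  obtain ⟨q₃, hq₃, hq₃1, h₃⟩ := cond hA (A.inv_mem ha) (by simpa using ha1)
  obtain ⟨c₃, hc₃, hc₃1, h₄⟩ := cond' hC hq₃ hq₃1
  have hcom₃ : ⁅conjBy Q a⁻¹, conjBy Q c₃⁆ = ⊥ := by
    rw [← h₃, ← h₄, ← conjBy_commutator, hAC, conjBy_bot]
  have hc₃eq : conjBy Q c₃ = conjBy Q c⁻¹ := by
    by_contra hne
    have hm₁ : conjBy Q c₃ ∈ unipotentSubgroups C Q := (mem_unipotent_iff hC).2 (Or.inr ⟨c₃, hc₃, rfl⟩)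
    have hm₂ : conjBy Q c⁻¹ ∈ unipotentSubgroups C Q := (mem_unipotent_iff hC).2 (Or.inr ⟨c⁻¹, C.inv_mem hc, rfl⟩)
    have hsup := sup_eq_of_mem_ne hC hm₁ hm₂ hne
    have hall : ∀ x ∈ conjBy Q a⁻¹, ∀ y ∈ C ⊔ Q, x * y = y * x := by
      intro x hx y hy
      rw [← hsup] at hy
      exact comm_sup_right (fun w hw u hu => comm_of_commutator_eq_bot hcom₃ hw hu)
        (fun w hw u hu => comm_of_commutator_eq_bot hcom₂ hw hu) x hx y hy
    obtain ⟨q, hq, hq1⟩ := exists_ne_one_right hA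
    have hne' : conjBy Q a⁻¹ ≠ Q := conjBy_right_ne hA (A.inv_mem ha) (by simpa using ha1)
    have hm₃ : conjBy Q a⁻¹ ∈ unipotentSubgroups A Q := (mem_unipotent_iff hA).2 (Or.inr ⟨a⁻¹, A.inv_mem ha, rfl⟩)
    have hcomm := hall _ (conj_mem_conjBy (g := a⁻¹) hq) q ((le_sup_right : Q ≤ C ⊔ Q) hq)
    have h9 := eq_one_of_comm_of_mem_ne hA hm₃ (right_mem_unipotent hA) hne' (conj_mem_conjBy hq) hq hq1 hcomm
    apply hq1
    have e : q = a * (a⁻¹ * q * a⁻¹⁻¹) * a⁻¹ := by group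
    rw [e, h9]; group
  refine ⟨q₃⁻¹ * (a * c)⁻¹ * q₁, ?_, ?_⟩
  · rw [← conjBy_conjBy, h₁, ← conjBy_conjBy, conjBy_conjBy Q, e₁, ← hc₃eq, ← h₄, conjBy_inv_conjBy]
  · rw [← conjBy_conjBy, h₂, ← conjBy_conjBy, conjBy_conjBy Q, e₂, ← h₃, conjBy_inv_conjBy]

/-- If `(U, V)` is a commutator pair and `P` is a rank one partner of every `U^v` then `(⁅U, V⁆, P)` is a commutator pair. -/
lemma case_of_line (hS : IsRootSubgroupSet S) {U V P : Subgroup G} (hcc : RootCommutatorCase S U V) (hU : U ∈ S)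
    (hV : V ∈ S) (hP : P ∈ S) (hall : ∀ v ∈ V, IsRankOnePair P (conjBy U v)) :
    RootCommutatorCase S ⁅U, V⁆ P := by
  have hUP : IsRankOnePair U P := by
    have := hall 1 V.one_mem
    simpa using RankOnePair_symm this
  obtain ⟨v, hv, hv1⟩ : ∃ v ∈ V, v ≠ 1 := by
    by_contra hh
    push Not at hh
    apply hS.ne_bot V hV
    rw [eq_bot_iff]
    intro x hx
    simpa using hh x hx
  have hpart := partition hS hcc hP hUP hU
  have hcomm : ⁅U, ⁅U, V⁆⁆ = ⊥ := commutator_eq_bot_of_comm (fun a ha c hc =>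
    (comm_central hcc hc ((le_sup_left : U ≤ U ⊔ V) ha)).symm)
  have hTle0 : conjBy U v ≤ U ⊔ ⁅U, V⁆ := conjBy_le_sup hcc hv
  have hsup : U ⊔ conjBy U v = U ⊔ ⁅U, V⁆ := by
    apply le_antisymm
    · exact sup_le le_sup_left hTle0
    · apply sup_le le_sup_left
      intro c hc
      obtain ⟨u, hu, huc⟩ := exists_comm_left hcc hv hv1 hc
      have e : u * v * u⁻¹ * v⁻¹ = u * (v * u⁻¹ * v⁻¹) := by group
      rw [← huc, e]
      exact (U ⊔ conjBy U v).mul_mem ((le_sup_left : U ≤ U ⊔ conjBy U v) hu)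
        ((le_sup_right : conjBy U v ≤ U ⊔ conjBy U v) (conj_mem_conjBy (U.inv_mem hu)))
  have hcomm' : ⁅U, conjBy U v⁆ = ⊥ := by
    apply commutator_eq_bot_of_comm
    intro a ha t ht
    obtain ⟨a', ha', c, hc, rfl⟩ := mem_sup_of_comm (fun u hu v hv => comm_of_commutator_eq_bot hcomm hu hv)
      (hTle0 ht)
    have c1 : Commute a a' := comm_of_isMulCommutative (hS.commutative U hU) ha ha'
    have c2 : Commute a c := comm_of_commutator_eq_bot hcomm ha hc
    exact (c1.mul_right c2).eq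
  have hmU : U ∈ membersIn S (U ⊔ ⁅U, V⁆) := ⟨hU, le_sup_left⟩
  have hmU' : conjBy U v ∈ membersIn S (U ⊔ ⁅U, V⁆) := ⟨hS.conj_mem U hU v, hTle0⟩
  have hinf : U ⊓ conjBy U v = ⊥ := hpart.2.2 _ hmU _ hmU' (conjBy_ne hS hcc hP hUP hv hv1).symm
  obtain ⟨T, hT, hTle, hTne, hTc⟩ := exists_case_of_two_partners hS hP hU (hS.conj_mem U hU v) (RankOnePair_symm hUP)
    (hall v hv) hcomm' hinf (fun x hx hx1 => by
      rw [hsup] at hx
      obtain ⟨T, hT, hxT⟩ := hpart.2.1 x hx hx1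
      refine ⟨T, hT.1, ?_, hxT⟩
      rw [hsup]
      exact hT.2)
  have hTm : T ∈ membersIn S (U ⊔ ⁅U, V⁆) := ⟨hT, hsup ▸ hTle⟩
  rw [members_eq hS hcc hP hUP hU] at hTm
  rcases hTm with ⟨v', hv', rfl⟩ | h2
  · exact absurd hTc.1 (by
      intro hm
      exact not_rankOne_of_commutator_mem hS hT hP hm (RankOnePair_symm (hall v' hv')))
  · rw [Set.mem_singleton_iff] at h2
    rwa [h2] at hTc

/-! ### Comparing partner sets -/

lemma mem_centralizing_iff {T U : Subgroup G} : T ∈ centralizingMembers S U ↔ T ∈ S ∧ ⁅T, U⁆ = ⊥ := by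
  unfold centralizingMembers
  rw [Set.mem_setOf_eq, Subgroup.commutator_eq_bot_iff_le_centralizer]

lemma rankOne_conj {A T : Subgroup G} (hT : T ∈ rankOnePartners S A) (hS : IsRootSubgroupSet S) (g : G) :
    conjBy T g ∈ rankOnePartners S (conjBy A g) :=
  ⟨hS.conj_mem T hT.1 g, rankOnePair_conjBy hT.2 g⟩

lemma centralizing_conj {A T : Subgroup G} (hT : T ∈ centralizingMembers S A) (hS : IsRootSubgroupSet S) (g : G) :
    conjBy T g ∈ centralizingMembers S (conjBy A g) := by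
  rw [mem_centralizing_iff] at hT ⊢
  exact ⟨hS.conj_mem T hT.1 g, by rw [← conjBy_commutator, hT.2, conjBy_bot]⟩

/-- In a degenerate or non-degenerate class without rank one partners all members commute. -/
lemma comm_of_no_rank_one (hS : IsRootSubgroupClass S) (hdn : IsDegenerateRootSet S ∨ IsNondegenerateRootSet S)
    {C : Subgroup G} (hC : C ∈ S) (hno : ∀ D ∈ S, ¬ IsRankOnePair C D) :
    ∀ T ∈ S, ∀ T' ∈ S, ⁅T, T'⁆ = ⊥ := by
  have hnr : ¬ ∃ A ∈ S, ∃ B ∈ S, IsRankOnePair A B := by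
    intro hex
    obtain ⟨D, hD, hCD⟩ := exists_rank_one_partner hS hex hC
    exact hno D hD hCD
  intro T hT T' hT'
  rcases hS.1.pair T hT T' hT' with h | h | h
  · exact h
  · exact absurd ⟨T, hT, T', hT', h⟩ hnr
  · rcases hdn with hd | hn
    · exact absurd h (hd T hT T' hT')
    · exact absurd hn.2.1 hnr

/-- If `Σ_A ⊆ Σ_C` then `Σ_A = Σ_C`. -/
theorem centralizing_eq_of_subset (hS : IsRootSubgroupClass S) (hdn : IsDegenerateRootSet S ∨ IsNondegenerateRootSet S)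
    {A C : Subgroup G} (hA : A ∈ S) (hC : C ∈ S)
    (h : centralizingMembers S A ⊆ centralizingMembers S C) :
    centralizingMembers S A = centralizingMembers S C := by
  have hAmem : A ∈ centralizingMembers S A := by
    rw [mem_centralizing_iff]
    exact ⟨hA, commutator_eq_bot_of_comm (fun a ha a' ha' => comm_of_isMulCommutative (hS.1.commutative A hA) ha ha')⟩
  have hAC : ⁅A, C⁆ = ⊥ := (mem_centralizing_iff.1 (h hAmem)).2
  by_cases hex : ∃ D ∈ S, IsRankOnePair C D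
  · obtain ⟨D, hD, hCD⟩ := hex
    have hAD : IsRankOnePair A D := by
      rcases hS.1.pair A hA D hD with h1 | h1 | h1
      · exfalso
        have hm : D ∈ centralizingMembers S A := by
          rw [mem_centralizing_iff]
          exact ⟨hD, by rw [Subgroup.commutator_comm]; exact h1⟩
        have h2 := (mem_centralizing_iff.1 (h hm)).2
        obtain ⟨c, hc, hc1⟩ := exists_ne_one_left hCD
        obtain ⟨d, hd, hd1⟩ := exists_ne_one_right hCD
        exact hc1 (eq_one_of_comm hCD hc hd hd1 (comm_of_commutator_eq_bot h2 hd hc).symm)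
      · exact h1
      · exfalso
        have hCA : ⁅C, A⁆ = ⊥ := by rw [Subgroup.commutator_comm]; exact hAC
        have hDA : ⁅D, A⁆ ∈ S := by rw [Subgroup.commutator_comm]; exact h1.1
        have hopp := opp_of_good hS.1 hC hD hA hCD hCA hDA
        have hm : ⁅D, A⁆ ∈ centralizingMembers S A := by
          rw [mem_centralizing_iff]
          refine ⟨hDA, commutator_eq_bot_of_comm (fun e he a ha => ?_)⟩
          rw [Subgroup.commutator_comm] at he
          exact comm_central h1 he ((le_sup_left : A ≤ A ⊔ D) ha)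
        have h2 := (mem_centralizing_iff.1 (h hm)).2
        have h3 : ⁅C, ⁅D, A⁆⁆ ∈ S := hopp.hC
        rw [Subgroup.commutator_comm, h2] at h3
        exact hS.1.ne_bot _ h3 rfl
    obtain ⟨g, hg₁, hg₂⟩ := exists_swap hAD hCD hAC
    apply Set.Subset.antisymm h
    intro T hT
    have h1 := centralizing_conj hT hS.1 g⁻¹
    have e1 : conjBy C g⁻¹ = A := by rw [← hg₁]; exact conjBy_inv_conjBy A g
    rw [e1] at h1
    have h2 := centralizing_conj (h h1) hS.1 g
    rwa [conjBy_conjBy_inv, hg₂] at h2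
  · have hall := comm_of_no_rank_one hS hdn hC (fun D hD hCD => hex ⟨D, hD, hCD⟩)
    ext T
    rw [mem_centralizing_iff, mem_centralizing_iff]
    exact ⟨fun hT => ⟨hT.1, hall T hT.1 C hC⟩, fun hT => ⟨hT.1, hall T hT.1 A hA⟩⟩

section NotComm

variable {A C : Subgroup G}

/-- First step: if `⁅A, C⁆ ∈ S` and `Ω_A ⊆ Ω_C` then `⁅C, A⁆` is in the commutator case with each member of `Ω_A`. -/
lemma case_of_subset (hS : IsRootSubgroupSet S) (hA : A ∈ S) (hC : C ∈ S) (hAC : ⁅A, C⁆ ∈ S)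
    (h : rankOnePartners S A ⊆ rankOnePartners S C) {B : Subgroup G} (hB : B ∈ rankOnePartners S A) :
    RootCommutatorCase S ⁅C, A⁆ B := by
  have hCA : ⁅C, A⁆ ∈ S := by rw [Subgroup.commutator_comm]; exact hAC
  refine case_of_line hS (commCase_of_mem hS hC hA hCA) hC hA hB.1 (fun a ha => ?_)
  have h1 := rankOne_conj hB hS a⁻¹
  rw [conjBy_eq_self (A.inv_mem ha)] at h1
  have h2 := rankOne_conj (h h1) hS a
  rw [conjBy_conjBy_inv] at h2
  exact RankOnePair_symm h2.2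

/-- Second step. -/
lemma case_of_partner (hS : IsRootSubgroupClass S) (hA : A ∈ S) (hC : C ∈ S) (hAC : ⁅A, C⁆ ∈ S)
    (h : rankOnePartners S A ⊆ rankOnePartners S C) {B : Subgroup G} (hB : B ∈ S) (hEB : IsRankOnePair ⁅C, A⁆ B) :
    RootCommutatorCase S A B := by
  have hCA : ⁅C, A⁆ ∈ S := by rw [Subgroup.commutator_comm]; exact hAC
  have hcc := commCase_of_mem hS.1 hC hA hCA
  have hcc' := commCase_of_mem hS.1 hA hC hAC
  rcases hS.1.pair A hA B hB with h1 | h1 | h1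
  · exfalso
    obtain ⟨P, hP, hAP⟩ := exists_rank_one_partner hS ⟨_, hCA, B, hB, hEB⟩ hA
    obtain ⟨a, ha, ha1⟩ := exists_ne_one_left hAP
    obtain ⟨c, hc, hc1⟩ : ∃ c ∈ C, c ≠ 1 := by
      by_contra hh
      push Not at hh
      apply hS.1.ne_bot C hC
      rw [eq_bot_iff]
      intro x hx
      simpa using hh x hx
    obtain ⟨e, hed⟩ : ∃ e, e = c * a * c⁻¹ * a⁻¹ := ⟨_, rfl⟩
    have he : e ∈ ⁅C, A⁆ := by
      rw [hed]; exact Subgroup.commutator_mem_commutator hc ha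
    have he1 : e ≠ 1 := by
      rw [hed]
      have h2 := comm_ne_one hS.1 hcc' hP hAP hA ha ha1 hc hc1
      intro h3
      apply h2
      have e3 : a * c * a⁻¹ * c⁻¹ = (c * a * c⁻¹ * a⁻¹)⁻¹ := by group
      rw [e3, h3]; simp
    have hea : a * e = e * a := (comm_central hcc he ((le_sup_right : A ≤ C ⊔ A) ha)).symm
    have hmem : a * e ∈ conjBy A c := by
      have e3 : a * e = c * a * c⁻¹ := by
        rw [hea, hed]; group
      rw [e3]; exact conj_mem_conjBy ha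
    have hne : a * e ≠ 1 := by
      have e3 : a * e = c * a * c⁻¹ := by
        rw [hea, hed]; group
      rw [e3]
      intro h3
      apply ha1
      have e4 : a = c⁻¹ * (c * a * c⁻¹) * c := by group
      rw [e4, h3]; group
    refine root_central_translate hS.1 hB hEB (z := a) (a := e) (F := conjBy A c) ?_ ?_ ha1 he he1
      (hS.1.conj_mem A hA c) hmem hne
    · intro x hx
      exact (comm_central hcc hx ((le_sup_right : A ≤ C ⊔ A) ha)).symm
    · intro x hx
      exact comm_of_commutator_eq_bot h1 ha hx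
  · exact absurd (case_of_subset hS.1 hA hC hAC h ⟨hB, h1⟩).1 (fun hm =>
      not_rankOne_of_commutator_mem hS.1 hCA hB hm hEB)
  · exact h1

/-- If `Ω_A ⊆ Ω_C`, `Ω_A` non-empty (in a class), then `(A, C)` is not in the commutator case. -/
theorem not_comm_of_subset (hS : IsRootSubgroupClass S) (hA : A ∈ S) (hC : C ∈ S) (hAC : ⁅A, C⁆ ∈ S)
    {Q : Subgroup G} (hQ : Q ∈ rankOnePartners S A)
    (h : rankOnePartners S A ⊆ rankOnePartners S C) : False := by
  have hCA : ⁅C, A⁆ ∈ S := by rw [Subgroup.commutator_comm]; exact hAC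
  have hcc := commCase_of_mem hS.1 hC hA hCA
  have hcc' := commCase_of_mem hS.1 hA hC hAC
  obtain ⟨B, hB, hEB⟩ := exists_rank_one_partner hS ⟨A, hA, Q, hQ.1, hQ.2⟩ hCA
  obtain ⟨c, hc, hc1⟩ : ∃ c ∈ C, c ≠ 1 := by
    by_contra hh
    push Not at hh
    apply hS.1.ne_bot C hC
    rw [eq_bot_iff]
    intro x hx
    simpa using hh x hx
  obtain ⟨b, hb, hb1⟩ := exists_ne_one_right hEB
  have hCcent : conjBy ⁅C, A⁆ c = ⁅C, A⁆ := conjBy_eq_self_of_comm (fun e he =>
    (comm_central hcc he ((le_sup_left : C ≤ C ⊔ A) hc)).symm)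
  have hA₁ : conjBy A c ∈ S := hS.1.conj_mem A hA c
  have hA₁C : ⁅conjBy A c, C⁆ = ⁅A, C⁆ := by
    have e1 : ⁅conjBy A c, C⁆ = ⁅conjBy A c, conjBy C c⁆ := by rw [conjBy_eq_self hc]
    rw [e1, ← conjBy_commutator, Subgroup.commutator_comm A C, hCcent]
  have hA₁sub : rankOnePartners S (conjBy A c) ⊆ rankOnePartners S C := by
    intro T hT
    have h1 := rankOne_conj hT hS.1 c⁻¹
    rw [conjBy_inv_conjBy] at h1
    have h2 := rankOne_conj (h h1) hS.1 c
    rwa [conjBy_conjBy_inv, conjBy_eq_self hc] at h2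
  have hc₁ : RootCommutatorCase S A B := case_of_partner hS hA hC hAC h hB hEB
  have hc₂ : RootCommutatorCase S (conjBy A c) B := by
    refine case_of_partner hS hA₁ hC (by rw [hA₁C]; exact hAC) hA₁sub hB ?_
    rw [Subgroup.commutator_comm, hA₁C, Subgroup.commutator_comm]
    exact hEB
  have hE_le : ⁅C, A⁆ ≤ A ⊔ conjBy A c := by
    intro e he
    obtain ⟨a, ha, hae⟩ := exists_comm_right hcc hc hc1 he
    have e1 : c * a * c⁻¹ * a⁻¹ = (c * a * c⁻¹) * a⁻¹ := rfl
    rw [← hae, e1]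
    exact (A ⊔ conjBy A c).mul_mem ((le_sup_right : conjBy A c ≤ A ⊔ conjBy A c) (conj_mem_conjBy ha))
      ((le_sup_left : A ≤ A ⊔ conjBy A c) (A.inv_mem ha))
  have hcomm : ⁅A, conjBy A c⁆ = ⊥ := by
    apply commutator_eq_bot_of_comm
    intro a ha t ht
    rw [mem_conjBy] at ht
    obtain ⟨a', ha'⟩ : ∃ a', a' = c⁻¹ * t * c := ⟨_, rfl⟩
    have ha'm : a' ∈ A := by
      rw [ha']; simpa using ht
    have et : t = (c * a' * c⁻¹ * a'⁻¹) * a' := by
      rw [ha']; group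
    have hem : c * a' * c⁻¹ * a'⁻¹ ∈ ⁅C, A⁆ := Subgroup.commutator_mem_commutator hc ha'm
    have c1 : Commute a (c * a' * c⁻¹ * a'⁻¹) := (comm_central hcc hem ((le_sup_right : A ≤ C ⊔ A) ha)).symm
    have c2 : Commute a a' := comm_of_isMulCommutative (hS.1.commutative A hA) ha ha'm
    rw [et]
    exact (c1.mul_right c2).eq
  have hchain : Chain S A B (conjBy A c) b :=
    ⟨hS.1, hA, hB, hA₁, hc₁.1, by rw [Subgroup.commutator_comm]; exact hc₂.1, hcomm, hb, hb1⟩
  have hnil := hchain.nilpotent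
  have hle : ⁅C, A⁆ ⊔ B ≤ A ⊔ B ⊔ conjBy A c := by
    apply sup_le
    · exact hE_le.trans (sup_le (le_sup_left.trans le_sup_left) le_sup_right)
    · exact le_sup_right.trans le_sup_left
  apply not_isNilpotent_sup hEB
  haveI := hnil
  have h2 : Group.IsNilpotent ↥((⁅C, A⁆ ⊔ B).subgroupOf (A ⊔ B ⊔ conjBy A c)) := Subgroup.isNilpotent _
  exact nilpotent_of_mulEquiv (Subgroup.subgroupOfEquivOfLe hle)

end NotComm

/-- If `Ω_A ⊆ Ω_C` then `A, C` commute and `Ω_A = Ω_C`. -/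
theorem rankOne_eq_of_subset (hS : IsRootSubgroupClass S) (hdn : IsDegenerateRootSet S ∨ IsNondegenerateRootSet S)
    {A C : Subgroup G} (hA : A ∈ S) (hC : C ∈ S)
    (h : rankOnePartners S A ⊆ rankOnePartners S C) :
    ⁅A, C⁆ = ⊥ ∧ rankOnePartners S A = rankOnePartners S C := by
  by_cases hex : ∃ D ∈ S, IsRankOnePair A D
  · obtain ⟨Q, hQ, hAQ⟩ := hex
    have hAC : ⁅A, C⁆ = ⊥ := by
      rcases hS.1.pair A hA C hC with h1 | h1 | h1
      · exact h1
      · exact ((h ⟨hC, h1⟩).2.ne rfl).elim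
      · exact (not_comm_of_subset hS hA hC h1.1 ⟨hQ, hAQ⟩ h).elim
    refine ⟨hAC, ?_⟩
    obtain ⟨g, hg₁, hg₂⟩ := exists_swap hAQ (h ⟨hQ, hAQ⟩).2 hAC
    apply Set.Subset.antisymm h
    intro T hT
    have h1 := rankOne_conj hT hS.1 g⁻¹
    have e1 : conjBy C g⁻¹ = A := by rw [← hg₁]; exact conjBy_inv_conjBy A g
    rw [e1] at h1
    have h2 := rankOne_conj (h h1) hS.1 g
    rwa [conjBy_conjBy_inv, hg₂] at h2
  · have hall := comm_of_no_rank_one hS hdn hA (fun D hD hCD => hex ⟨D, hD, hCD⟩)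
    refine ⟨hall A hA C hC, ?_⟩
    have hno : ¬ ∃ A ∈ S, ∃ B ∈ S, IsRankOnePair A B := by
      intro hh
      obtain ⟨D, hD, hCD⟩ := exists_rank_one_partner hS hh hA
      exact hex ⟨D, hD, hCD⟩
    ext T
    constructor
    · intro hT
      exact absurd ⟨A, hA, T, hT.1, hT.2⟩ hno
    · intro hT
      exact absurd ⟨C, hC, T, hT.1, hT.2⟩ hno

end Cfsg.Agent.Lib.Amalgam.Swap
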